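import Cfsg.Agent.J4Type67.Elementary

/-!
Janko-four type: the elementary abelian subgroups of order `2 ^ 11` of the centraliser.
-/

set_option autoImplicit false
set_option linter.style.haveILetI false
set_option linter.deprecated false
set_option linter.unusedSectionVars false
set_option linter.unusedVariables false

namespace CfsgLib.J4Type67.Setup

universe u

variable {H : Type u} [Group H] [Finite H] (d : Setup H)

/-- The shape of an elementary abelian subgroup of order `2 ^ 11`. -/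
theorem exists_shape {V : Subgroup H} (hVs : ∀ a ∈ V, a * a = 1) (hV : Nat.card V = 2 ^ 11) :
    ∃ g : M, (V.map d.π = (conjS g hex).map (MulAut.conj : M →* MulAut M)) ∧
      Nat.card ↥(V ⊓ d.E) = 2 ^ 7 := by
  have hVp : IsPGroup 2 V := fun v => ⟨1, Subtype.ext (by simpa [pow_two] using hVs _ v.2)⟩
  obtain ⟨T, hVT⟩ := hVp.exists_le_sylow
  obtain ⟨S, hS⟩ := d.innPre_eq_sylow T
  obtain ⟨g, -, hcases⟩ := elem_in_sylow S
  rw [← hS] at hcases
  obtain ⟨h1, h2⟩ := d.shape T hcases hVT (fun a ha b hb => comm_of_sq hVs ha hb) hVs hV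
  have hD : Nat.card ↥(V ⊓ d.E) = 2 ^ 7 := by
    rw [h2, d.card_pre, d.rep.card_F_conj, d.rep.card_F_hex]
    norm_num
  refine ⟨g, Subgroup.eq_of_le_of_card_ge (Subgroup.map_le_iff_le_comap.2 fun v hv => h1 v hv) ?_, hD⟩
  rw [Subgroup.card_map_of_injective conj_injective_M, card_conjS, card_hex]
  let f : V →* MulAut M := d.π.comp V.subtype
  have hf := Subgroup.card_mul_index f.ker
  rw [Subgroup.index_ker] at hf
  have hr : f.range = V.map d.π := by
    rw [MonoidHom.range_eq_map, ← Subgroup.map_map, ← MonoidHom.range_eq_map, Subgroup.range_subtype]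
  have hk : Nat.card f.ker = Nat.card ↥(V ⊓ d.E) := Nat.card_congr
    { toFun := fun v => ⟨v.1.1, v.1.2, d.ker_inf_sylow T (hVT v.1.2) v.2⟩
      invFun := fun x => ⟨⟨x.1, x.2.1⟩, d.E_le x.2.2⟩
      left_inv := fun _ => rfl
      right_inv := fun _ => rfl }
  rw [hr, hk, hD, hV] at hf
  omega

include d in
/-- Elementary abelian subgroups of order `2 ^ 11` are conjugate. -/
theorem exists_conj_elementary {V W : Subgroup H} (hVs : ∀ a ∈ V, a * a = 1)
    (hV : Nat.card V = 2 ^ 11) (hWs : ∀ a ∈ W, a * a = 1) (hW : Nat.card W = 2 ^ 11) :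
    ∃ h : H, conjS h W = V := by
  have hVp : IsPGroup 2 V := fun v => ⟨1, Subtype.ext (by simpa [pow_two] using hVs _ v.2)⟩
  have hWp : IsPGroup 2 W := fun v => ⟨1, Subtype.ext (by simpa [pow_two] using hWs _ v.2)⟩
  obtain ⟨T, hVT⟩ := hVp.exists_le_sylow
  obtain ⟨T', hWT⟩ := hWp.exists_le_sylow
  haveI : Fact (Nat.Prime 2) := ⟨Nat.prime_two⟩
  obtain ⟨h, rfl⟩ := MulAction.exists_smul_eq H T' T
  refine ⟨h, (d.existsUnique_elementary _).unique ⟨?_, ?_, ?_⟩
    ⟨hVT, ⟨fun a ha b hb => comm_of_sq hVs ha hb, hVs⟩, hV⟩⟩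
  · rw [Sylow.coe_subgroup_smul]
    exact Subgroup.map_mono hWT
  · have hs : ∀ a ∈ conjS h W, a * a = 1 := by
      rintro _ ⟨b, hb, rfl⟩
      rw [← map_mul, hWs b hb, map_one]
    exact ⟨fun a ha b hb => comm_of_sq hs ha hb, hs⟩
  · rw [card_conjS, hW]

/-- A Sylow 2-subgroup normalises its elementary abelian subgroup of order `2 ^ 11`. -/
theorem E_le_normalizer {V : Subgroup H} (hVs : ∀ a ∈ V, a * a = 1) (hV : Nat.card V = 2 ^ 11) :
    d.E ≤ Subgroup.normalizer (V : Set H) := by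
  have hVp : IsPGroup 2 V := fun v => ⟨1, Subtype.ext (by simpa [pow_two] using hVs _ v.2)⟩
  obtain ⟨T, hVT⟩ := hVp.exists_le_sylow
  have key : ∀ e ∈ (T : Subgroup H), conjS e V = V := fun e he => by
    refine (d.existsUnique_elementary T).unique ⟨?_, ?_, ?_⟩
      ⟨hVT, ⟨fun a ha b hb => comm_of_sq hVs ha hb, hVs⟩, hV⟩
    · rintro _ ⟨b, hb, rfl⟩
      exact mul_mem (mul_mem he (hVT hb)) (inv_mem he)
    · have hs : ∀ a ∈ conjS e V, a * a = 1 := by
        rintro _ ⟨b, hb, rfl⟩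
        rw [← map_mul, hVs b hb, map_one]
      exact ⟨fun a ha b hb => comm_of_sq hs ha hb, hs⟩
    · rw [card_conjS, hV]
  intro e he
  rw [Subgroup.mem_normalizer_iff]
  intro x
  conv_rhs => rw [← key e (d.E_le_sylow T he), mem_conjS]
  simp [mul_assoc]

end CfsgLib.J4Type67.Setup
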