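import Cfsg.Agent.J4Type67.Facts
import Cfsg.Agent.Jf18.M22Data
import Cfsg.Agent.Mathieu.Classes

/-!
Finite facts on `M22` used for groups of Janko-four type: classes of involutions and of elements
of order three, the centraliser of an element of order three, the Sylow 3-normaliser, and the two
elementary subgroups of order sixteen.
-/

set_option autoImplicit false
set_option maxRecDepth 100000

namespace CfsgLib.Jf18.M22

open CfsgLib.J4Type67 CfsgLib.Mathieu CfsgLib.Mathieu.Code Cfsg
open scoped Pointwise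

attribute [local irreducible] enc

/-! ### Coding -/

theorem el_mul {p q s : ℕ × ℕ} (hp : elOK p = true) (hq : elOK q = true) (hs : elOK s = true)
    (h : cmpC p.1 q.1 = s.1) : el p * el q = el s :=
  eq_el hs (by rw [cm_mul, (el_spec hp).1, (el_spec hq).1, h])

theorem el_ne_one {p : ℕ × ℕ} (hp : elOK p = true) (h : p.1 ≠ idC) : el p ≠ 1 := fun e =>
  h (by rw [← (el_spec hp).1, e, cm_one])

/-- The table of a code. -/
def tabC (c : ℕ) : List ℕ := (List.range 24).map (Code.ap c)

theorem tabC_cm (m : M) : tabC (cm m) = toTab (m : Equiv.Perm GolayPt) :=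
  List.map_congr_left fun i hi => Code.ap_code _ (List.mem_range.1 hi)

theorem mem_M24 (m : M) : (m : Equiv.Perm GolayPt) ∈ M24 := m.2.1.1

theorem fix_zero (m : M) : (m : Equiv.Perm GolayPt) (i2p 0) = i2p 0 := m.2.2

theorem fix_none (m : M) : (m : Equiv.Perm GolayPt) (i2p 23) = i2p 23 := m.2.1.2

theorem factor_two : (443520 : ℕ).factorization 2 = 7 := by
  rw [show (443520 : ℕ) = 2 ^ 7 * 3465 by norm_num,
    Nat.factorization_mul (by norm_num) (by norm_num), Nat.Prime.factorization_pow Nat.prime_two]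
  simp [Nat.factorization_eq_zero_of_not_dvd (by norm_num : ¬(2 ∣ 3465))]

theorem factor_three : (443520 : ℕ).factorization 3 = 2 := by
  rw [show (443520 : ℕ) = 3 ^ 2 * 49280 by norm_num,
    Nat.factorization_mul (by norm_num) (by norm_num), Nat.Prime.factorization_pow Nat.prime_three]
  simp [Nat.factorization_eq_zero_of_not_dvd (by norm_num : ¬(3 ∣ 49280))]

/-! ### Involutions -/

/-- Conjugating elements for the involutions of the Sylow subgroup. -/
def invGens : List (ℕ × ℕ) := certM22.pc ++ certM22.conjs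

/-- Which known involution is conjugated by which element. -/
def invSched : List (ℕ × ℕ) :=
  [(0, 7), (0, 9), (1, 0), (1, 1), (1, 2), (1, 3), (2, 0), (2, 1), (2, 3), (2, 7), (3, 1), (3, 2),
    (3, 4), (3, 7), (5, 9), (6, 8), (7, 1), (7, 3), (8, 0), (8, 3), (10, 1), (10, 3), (11, 9),
    (14, 0), (15, 0), (16, 1), (16, 2), (16, 3), (21, 3), (23, 1), (26, 2), (26, 3), (27, 1),
    (27, 3)]

/-- One conjugation of a listed involution. -/
def invNext (L : List ℕ) (s : ℕ × ℕ) : List ℕ :=
  L ++ [cmpC (cmpC (invGens.getD s.2 (idC, idC)).1 (L.getD s.1 certM22.z))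
    (invGens.getD s.2 (idC, idC)).2]

/-- The involutions reached from the central one. -/
def invReach : List ℕ := invSched.foldl invNext [certM22.z]

theorem invReach_ok : elOK (certM22.z, certM22.z) = true ∧ invGens.all elOK = true ∧
    elOK (idC, idC) = true ∧
    ((spanR certM22.pc).all fun x =>
      x == idC || !(cmpC x x == idC) || invReach.contains x) = true := by
  decide +kernel

theorem invReach_conj : ∀ a ∈ invReach, ∃ g : M,
    cm g = a ∧ IsConj (el (certM22.z, certM22.z)) g := by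
  obtain ⟨hz, hgens, hid, -⟩ := invReach_ok
  suffices h : ∀ (l : List (ℕ × ℕ)) (L : List ℕ),
      (∀ a ∈ L, ∃ g : M, cm g = a ∧ IsConj (el (certM22.z, certM22.z)) g) →
      ∀ a ∈ l.foldl invNext L, ∃ g : M, cm g = a ∧ IsConj (el (certM22.z, certM22.z)) g from
    h invSched _ fun a ha => ⟨_, by rw [List.mem_singleton.1 ha, (el_spec hz).1], IsConj.refl _⟩
  intro l
  induction l with
  | nil => exact fun L hL => hL
  | cons s l ih =>
    intro L hL
    refine ih _ fun a ha => ?_
    rcases List.mem_append.1 ha with ha | ha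
    · exact hL a ha
    rw [List.mem_singleton] at ha
    obtain ⟨g, hg, hzg⟩ : ∃ g : M, cm g = L.getD s.1 certM22.z ∧
        IsConj (el (certM22.z, certM22.z)) g := by
      rcases lt_or_ge s.1 L.length with h | h
      · rw [List.getD_eq_getElem _ _ h]; exact hL _ (List.getElem_mem h)
      · rw [List.getD_eq_default _ _ h]
        exact ⟨_, (el_spec hz).1, IsConj.refl _⟩
    have hc : elOK (invGens.getD s.2 (idC, idC)) = true := by
      rcases lt_or_ge s.2 invGens.length with h | h
      · rw [List.getD_eq_getElem _ _ h]; exact List.all_eq_true.1 hgens _ (List.getElem_mem h)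
      · rw [List.getD_eq_default _ _ h]; exact hid
    refine ⟨el (invGens.getD s.2 (idC, idC)) * g * (el (invGens.getD s.2 (idC, idC)))⁻¹, ?_,
      hzg.trans (isConj_iff.2 ⟨_, rfl⟩)⟩
    rw [ha, cm_conj, (el_spec hc).1, (el_spec hc).2, hg]

theorem isConj_central {x : M} (hx : x ∈ syl) (h2 : x * x = 1) (h1 : x ≠ 1) :
    IsConj (el (certM22.z, certM22.z)) x := by
  obtain ⟨-, -, -, -, -, -, h7, -, -, -, -⟩ := basis_ok
  have h := List.all_eq_true.1 invReach_ok.2.2.2 _ ((mem_sub h7).1 hx)
  simp only [Bool.or_eq_true, beq_iff_eq, Bool.not_eq_true', beq_eq_false_iff_ne, ne_eq,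
    List.contains_eq_mem, decide_eq_true_eq] at h
  rcases h with (h | h) | h
  · exact absurd (cm_injective (h.trans cm_one.symm)) h1
  · exact absurd (by rw [← cm_mul, h2, cm_one]) h
  · obtain ⟨g, hg, hzg⟩ := invReach_conj _ h
    rwa [← cm_injective hg]

theorem exists_conj_invol {a b : M} (ha : orderOf a = 2) (hb : orderOf b = 2) :
    ∃ g : M, g * a * g⁻¹ = b := by
  have : Fact (Nat.Prime 2) := ⟨Nat.prime_two⟩
  set z := el (certM22.z, certM22.z)
  let S₀ : Sylow 2 M := Sylow.ofCard syl (by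
    rw [card_syl, CfsgLib.Mathieu.card_M22, factor_two]; norm_num)
  suffices h : ∀ x : M, orderOf x = 2 → IsConj z x from
    isConj_iff.1 ((h a ha).symm.trans (h b hb))
  intro x ho
  obtain ⟨P, hP⟩ := (IsPGroup.of_card (G := Subgroup.zpowers x) (n := 1)
    (by rw [Nat.card_zpowers, ho, pow_one]) : IsPGroup 2 _).exists_le_sylow
  obtain ⟨g, hg⟩ := MulAction.exists_smul_eq M P S₀
  have hmem : g * x * g⁻¹ ∈ (S₀ : Subgroup M) := by
    rw [← hg]
    exact Subgroup.mem_map_of_mem _ (hP (Subgroup.mem_zpowers x))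
  have hx : x * x = 1 := by rw [← pow_two, ← ho, pow_orderOf_eq_one]
  have hx1 : x ≠ 1 := fun e => by rw [e, orderOf_one] at ho; norm_num at ho
  have h := isConj_central (x := g * x * g⁻¹) hmem
    (by rw [conj_mul, hx, mul_one, mul_inv_cancel]) (fun e => hx1 (conj_eq_one_iff.1 e))
  exact h.trans (isConj_iff.2 ⟨g, rfl⟩ : IsConj x _).symm

theorem sq_facts : ((spanR certM22.pc).any fun x => cmpC x x != idC &&
    cmpC (cmpC x x) (cmpC x x) == idC) = true := by decide +kernel

theorem exists_sq {a : M} (ha : orderOf a = 2) : ∃ b : M, b * b = a := by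
  have : Fact (Nat.Prime 2) := ⟨Nat.prime_two⟩
  have h := sq_facts
  obtain ⟨-, -, -, -, -, -, h7, -, -, -, -⟩ := basis_ok
  simp only [List.any_eq_true, Bool.and_eq_true, bne_iff_ne, beq_iff_eq, ne_eq] at h
  obtain ⟨x, hx, h1, h2⟩ := h
  obtain ⟨g, rfl⟩ := (spanSpec _ h7).exists_code x hx
  obtain ⟨m, hm⟩ : ∃ m : M, cm m = code g :=
    ⟨⟨g, grpOf_le basis_ok.2.2.2.2.2.2.2.1 (((spanSpec _ h7).mem_iff g).2 hx)⟩, rfl⟩
  have hmm : orderOf (m * m) = 2 := orderOf_eq_prime
    (cm_injective (by rw [pow_two, cm_mul, cm_mul, hm, cm_one]; exact h2))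
    (fun e => h1 (by rw [← hm, ← cm_mul, e, cm_one]))
  obtain ⟨c, hc⟩ := exists_conj_invol hmm ha
  exact ⟨c * m * c⁻¹, by rw [conj_mul, hc]⟩

/-- Two involutions with product of order five. -/
def fiveInvs : (ℕ × ℕ) × (ℕ × ℕ) :=
  ((984147055726619060556299833106374688, 984147055726619060556299833106374688),
   (984110795295383836133250148513193536, 984110795295383836133250148513193536))

theorem fiveInvs_ok : elOK fiveInvs.1 = true ∧ elOK fiveInvs.2 = true ∧
    elOK hexFive = true ∧ elOK (idC, idC) = true ∧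
    fiveInvs.1.1 != idC ∧ hexFive.1 != idC ∧
    cmpC fiveInvs.1.1 fiveInvs.1.1 = idC ∧ cmpC fiveInvs.2.1 fiveInvs.2.1 = idC ∧
    cmpC fiveInvs.1.1 fiveInvs.2.1 = hexFive.1 ∧ wordC [hexFive] [0, 0, 0, 0, 0] = idC := by
  decide +kernel

theorem exists_inverted_five {a : M} (ha : orderOf a = 2) :
    ∃ v : M, orderOf v = 5 ∧ a * v * a⁻¹ = v⁻¹ := by
  obtain ⟨h1, h2, h3, h4, h5, h6, h7, h8, h9, h10⟩ := fiveInvs_ok
  simp only [bne_iff_ne, ne_eq] at h5 h6
  set a₀ := el fiveInvs.1
  set b₀ := el fiveInvs.2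
  have haa : a₀ * a₀ = 1 := by rw [el_mul h1 h1 h4 h7, el_id]
  have hbb : b₀ * b₀ = 1 := by rw [el_mul h2 h2 h4 h8, el_id]
  have hab : a₀ * b₀ = el hexFive := el_mul h1 h2 h3 h9
  have h5' : orderOf (a₀ * b₀) = 5 := by
    have : Fact (Nat.Prime 5) := ⟨by norm_num⟩
    rw [hab]
    exact orderOf_eq_prime (el_pow_five h3 h10) (el_ne_one h3 h6)
  have ho : orderOf a₀ = 2 := by
    have : Fact (Nat.Prime 2) := ⟨Nat.prime_two⟩
    exact orderOf_eq_prime (by rw [pow_two, haa]) (el_ne_one h1 h5)
  obtain ⟨c, hc⟩ := exists_conj_invol ho ha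
  refine ⟨c * (a₀ * b₀) * c⁻¹, ?_, ?_⟩
  · rw [show c * (a₀ * b₀) * c⁻¹ = MulAut.conj c (a₀ * b₀) from rfl, MulEquiv.orderOf_eq, h5']
  · have e : a₀ * (a₀ * b₀) * a₀⁻¹ = (a₀ * b₀)⁻¹ := by
      rw [← mul_assoc, haa, one_mul, mul_inv_rev, inv_eq_of_mul_eq_one_right hbb]
    rw [← hc]
    calc c * a₀ * c⁻¹ * (c * (a₀ * b₀) * c⁻¹) * (c * a₀ * c⁻¹)⁻¹
        = c * (a₀ * (a₀ * b₀) * a₀⁻¹) * c⁻¹ := by group
      _ = _ := by rw [e]; group

theorem hex_basis_mem : el (hexBasis.getD 0 (idC, idC)) ∈ hex ∧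
    el (hexBasis.getD 0 (idC, idC)) ≠ 1 := by
  obtain ⟨hb, hb', -⟩ := basis_ok
  have h : elOK (hexBasis.getD 0 (idC, idC)) = true ∧
      (spanR hexBasis).contains (hexBasis.getD 0 (idC, idC)).1 = true ∧
      ((hexBasis.getD 0 (idC, idC)).1 != idC) = true := by decide +kernel
  exact ⟨el_mem_sub hb h.1 h.2.1, el_ne_one h.1 (bne_iff_ne.1 h.2.2)⟩

theorem exists_hex {a : M} (ha : orderOf a = 2) : ∃ g : M, a ∈ conjS g hex := by
  have : Fact (Nat.Prime 2) := ⟨Nat.prime_two⟩
  obtain ⟨h1, h2⟩ := hex_basis_mem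
  obtain ⟨g, hg⟩ := exists_conj_invol
    (orderOf_eq_prime (by rw [pow_two, sq_hex _ h1]) h2) ha
  exact ⟨g, el (hexBasis.getD 0 (idC, idC)), h1, hg⟩

/-! ### The subgroups of order sixteen -/

/-- The codes of the second list lie in the span of the first, and what commutes with a basis lies
in its span. -/
theorem syl_facts :
    (spanR hexBasis).all (fun x => (spanR certM22.pc).contains x) = true ∧
    (spanR duadBasis).all (fun x => (spanR certM22.pc).contains x) = true ∧
    (spanR certM22.pc).all (fun x => !((spanR hexBasis).all fun b => cmpC x b == cmpC b x) ||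
      (spanR hexBasis).contains x) = true ∧
    (spanR certM22.pc).all (fun x => !((spanR duadBasis).all fun b => cmpC x b == cmpC b x) ||
      (spanR duadBasis).contains x) = true := by
  decide +kernel

theorem sub_le_syl {b : List (ℕ × ℕ)} (hb : pcOK b = true)
    (h : (spanR b).all (fun x => (spanR certM22.pc).contains x) = true) : sub b ≤ syl := by
  intro x hx
  obtain ⟨-, -, -, -, -, -, h7, -, -, -, -⟩ := basis_ok
  rw [syl, mem_sub h7]
  simpa using List.all_eq_true.1 h _ ((mem_sub hb).1 hx)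

theorem hex_le_syl : hex ≤ syl := sub_le_syl basis_ok.1 syl_facts.1

theorem duad_le_syl : duad ≤ syl := sub_le_syl basis_ok.2.2.2.1 syl_facts.2.1

theorem mem_sub_of_commute {b : List (ℕ × ℕ)} (hb : pcOK b = true) (hb' : b.all elOK = true)
    (hle : sub b ≤ syl)
    (h : (spanR certM22.pc).all (fun x => !((spanR b).all fun c => cmpC x c == cmpC c x) ||
      (spanR b).contains x) = true) {x : M} (hx : x ∈ syl) (hc : ∀ d ∈ sub b, Commute x d) :
    x ∈ sub b := by
  obtain ⟨-, -, -, -, -, -, h7, -, -, -, -⟩ := basis_ok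
  have hx' := List.all_eq_true.1 h _ ((mem_sub h7).1 hx)
  simp only [Bool.or_eq_true, Bool.not_eq_true', List.contains_eq_mem, decide_eq_true_eq] at hx'
  rcases hx' with h' | h'
  · exfalso
    have : ((spanR b).all fun c => cmpC (cm x) c == cmpC c (cm x)) = true := by
      rw [List.all_eq_true]
      intro c hc'
      obtain ⟨g, rfl⟩ := (spanSpec b hb).exists_code c hc'
      have hg : g ∈ Cfsg.Spor.M22 := grpOf_le hb' (((spanSpec b hb).mem_iff g).2 hc')
      have := hc ⟨g, hg⟩ ((mem_sub hb).2 hc')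
      rw [beq_iff_eq, show code g = cm ⟨g, hg⟩ from rfl, ← cm_mul, ← cm_mul, this.eq]
    rw [this] at h'
    exact Bool.false_ne_true h'.symm
  · exact (mem_sub hb).2 h'

theorem mem_of_commute {g : M} {A : Subgroup M} (hA : A = conjS g hex ∨ A = conjS g duad) {a : M}
    {k : ℕ} (hk : a ^ 2 ^ k = 1) (hc : ∀ d ∈ A, Commute a d) : a ∈ A := by
  have : Fact (Nat.Prime 2) := ⟨Nat.prime_two⟩
  suffices key : ∀ B : Subgroup M, (B = hex ∨ B = duad) → ∀ x : M, x ^ 2 ^ k = 1 →
      (∀ d ∈ B, Commute x d) → x ∈ B by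
    obtain ⟨B, hB, rfl⟩ : ∃ B : Subgroup M, (B = hex ∨ B = duad) ∧ A = conjS g B := by
      rcases hA with h | h
      exacts [⟨_, Or.inl rfl, h⟩, ⟨_, Or.inr rfl, h⟩]
    rw [mem_conjS]
    refine key B hB _ ?_ fun d hd => ?_
    · have := conj_pow (i := 2 ^ k) (a := g⁻¹) (b := a)
      rw [inv_inv, hk, mul_one, inv_mul_cancel] at this
      exact this
    · have h := hc (g * d * g⁻¹) ⟨d, hd, rfl⟩
      have := h.map (MulAut.conj g⁻¹).toMonoidHom
      simpa [mul_assoc] using this
  intro B hB x hx hxc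
  obtain ⟨hsq, hcard⟩ : (∀ b ∈ B, b * b = 1) ∧ Nat.card B = 16 := by
    rcases hB with rfl | rfl
    exacts [⟨sq_hex, card_hex⟩, ⟨sq_duad, card_duad⟩]
  have hxn : Subgroup.zpowers x ≤ Subgroup.normalizer (B : Set M) := Subgroup.zpowers_le.2 <|
    Subgroup.mem_normalizer_iff.2 fun d => by
      constructor
      · intro hd; rw [(hxc d hd).eq, mul_inv_cancel_right]; exact hd
      · intro hd
        have e' : x * d * x⁻¹ = d :=
          mul_left_cancel (a := x) (by rw [(hxc _ hd).eq, inv_mul_cancel_right])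
        rwa [e'] at hd
  have hp : IsPGroup 2 ↥(B ⊔ Subgroup.zpowers x) := by
    refine IsPGroup.to_sup_of_normal_left' ?_ ?_ hxn
    · exact fun b => ⟨1, Subtype.ext (by simpa [pow_two] using hsq b.1 b.2)⟩
    · intro b
      obtain ⟨i, hi⟩ := b.2
      refine ⟨k, Subtype.ext ?_⟩
      rw [SubmonoidClass.coe_pow, ← hi, ← zpow_natCast, ← zpow_mul, mul_comm, zpow_mul,
        zpow_natCast, hx, one_zpow]
      rfl
  obtain ⟨S, hS⟩ := hp.exists_le_sylow
  obtain ⟨c, -, huniq⟩ := elem_in_sylow S
  let S₀ : Sylow 2 M := Sylow.ofCard syl (by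
    rw [card_syl, CfsgLib.Mathieu.card_M22, factor_two]; norm_num)
  obtain ⟨t, ht⟩ := MulAction.exists_smul_eq M S S₀
  have hmv : ∀ y ∈ B ⊔ Subgroup.zpowers x, t * y * t⁻¹ ∈ syl := fun y hy => by
    have : t * y * t⁻¹ ∈ (S₀ : Subgroup M) := by
      rw [← ht]; exact Subgroup.mem_map_of_mem _ (hS hy)
    exact this
  have hB' : conjS t B = hex ∨ conjS t B = duad := by
    refine elem_in_syl ?_ (by rw [card_conjS, hcard]) ?_
    · rintro _ ⟨b, hb, rfl⟩
      show MulAut.conj t b * MulAut.conj t b = 1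
      rw [← map_mul, hsq b hb, map_one]
    · rintro _ ⟨b, hb, rfl⟩
      exact hmv b (Subgroup.mem_sup_left hb)
  obtain ⟨hb, hb'⟩ := And.intro basis_ok.1 basis_ok.2.1
  have hcx : ∀ d ∈ conjS t B, Commute (t * x * t⁻¹) d := by
    rintro _ ⟨d, hd, rfl⟩
    exact (hxc d hd).map (MulAut.conj t).toMonoidHom
  have hxS := hmv x (Subgroup.mem_sup_right (Subgroup.mem_zpowers x))
  have : t * x * t⁻¹ ∈ conjS t B := by
    rcases hB' with e | e
    · rw [e] at hcx ⊢
      exact mem_sub_of_commute basis_ok.1 basis_ok.2.1 hex_le_syl syl_facts.2.2.1 hxS hcx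
    · rw [e] at hcx ⊢
      exact mem_sub_of_commute basis_ok.2.2.2.1 basis_ok.2.2.2.2.1 duad_le_syl syl_facts.2.2.2
        hxS hcx
  rw [mem_conjS] at this
  simpa [mul_assoc] using this

/-! ### Elements of order three -/

theorem three_facts :
    elOK threeY = true ∧ elOK threeN = true ∧
    threeR.all elOK = true ∧ threeC.all elOK = true ∧ threeMove.all elOK = true := by
  decide +kernel

theorem three_rel :
    (threeY.1 != idC && cmpC threeY.1 (cmpC threeY.1 threeY.1) == idC) = true ∧
    (threeR.map Prod.fst).contains threeY.1 = true ∧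
    (threeR.map Prod.fst).contains threeN.1 = true ∧
    (threeR.map Prod.fst).contains idC = true ∧
    threeR.all (fun a => threeR.all fun b => (threeR.map Prod.fst).contains (cmpC a.1 b.1)) = true ∧
    threeR.all (fun a => cmpC a.1 (cmpC a.1 a.1) == idC) = true ∧
    threeR.all (fun a => cmpC a.1 threeY.1 == cmpC threeY.1 a.1) = true ∧
    decide ((threeR.map Prod.fst).Nodup) = true ∧ threeR.length = 9 := by
  decide +kernel

theorem three_cent_rel :
    threeC.all (fun a => cmpC a.1 threeY.1 == cmpC threeY.1 a.1) = true ∧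
    decide ((threeC.map Prod.fst).Nodup) = true ∧ threeC.length = 36 ∧
    threeC.all (fun a => !(threeR.all fun b => (threeR.map Prod.fst).contains
      (cmpC (cmpC a.1 b.1) a.2)) || (threeR.map Prod.fst).contains a.1) = true := by
  decide +kernel

theorem three_move_rel :
    threeMove.all (fun g => threeR.all fun b => (threeR.map Prod.fst).contains
      (cmpC (cmpC g.1 b.1) g.2)) = true ∧
    threeR.all (fun t => t.1 == idC || threeMove.any fun g =>
      cmpC (cmpC g.1 threeY.1) g.2 == t.1) = true := by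
  decide +kernel

/-- The chosen element of order three. -/
noncomputable abbrev yM : M := el threeY

theorem order_yM : orderOf yM = 3 := by
  have h := three_rel.1
  simp only [Bool.and_eq_true, bne_iff_ne, beq_iff_eq, ne_eq] at h
  have : Fact (Nat.Prime 3) := ⟨Nat.prime_three⟩
  refine orderOf_eq_prime (cm_injective ?_) (el_ne_one three_facts.1 h.1)
  rw [pow_succ', pow_two, cm_mul, cm_mul, cm_one, (el_spec three_facts.1).1, h.2]

theorem exists_el {l : List (ℕ × ℕ)} (hl : l.all elOK = true) {c : ℕ}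
    (hc : c ∈ l.map Prod.fst) : ∃ p ∈ l, p.1 = c ∧ cm (el p) = c ∧ cm (el p)⁻¹ = p.2 := by
  obtain ⟨p, hp, rfl⟩ := List.mem_map.1 hc
  exact ⟨p, hp, rfl, el_spec (List.all_eq_true.1 hl p hp)⟩

/-- The subgroup of order nine. -/
noncomputable def R9 : Subgroup M where
  carrier := {m | cm m ∈ threeR.map Prod.fst}
  one_mem' := by
    obtain ⟨-, -, -, h, -⟩ := three_rel
    show cm (1 : M) ∈ threeR.map Prod.fst
    rw [cm_one]; simpa using h
  mul_mem' := by
    intro a b ha hb
    obtain ⟨-, -, -, -, h, -⟩ := three_rel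
    obtain ⟨p, hp, e⟩ := List.mem_map.1 ha
    obtain ⟨q, hq, f⟩ := List.mem_map.1 hb
    show cm (a * b) ∈ threeR.map Prod.fst
    rw [cm_mul, ← e, ← f]
    simpa using List.all_eq_true.1 (List.all_eq_true.1 h p hp) q hq
  inv_mem' := by
    intro a ha
    obtain ⟨-, -, -, -, h, h3, -⟩ := three_rel
    obtain ⟨p, hp, e⟩ := List.mem_map.1 ha
    have h3' := beq_iff_eq.1 (List.all_eq_true.1 h3 p hp)
    have : a⁻¹ = a * a := inv_eq_of_mul_eq_one_right (cm_injective (by
      rw [cm_mul, cm_mul, ← e, h3', cm_one]))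
    show cm a⁻¹ ∈ threeR.map Prod.fst
    rw [this, cm_mul, ← e]
    simpa using List.all_eq_true.1 (List.all_eq_true.1 h p hp) p hp

theorem mem_R9 {m : M} : m ∈ R9 ↔ cm m ∈ threeR.map Prod.fst := Iff.rfl

theorem natCard_of_codes {K : Subgroup M} {l : List (ℕ × ℕ)} (hl : l.all elOK = true)
    (hn : (l.map Prod.fst).Nodup) (hK : ∀ m, m ∈ K ↔ cm m ∈ l.map Prod.fst) :
    Nat.card K = l.length := by
  classical
  have e : K ≃ {a // a ∈ (l.map Prod.fst).toFinset} :=
    Equiv.ofBijective (fun g => ⟨cm g.1, List.mem_toFinset.2 ((hK _).1 g.2)⟩)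
      ⟨fun g h e => Subtype.ext (cm_injective (congrArg Subtype.val e)), fun ⟨a, ha⟩ => by
        obtain ⟨p, -, -, hp, -⟩ := exists_el hl (List.mem_toFinset.1 ha)
        exact ⟨⟨el p, (hK _).2 (hp.symm ▸ List.mem_toFinset.1 ha)⟩, Subtype.ext hp⟩⟩
  rw [Nat.card_congr e, Nat.card_eq_fintype_card, Fintype.card_coe,
    List.toFinset_card_of_nodup hn, List.length_map]

theorem card_R9 : Nat.card R9 = 9 := by
  obtain ⟨-, -, -, -, -, -, -, h8, h9⟩ := three_rel
  rw [natCard_of_codes three_facts.2.2.1 (of_decide_eq_true h8) fun _ => mem_R9, h9]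

theorem cube_R9 {m : M} (hm : m ∈ R9) : m ^ 3 = 1 := by
  obtain ⟨-, -, -, -, -, h3, -⟩ := three_rel
  obtain ⟨p, hp, e⟩ := List.mem_map.1 hm
  refine cm_injective ?_
  rw [pow_succ', pow_two, cm_mul, cm_mul, ← e, beq_iff_eq.1 (List.all_eq_true.1 h3 p hp), cm_one]

theorem yM_mem_R9 : yM ∈ R9 := by
  rw [mem_R9, (el_spec three_facts.1).1]
  simpa using three_rel.2.1

theorem conj_mem_R9 {g : M} (hg : ∀ b ∈ threeR, cmpC (cmpC (cm g) b.1) (cm g⁻¹) ∈
    threeR.map Prod.fst) : g ∈ Subgroup.normalizer (R9 : Set M) := by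
  have h : ∀ x ∈ R9, g * x * g⁻¹ ∈ R9 := by
    intro x hx
    obtain ⟨p, hp, e⟩ := List.mem_map.1 hx
    rw [mem_R9, cm_conj, ← e]
    exact hg p hp
  refine Subgroup.mem_normalizer_iff.2 fun x => ⟨h x, fun hx => ?_⟩
  have hmap : conjS g R9 = R9 := by
    refine Subgroup.eq_of_le_of_card_ge ?_ (card_conjS _ _).ge
    rintro _ ⟨x, hx, rfl⟩
    exact h x hx
  have := hx
  rw [← hmap, mem_conjS] at this
  simpa [mul_assoc] using this

/-- The Sylow 3-subgroup of `M22` given by the data. -/
noncomputable def sylR : Sylow 3 M := have : Fact (Nat.Prime 3) := ⟨Nat.prime_three⟩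
  Sylow.ofCard R9 (by
    rw [card_R9, CfsgLib.Mathieu.card_M22, factor_three]; norm_num)

theorem exists_conj_R9 {x : M} (hx : x ∈ R9) (hx1 : x ≠ 1) :
    ∃ g ∈ Subgroup.normalizer (R9 : Set M), g * yM * g⁻¹ = x := by
  obtain ⟨hmove, htgt⟩ := three_move_rel
  obtain ⟨p, hp, e⟩ := List.mem_map.1 hx
  have h := List.all_eq_true.1 htgt p hp
  simp only [Bool.or_eq_true, beq_iff_eq, List.any_eq_true] at h
  rcases h with h | ⟨q, hq, hq'⟩
  · exact absurd (cm_injective ((e.symm.trans h).trans cm_one.symm)) hx1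
  · have hqok := List.all_eq_true.1 three_facts.2.2.2.2 q hq
    refine ⟨el q, conj_mem_R9 fun b hb => ?_, cm_injective ?_⟩
    · rw [(el_spec hqok).1, (el_spec hqok).2]
      simpa using List.all_eq_true.1 (List.all_eq_true.1 hmove q hq) b hb
    · rw [cm_conj_el hqok three_facts.1, hq', e]

theorem exists_conj_three {a b : M} (ha : orderOf a = 3) (hb : orderOf b = 3) :
    ∃ g : M, g * a * g⁻¹ = b := by
  have : Fact (Nat.Prime 3) := ⟨Nat.prime_three⟩
  suffices h : ∀ x : M, orderOf x = 3 → IsConj yM x from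
    isConj_iff.1 ((h a ha).symm.trans (h b hb))
  intro x ho
  obtain ⟨P, hP⟩ := (IsPGroup.of_card (G := Subgroup.zpowers x) (n := 1)
    (by rw [Nat.card_zpowers, ho, pow_one]) : IsPGroup 3 _).exists_le_sylow
  obtain ⟨g, hg⟩ := MulAction.exists_smul_eq M P sylR
  have hmem : g * x * g⁻¹ ∈ (sylR : Subgroup M) := by
    rw [← hg]
    exact Subgroup.mem_map_of_mem _ (hP (Subgroup.mem_zpowers x))
  obtain ⟨n, -, hn⟩ := exists_conj_R9 (x := g * x * g⁻¹) hmem
    (fun e => by rw [conj_eq_one_iff.1 e, orderOf_one] at ho; norm_num at ho)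
  exact (isConj_iff.2 ⟨n, hn⟩ : IsConj yM _).trans (isConj_iff.2 ⟨g, rfl⟩ : IsConj x _).symm

theorem base_facts : tabInM24 baseMove = true ∧
    [0, 23, 3, 9].map (app baseMove) = [0, 1, 2, 3] ∧
    (List.range 24).filter (fun i => app (tabC threeY.1) i == i) = [0, 3, 9, 12, 16, 23] ∧
    fcomp baseMove (tabC threeY.1) = fcomp threeTab baseMove ∧
    (fixList4F.filter fun u => fcomp u threeTab == fcomp threeTab u).length ≤ 3 := by
  decide +kernel

theorem card_cent_yM : Nat.card (Subgroup.centralizer ({yM} : Set M)) = 36 := by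
  classical
  obtain ⟨hmove, himg, hfix, hcj, hlist⟩ := base_facts
  refine le_antisymm ?_ ?_
  · obtain ⟨k, hk, hkt⟩ := rep_of_tabInM24 hmove
    have hy : toTab (yM : Equiv.Perm GolayPt) = tabC threeY.1 := by
      rw [← tabC_cm, (el_spec three_facts.1).1]
    set Y := (yM : Equiv.Perm GolayPt) with hY
    have hY' : toTab (k * Y * k⁻¹) = threeTab := by
      have h1 : toTab (k * Y) = fcomp threeTab baseMove := by
        rw [← hcj, ← hkt, ← hy, fcomp_toTab]
      have hl : ∀ x ∈ threeTab, x < 32 := by decide +kernel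
      rw [fcomp_eq hl, ← hkt] at h1
      refine List.ext_getElem (by simp [toTab]; rfl) fun i hi hi' => ?_
      have hi24 : i < 24 := by simpa [toTab] using hi
      have e : app (toTab k) (p2i (k⁻¹ (i2p i))) = i := by
        rw [app_toTab' k, Equiv.Perm.coe_inv, Equiv.apply_symm_apply, p2i_i2p i hi24]
      have h2 := congrArg (fun l => app l (p2i (k⁻¹ (i2p i)))) h1
      simp only [app_toTab'] at h2
      rw [show app (compTab threeTab (toTab k)) (p2i (k⁻¹ (i2p i))) =
        app threeTab (app (toTab k) (p2i (k⁻¹ (i2p i)))) by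
          simp [compTab, app, toTab, List.getD_eq_getElem?_getD, p2i_lt], e] at h2
      rw [show (toTab (k * Y * k⁻¹))[i] = p2i ((k * Y * k⁻¹) (i2p i)) by simp [toTab],
        show (k * Y * k⁻¹) (i2p i) = (k * Y) (k⁻¹ (i2p i)) from rfl, h2, app,
        List.getD_eq_getElem _ _ hi']
    set K := (Subgroup.centralizer ({yM} : Set M)).map Cfsg.Spor.M22.subtype with hK
    have hKc : ∀ g ∈ K, g * Y = Y * g ∧ g (i2p 0) = i2p 0 ∧ g (i2p 23) = i2p 23 ∧ g ∈ M24 := by
      rintro _ ⟨m, hm, rfl⟩
      refine ⟨?_, fix_zero m, fix_none m, mem_M24 m⟩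
      exact congrArg Subtype.val (Subgroup.mem_centralizer_singleton_iff.1 hm)
    have hfixY : ∀ i < 24, Y (i2p i) = i2p i ↔ i ∈ [0, 3, 9, 12, 16, 23] := by
      intro i hi
      rw [← hfix, List.mem_filter, List.mem_range, beq_iff_eq, ← hy, app_toTab Y i hi,
        and_iff_right hi]
      exact ⟨fun h => by rw [h, p2i_i2p i hi], fun h => p2i_injective (by rw [h, p2i_i2p i hi])⟩
    have horb : ∀ g ∈ K, ∀ i ∈ [3, 9, 12, 16], p2i (g (i2p i)) ∈ [3, 9, 12, 16] := by
      intro g hg i hi
      obtain ⟨hc, h0, h23, -⟩ := hKc g hg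
      have hi24 : i < 24 := by
        simp only [List.mem_cons, List.not_mem_nil, or_false] at hi; omega
      have hYi : Y (i2p i) = i2p i := (hfixY i hi24).2 (by
        simp only [List.mem_cons, List.not_mem_nil, or_false] at hi ⊢; omega)
      have h1 : Y (g (i2p i)) = g (i2p i) := by
        rw [← Equiv.Perm.mul_apply, ← hc, Equiv.Perm.mul_apply, hYi]
      rw [← i2p_p2i (g (i2p i))] at h1
      have h2 := (hfixY _ (p2i_lt _)).1 h1
      have hne : ∀ j, j = 0 ∨ j = 23 → p2i (g (i2p i)) ≠ j := by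
        intro j hj e
        have hgj : g (i2p i) = i2p j := by rw [← e, i2p_p2i]
        have : i2p i = i2p j := g.injective (hgj.trans (by rcases hj with rfl | rfl <;> simp [h0, h23]))
        have := i2p_inj hi24 (by omega) this
        simp only [List.mem_cons, List.not_mem_nil, or_false] at hi; omega
      have := hne 0 (Or.inl rfl)
      have := hne 23 (Or.inr rfl)
      simp only [List.mem_cons, List.not_mem_nil, or_false] at h2 ⊢; omega
    have ho1 : (orbSet K (i2p 3)).ncard ≤ 4 := by
      refine (Set.ncard_le_ncard (t := ({i2p 3, i2p 9, i2p 12, i2p 16} : Finset GolayPt))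
        ?_ (Finset.finite_toSet _)).trans ?_
      · rintro _ ⟨g, hg, rfl⟩
        have h := horb g hg 3 (by simp)
        show g (i2p 3) ∈ _
        rw [← i2p_p2i (g (i2p 3))]
        simp only [List.mem_cons, List.not_mem_nil, or_false] at h
        rcases h with h | h | h | h <;> simp [h]
      · rw [Set.ncard_coe_finset]; exact Finset.card_le_four
    set K1 := fixPt K (i2p 3)
    have ho2 : (orbSet K1 (i2p 9)).ncard ≤ 3 := by
      refine (Set.ncard_le_ncard (t := ({i2p 9, i2p 12, i2p 16} : Finset GolayPt))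
        ?_ (Finset.finite_toSet _)).trans ?_
      · rintro _ ⟨g, hg, rfl⟩
        have h := horb g hg.1 9 (by simp)
        have h3 : p2i (g (i2p 9)) ≠ 3 := fun e => by
          have : g (i2p 9) = g (i2p 3) := by rw [show g (i2p 3) = i2p 3 from hg.2, ← e, i2p_p2i]
          exact absurd (i2p_inj (by norm_num) (by norm_num) (g.injective this)) (by norm_num)
        show g (i2p 9) ∈ _
        rw [← i2p_p2i (g (i2p 9))]
        simp only [List.mem_cons, List.not_mem_nil, or_false] at h
        rcases h with h | h | h | h <;> simp [h] at h3 ⊢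
      · rw [Set.ncard_coe_finset]; exact Finset.card_le_three
    have h3 : Nat.card (fixPt K1 (i2p 9)) ≤ 3 := by
      set L := fixList4F.filter fun u => fcomp u threeTab == fcomp threeTab u
      have hmem : ∀ g : fixPt K1 (i2p 9),
          toTab (k * (g : Equiv.Perm GolayPt) * k⁻¹) ∈ L.toFinset := by
        intro g
        obtain ⟨hc, h0, h23, hM⟩ := hKc g g.2.1.1
        rw [List.mem_toFinset, List.mem_filter, beq_iff_eq, fixList4F_eq]
        refine ⟨toTab_mem_fixList4 (mem_base7Fix.2
          ⟨M24.mul_mem (M24.mul_mem hk hM) (M24.inv_mem hk), fun b hb => ?_⟩), ?_⟩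
        · have hb' : b ∈ [0, 1, 2, 3] := by simpa [base7] using hb
          rw [← himg] at hb'
          obtain ⟨j, hj, rfl⟩ := List.mem_map.1 hb'
          have hkj : i2p (app baseMove j) = k (i2p j) := by
            rw [← hkt, app_toTab k j (by
              simp only [List.mem_cons, List.not_mem_nil, or_false] at hj; omega), i2p_p2i]
          rw [hkj, Equiv.Perm.mul_apply, Equiv.Perm.mul_apply, Equiv.Perm.coe_inv,
            Equiv.symm_apply_apply]
          congr 1
          simp only [List.mem_cons, List.not_mem_nil, or_false] at hj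
          rcases hj with rfl | rfl | rfl | rfl
          exacts [h0, h23, g.2.1.2, g.2.2]
        · rw [← hY', fcomp_toTab, fcomp_toTab]
          congr 1
          rw [show k * (g : Equiv.Perm GolayPt) * k⁻¹ * (k * Y * k⁻¹) =
            k * ((g : Equiv.Perm GolayPt) * Y) * k⁻¹ by group, hc]
          group
      have h := Nat.card_le_card_of_injective
        (fun g : fixPt K1 (i2p 9) => (⟨_, hmem g⟩ : L.toFinset))
        (fun a b e => Subtype.ext (mul_left_cancel (mul_right_cancel
          (toTab_injective (congrArg Subtype.val e)))))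
      rw [Nat.card_eq_finsetCard] at h
      exact h.trans ((List.toFinset_card_le _).trans hlist)
    have hc : Nat.card (Subgroup.centralizer ({yM} : Set M)) = Nat.card K :=
      Nat.card_congr (Subgroup.equivMapOfInjective _ _
        (Subgroup.subtype_injective _)).toEquiv
    rw [hc, card_eq_orbSet_mul K (i2p 3), card_eq_orbSet_mul K1 (i2p 9)]
    calc (orbSet K (i2p 3)).ncard * ((orbSet K1 (i2p 9)).ncard * Nat.card (fixPt K1 (i2p 9)))
        ≤ 4 * (3 * 3) := Nat.mul_le_mul ho1 (Nat.mul_le_mul ho2 h3)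
      _ = 36 := by norm_num
  · obtain ⟨hcomm, hnd, hlen, -⟩ := three_cent_rel
    have hsub : ∀ p ∈ threeC, el p ∈ Subgroup.centralizer ({yM} : Set M) := fun p hp => by
      rw [Subgroup.mem_centralizer_singleton_iff]
      refine cm_injective ?_
      rw [cm_mul, cm_mul, (el_spec (List.all_eq_true.1 three_facts.2.2.2.1 p hp)).1,
        (el_spec three_facts.1).1]
      exact beq_iff_eq.1 (List.all_eq_true.1 hcomm p hp)
    let f : {a // a ∈ (threeC.map Prod.fst).toFinset} →
        Subgroup.centralizer ({yM} : Set M) := fun a =>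
      ⟨el (exists_el three_facts.2.2.2.1 (List.mem_toFinset.1 a.2)).choose,
        hsub _ (exists_el three_facts.2.2.2.1 (List.mem_toFinset.1 a.2)).choose_spec.1⟩
    have hf : Function.Injective f := by
      intro a b e
      refine Subtype.ext ?_
      rw [← (exists_el three_facts.2.2.2.1 (List.mem_toFinset.1 a.2)).choose_spec.2.2.1,
        ← (exists_el three_facts.2.2.2.1 (List.mem_toFinset.1 b.2)).choose_spec.2.2.1]
      exact congrArg cm (congrArg Subtype.val e)
    have h := Nat.card_le_card_of_injective f hf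
    rwa [Nat.card_eq_fintype_card, Fintype.card_coe,
      List.toFinset_card_of_nodup (of_decide_eq_true hnd), List.length_map, hlen] at h

theorem card_cent_three {x : M} (hx : orderOf x = 3) :
    Nat.card (Subgroup.centralizer ({x} : Set M)) = 36 := by
  obtain ⟨g, rfl⟩ := exists_conj_three order_yM hx
  rw [← card_cent_yM]
  refine (Nat.card_congr (α := Subgroup.centralizer ({yM} : Set M))
    (β := Subgroup.centralizer ({g * yM * g⁻¹} : Set M))
    { toFun := fun m => ⟨g * m * g⁻¹, Subgroup.mem_centralizer_singleton_iff.2 (by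
        have := Subgroup.mem_centralizer_singleton_iff.1 m.2
        rw [show g * (m : M) * g⁻¹ * (g * yM * g⁻¹) = g * ((m : M) * yM) * g⁻¹ by group, this]
        group)⟩
      invFun := fun m => ⟨g⁻¹ * m * g, Subgroup.mem_centralizer_singleton_iff.2 (by
        have := Subgroup.mem_centralizer_singleton_iff.1 m.2
        rw [show g⁻¹ * (m : M) * g * yM = g⁻¹ * ((m : M) * (g * yM * g⁻¹)) * g by group, this]
        group)⟩
      left_inv := fun m => Subtype.ext (by simp [mul_assoc])
      right_inv := fun m => Subtype.ext (by simp [mul_assoc]) }).symm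

theorem code_of_cent {m : M} (hm : m ∈ Subgroup.centralizer ({yM} : Set M)) :
    cm m ∈ threeC.map Prod.fst := by
  classical
  obtain ⟨hcomm, hnd, hlen, -⟩ := three_cent_rel
  have hl := three_facts.2.2.2.1
  let S : Finset M := (threeC.map el).toFinset
  have hS : (S : Set M) ⊆ Subgroup.centralizer ({yM} : Set M) := by
    intro a ha
    obtain ⟨p, hp, rfl⟩ := List.mem_map.1 (List.mem_toFinset.1 ha)
    rw [SetLike.mem_coe, Subgroup.mem_centralizer_singleton_iff]
    refine cm_injective ?_
    rw [cm_mul, cm_mul, (el_spec (List.all_eq_true.1 hl p hp)).1, (el_spec three_facts.1).1]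
    exact beq_iff_eq.1 (List.all_eq_true.1 hcomm p hp)
  have hmap : (threeC.map el).map cm = threeC.map Prod.fst := by
    rw [List.map_map]
    exact List.map_congr_left fun p hp => (el_spec (List.all_eq_true.1 hl p hp)).1
  have hcard : S.card = 36 := by
    rw [List.toFinset_card_of_nodup, List.length_map, hlen]
    exact List.Nodup.of_map cm (by rw [hmap]; exact of_decide_eq_true hnd)
  have := Set.eq_of_subset_of_ncard_le hS (by
    rw [Set.ncard_coe_finset, hcard, ← Nat.card_coe_set_eq]
    exact card_cent_yM.le)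
  have hm' : m ∈ (S : Set M) := this ▸ hm
  rw [← hmap]
  exact List.mem_map.2 ⟨m, List.mem_toFinset.1 hm', rfl⟩

theorem card_normalizer_R9 : Nat.card (Subgroup.normalizer (R9 : Set M)) = 72 := by
  classical
  set N := Subgroup.normalizer (R9 : Set M)
  obtain ⟨-, -, -, hnorm⟩ := three_cent_rel
  have horb : ((fun g : M => g * yM * g⁻¹) '' (N : Set M)) = (R9 : Set M) \ {1} := by
    ext x
    constructor
    · rintro ⟨g, hg, rfl⟩
      refine ⟨(Subgroup.mem_normalizer_iff.1 hg yM).1 yM_mem_R9, fun e => ?_⟩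
      have h := order_yM
      rw [conj_eq_one_iff.1 (Set.mem_singleton_iff.1 e), orderOf_one] at h
      norm_num at h
    · rintro ⟨hx, hx1⟩
      obtain ⟨g, hg, e⟩ := exists_conj_R9 hx hx1
      exact ⟨g, hg, e⟩
  have hstab : N ⊓ Subgroup.centralizer ({yM} : Set M) = R9 := by
    refine le_antisymm ?_ (le_inf Subgroup.le_normalizer ?_)
    · rintro m ⟨hm, hmc⟩
      obtain ⟨p, hp, e⟩ := List.mem_map.1 (code_of_cent hmc)
      have hpok := List.all_eq_true.1 three_facts.2.2.2.1 p hp
      have hmp : m = el p := eq_el hpok e.symm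
      have h := List.all_eq_true.1 hnorm p hp
      simp only [Bool.or_eq_true, Bool.not_eq_true', List.contains_eq_mem, decide_eq_true_eq] at h
      rcases h with h | h
      · exfalso
        have : (threeR.all fun b => decide (cmpC (cmpC p.1 b.1) p.2 ∈ threeR.map Prod.fst)) =
            true := by
          rw [List.all_eq_true]
          intro b hb
          have hb' := List.all_eq_true.1 three_facts.2.2.1 b hb
          have hmem : el b ∈ R9 := by
            rw [mem_R9, (el_spec hb').1]; exact List.mem_map_of_mem hb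
          have := (Subgroup.mem_normalizer_iff.1 hm (el b)).1 hmem
          rw [hmp, mem_R9, cm_conj_el hpok hb'] at this
          exact decide_eq_true this
        rw [this] at h
        exact Bool.false_ne_true h.symm
      · rw [mem_R9, ← e]; exact h
    · intro m hm
      rw [Subgroup.mem_centralizer_singleton_iff]
      obtain ⟨p, hp, e⟩ := List.mem_map.1 hm
      refine cm_injective ?_
      rw [cm_mul, cm_mul, ← e, (el_spec three_facts.1).1]
      exact beq_iff_eq.1 (List.all_eq_true.1 three_rel.2.2.2.2.2.2.1 p hp)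
  let _ : MulAction N M :=
    { smul := fun g x => (g : M) * x * (g : M)⁻¹
      one_smul := fun x => by show ((1 : N) : M) * x * ((1 : N) : M)⁻¹ = x; simp
      mul_smul := fun g h x => by
        show ((g * h : N) : M) * x * ((g * h : N) : M)⁻¹ =
          (g : M) * ((h : M) * x * (h : M)⁻¹) * (g : M)⁻¹
        simp [mul_assoc] }
  have hc := Nat.card_congr (MulAction.orbitProdStabilizerEquivGroup N yM)
  rw [Nat.card_prod] at hc
  have ho : Nat.card (MulAction.orbit N yM) = 8 := by
    have : MulAction.orbit N yM = (fun g : M => g * yM * g⁻¹) '' (N : Set M) := by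
      ext x
      exact ⟨fun ⟨g, e⟩ => ⟨g.1, g.2, e⟩, fun ⟨g, hg, e⟩ => ⟨⟨g, hg⟩, e⟩⟩
    rw [Nat.card_coe_set_eq, this, horb, Set.ncard_sdiff_singleton_of_mem (one_mem R9),
      ← Nat.card_coe_set_eq]
    exact congrArg (· - 1) card_R9
  have hs : Nat.card (MulAction.stabilizer N yM) = 9 := by
    rw [← card_R9, ← hstab]
    exact Nat.card_congr
      { toFun := fun g => ⟨g.1.1, g.1.2, Subgroup.mem_centralizer_singleton_iff.2 (by
          have := g.2
          exact mul_inv_eq_iff_eq_mul.1 this)⟩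
        invFun := fun g => ⟨⟨g.1, g.2.1⟩,
          mul_inv_eq_iff_eq_mul.2 (Subgroup.mem_centralizer_singleton_iff.1 g.2.2)⟩
        left_inv := fun _ => rfl
        right_inv := fun _ => rfl }
  rw [ho, hs] at hc
  exact hc.symm

theorem card_sylow_three (Q : Sylow 3 M) : Nat.card (Q : Subgroup M) = 9 ∧
    (∀ a ∈ (Q : Subgroup M), a ^ 3 = 1) ∧
    Nat.card (Subgroup.normalizer ((Q : Subgroup M) : Set M)) = 72 := by
  have : Fact (Nat.Prime 3) := ⟨Nat.prime_three⟩
  obtain ⟨g, hg⟩ := MulAction.exists_smul_eq M sylR Q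
  have hQ : (Q : Subgroup M) = conjS g R9 := by
    rw [← hg, Sylow.coe_subgroup_smul]; rfl
  refine ⟨by rw [hQ, card_conjS, card_R9], ?_, ?_⟩
  · rw [hQ]
    rintro _ ⟨a, ha, rfl⟩
    rw [← map_pow, cube_R9 ha, map_one]
  · rw [hQ, ← card_normalizer_R9]
    have : Subgroup.normalizer (conjS g R9 : Set M) =
        conjS g (Subgroup.normalizer (R9 : Set M)) := by
      ext x
      rw [mem_conjS, Subgroup.mem_normalizer_iff, Subgroup.mem_normalizer_iff]
      constructor
      · intro h y
        have := h (g * y * g⁻¹)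
        simp only [mem_conjS] at this
        simpa [mul_assoc] using this
      · intro h y
        have := h (g⁻¹ * y * g)
        simp only [mem_conjS]
        simpa [mul_assoc] using this
    rw [this, card_conjS]

/-! ### The normalisers of the subgroups of order sixteen -/

theorem hexfix_facts : elOK (idC, idC) = true ∧
    ((List.range 24).filter fun i => (spanR hexBasis).all fun c => Code.ap c i == i) =
      [0, 4, 5, 17, 19, 21, 22, 23] := by
  decide +kernel

theorem not_seven_dvd (A : Subgroup M) (hA : A = hex) :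
    ¬ 7 ∣ Nat.card (Subgroup.normalizer (A : Set M)) := by
  classical
  subst hA
  intro hd
  have : Fact (Nat.Prime 7) := ⟨by norm_num⟩
  obtain ⟨g, hg⟩ := exists_prime_orderOf_dvd_card'
    (G := Subgroup.normalizer (hex : Set M)) 7 hd
  set s := ((g : M) : Equiv.Perm GolayPt) with hs
  have ho : orderOf s = 7 := by
    rw [hs, Subgroup.orderOf_coe, Subgroup.orderOf_coe, hg]
  have hH := basis_ok.1
  obtain ⟨-, hfix⟩ := hexfix_facts
  let S : Finset GolayPt := Finset.univ.filter fun q => ∀ m ∈ hex, (m : Equiv.Perm GolayPt) q = q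
  have hS : ∀ q, q ∈ S ↔ p2i q ∈ [0, 4, 5, 17, 19, 21, 22, 23] := by
    intro q
    rw [← hfix, List.mem_filter, List.mem_range, and_iff_right (p2i_lt q)]
    simp only [S, Finset.mem_filter, Finset.mem_univ, true_and, List.all_eq_true, beq_iff_eq]
    constructor
    · intro h c hc
      obtain ⟨σ, rfl⟩ := (spanSpec _ hH).exists_code c hc
      rw [Code.ap_code' σ q]
      have := h ⟨σ, grpOf_le basis_ok.2.1 (((spanSpec _ hH).mem_iff σ).2 hc)⟩ ((mem_sub hH).2 hc)
      exact congrArg p2i this
    · intro h m hm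
      exact p2i_injective ((Code.ap_code' _ q).symm.trans (h _ ((mem_sub hH).1 hm)))
  have hScard : S.card = 8 := by
    have : S = ([0, 4, 5, 17, 19, 21, 22, 23].map i2p).toFinset := by
      ext q
      rw [hS, List.mem_toFinset, List.mem_map]
      exact ⟨fun h => ⟨_, h, i2p_p2i q⟩, fun ⟨i, hi, e⟩ => by
        rw [← e, p2i_i2p i (by simp only [List.mem_cons, List.not_mem_nil, or_false] at hi; omega)]
        exact hi⟩
    rw [this]
    decide
  have hinv : ∀ q ∈ S, s q ∈ S := by
    intro q hq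
    simp only [S, Finset.mem_filter, Finset.mem_univ, true_and] at hq ⊢
    intro m hm
    have hm' := ((Subgroup.mem_normalizer_iff''.1 g.2) m).1 hm
    have := hq _ hm'
    rw [Subgroup.coe_mul, Subgroup.coe_mul, Subgroup.coe_inv, Equiv.Perm.mul_apply,
      Equiv.Perm.mul_apply, Equiv.Perm.inv_eq_iff_eq] at this
    exact this
  have hall : S ⊆ fixedPts s := by
    intro q hq
    rw [mem_fixedPts]
    by_contra hne
    have hz0 : q ≠ i2p 0 := fun e => hne (e ▸ fix_zero g.1)
    have hz23 : q ≠ i2p 23 := fun e => hne (e ▸ fix_none g.1)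
    have horb : (MulAction.orbit (Subgroup.zpowers s) q).ncard = 7 := by
      have hdvd : Nat.card (MulAction.orbit (Subgroup.zpowers s) q) ∣ 7 := by
        refine ⟨Nat.card (MulAction.stabilizer (Subgroup.zpowers s) q), ?_⟩
        rw [← Nat.card_prod, Nat.card_congr
          (MulAction.orbitProdStabilizerEquivGroup (Subgroup.zpowers s) q), Nat.card_zpowers, ho]
      rcases (Nat.dvd_prime (by norm_num)).1 hdvd with h | h
      · exfalso
        have : Subsingleton (MulAction.orbit (Subgroup.zpowers s) q) :=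
          (Nat.card_eq_one_iff_unique.1 h).1
        exact hne (congrArg Subtype.val (Subsingleton.elim
          (⟨(⟨s, Subgroup.mem_zpowers s⟩ : Subgroup.zpowers s) • q, MulAction.mem_orbit _ _⟩ :
            MulAction.orbit (Subgroup.zpowers s) q) ⟨q, MulAction.mem_orbit_self q⟩))
      · rwa [Nat.card_coe_set_eq] at h
    have hsub : MulAction.orbit (Subgroup.zpowers s) q ⊆
        (((S.erase (i2p 0)).erase (i2p 23) : Finset GolayPt) : Set GolayPt) := by
      rintro _ ⟨⟨t, ht⟩, rfl⟩
      obtain ⟨k, -, rfl⟩ := Finset.mem_image.1 (mem_zpowers_iff_mem_range_orderOf.1 ht)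
      show (s ^ k) q ∈ _
      have hkS : (s ^ k) q ∈ S := by
        clear ht
        induction k with
        | zero => simpa using hq
        | succ k ih => rw [pow_succ', Equiv.Perm.mul_apply]; exact hinv _ ih
      refine Finset.mem_coe.2 (Finset.mem_erase.2
        ⟨fun e => hz23 ?_, Finset.mem_erase.2 ⟨fun e => hz0 ?_, hkS⟩⟩)
      · exact (s ^ k).injective (e.trans (Equiv.Perm.pow_apply_eq_self_of_apply_eq_self
          (fix_none g.1) k).symm)
      · exact (s ^ k).injective (e.trans (Equiv.Perm.pow_apply_eq_self_of_apply_eq_self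
          (fix_zero g.1) k).symm)
    have := Set.ncard_le_ncard hsub (Finset.finite_toSet _)
    have h0 : i2p 0 ∈ S := (hS _).2 (by rw [p2i_i2p 0 (by norm_num)]; simp)
    have h23 : i2p 23 ∈ S.erase (i2p 0) :=
      Finset.mem_erase.2 ⟨by decide, (hS _).2 (by rw [p2i_i2p 23 (by norm_num)]; simp)⟩
    rw [horb, Set.ncard_coe_finset, Finset.card_erase_of_mem h23, Finset.card_erase_of_mem h0,
      hScard] at this
    omega
  obtain ⟨n, hn⟩ := card_fixedPts_prime (by norm_num) ho
  have h8 := hScard ▸ Finset.card_le_card hall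
  have h1 := eq_one_of_nine_fixed (g := s) (mem_M24 g.1) (by omega)
  rw [h1, orderOf_one] at ho
  norm_num at ho

theorem duad_closure_facts : elOK duadFive = true ∧ normCheck' duadBasis duadFive = true ∧
    duadNs.all (normCheck' duadBasis) = true ∧ duadLetters.all elOK = true ∧
    duadLetters.map Prod.fst = duadBasis.map Prod.fst ++
      duadNs.map (fun n => cmpC (cmpC n.1 duadFive.1) n.2) ∧
    (duadHexWords.map fun w => wordC duadLetters w) = hexBasis.map Prod.fst ∧
    duadFive.1 != idC ∧ wordC [duadFive] [0, 0, 0, 0, 0] = idC := by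
  decide +kernel

theorem hex_le_duad_closure : ∃ f : M, orderOf f = 5 ∧ conjS f duad = duad ∧
    ∃ N : Set M, (∀ n ∈ N, conjS n duad = duad) ∧ ∃ g : M,
      conjS g hex ≤ Subgroup.closure ((duad : Set M) ∪ (fun n => n * f * n⁻¹) '' N) := by
  obtain ⟨h1, h2, h3, h4, h5, h6, h7, h8⟩ := duad_closure_facts
  have hD := basis_ok.2.2.2.1
  have hD' := basis_ok.2.2.2.2.1
  refine ⟨el duadFive, ?_, conjS_eq hD h2, {n | ∃ q ∈ duadNs, n = el q}, ?_, 1, ?_⟩
  · have : Fact (Nat.Prime 5) := ⟨by norm_num⟩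
    exact orderOf_eq_prime (el_pow_five h1 h8) (el_ne_one h1 (bne_iff_ne.1 h7))
  · rintro _ ⟨q, hq, rfl⟩
    exact conjS_eq hD (List.all_eq_true.1 h3 q hq)
  set K := Subgroup.closure
    ((duad : Set M) ∪ (fun n => n * el duadFive * n⁻¹) '' {n | ∃ q ∈ duadNs, n = el q})
  have hlet : ∀ p ∈ duadLetters, el p ∈ K := by
    intro p hp
    have hok := List.all_eq_true.1 h4 p hp
    have hp1 : p.1 ∈ duadLetters.map Prod.fst := List.mem_map_of_mem hp
    rw [h5, List.mem_append] at hp1
    rcases hp1 with hp1 | hp1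
    · refine Subgroup.subset_closure (Or.inl ?_)
      obtain ⟨q, hq, hqp⟩ := List.mem_map.1 hp1
      have hq' := List.all_eq_true.1 hD' q hq
      rw [← eq_el hok ((el_spec hq').1.trans hqp)]
      exact Subgroup.subset_closure (show code (el q : Equiv.Perm GolayPt) ∈
        duadBasis.map Prod.fst from List.mem_map.2 ⟨q, hq, (el_spec hq').1.symm⟩)
    · refine Subgroup.subset_closure (Or.inr ?_)
      obtain ⟨q, hq, hqp⟩ := List.mem_map.1 hp1
      have hqc := List.all_eq_true.1 h3 q hq
      simp only [normCheck', Bool.and_eq_true] at hqc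
      exact ⟨el q, ⟨q, hq, rfl⟩, eq_el hok (by rw [cm_conj_el hqc.1 h1, hqp])⟩
  rintro _ ⟨x, hx, rfl⟩
  show (1 : M) * x * (1 : M)⁻¹ ∈ K
  rw [one_mul, inv_one, mul_one]
  let K' : Subgroup (Equiv.Perm GolayPt) := K.map Cfsg.Spor.M22.subtype
  have hle : grpOf hexBasis ≤ K' := by
    rw [grpOf, Subgroup.closure_le]
    intro σ hσ
    have hσ' : code σ ∈ hexBasis.map Prod.fst := hσ
    rw [← h6] at hσ'
    obtain ⟨w, -, hw⟩ := List.mem_map.1 hσ'
    exact ⟨_, word_mem hlet w, code_injective ((cm_word h4 w).trans hw)⟩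
  obtain ⟨y, hy, hyx⟩ := hle hx
  rwa [show x = y from Subtype.ext hyx.symm]

end CfsgLib.Jf18.M22
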