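import Cfsg.Agent.J4Type67.Module
import Cfsg.Agent.Jf18.M22

/-!
The involutions of `M22` on the module of order `2 ^ 12`: fixed spaces of order 256.
-/

set_option autoImplicit false
set_option linter.unusedSectionVars false
set_option linter.style.haveILetI false

namespace CfsgLib.J4Type67.Rep

open scoped Pointwise

universe u v

variable {X : Type u} {W : Type v} [Group X] [Group W] (r : Rep X W)

/-- The difference of an element of the acting group and the identity. -/
def delta (x : X) : W →* W where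
  toFun w := r.act x w * w
  map_one' := by simp
  map_mul' a b := by
    rw [map_mul, mul_assoc, ← mul_assoc (r.act x b), r.comm (r.act x b) a]
    group

theorem delta_apply (x : X) (w : W) : r.delta x w = r.act x w * w := rfl

theorem delta_eq_one {x : X} {w : W} : r.delta x w = 1 ↔ r.act x w = w := by
  rw [delta_apply, mul_eq_one_iff_eq_inv, r.inv_eq]

theorem ker_delta (x : X) : (r.delta x).ker = r.fixed {x} := by
  ext w
  rw [MonoidHom.mem_ker, r.delta_eq_one, r.mem_fixed_single]

theorem delta_sq (y : X) (w : W) : r.delta y (r.delta y w) = r.delta (y * y) w := by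
  simp only [delta_apply, map_mul, MulAut.mul_apply]
  rw [mul_assoc, ← mul_assoc (r.act y w), r.sq, one_mul]

theorem delta_comm_p (x : X) (w : W) : r.delta x (r.act r.p w) = r.act r.p (r.delta x w) := by
  rw [delta_apply, delta_apply, map_mul, r.act_comm]

theorem pinv_range_delta (x : X) : r.PInv (r.delta x).range := by
  rintro _ ⟨a, rfl⟩
  exact ⟨r.act r.p a, r.delta_comm_p x a⟩

/-- The image of a subgroup times its kernel part. -/
theorem card_map_mul (f : W →* W) (S : Subgroup W) :
    Nat.card ↥(S.map f) * Nat.card ↥(S ⊓ f.ker) = Nat.card S := by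
  have h := Subgroup.card_mul_index (f.comp S.subtype).ker
  rw [Subgroup.index_ker] at h
  have hr : (f.comp S.subtype).range = S.map f := by
    rw [MonoidHom.range_eq_map, ← Subgroup.map_map, ← MonoidHom.range_eq_map, Subgroup.range_subtype]
  have hk : Nat.card (f.comp S.subtype).ker = Nat.card ↥(S ⊓ f.ker) := Nat.card_congr
    { toFun := fun w => ⟨w.1.1, w.1.2, w.2⟩
      invFun := fun w => ⟨⟨w.1, w.2.1⟩, w.2.2⟩
      left_inv := fun _ => rfl
      right_inv := fun _ => rfl }
  rw [← h, hr, hk, mul_comm]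

theorem card_delta (x : X) : Nat.card (r.delta x).range * Nat.card (r.fixed {x}) = 4096 := by
  have h := card_map_mul (r.delta x) ⊤
  rw [← MonoidHom.range_eq_map, top_inf_eq, r.ker_delta, Subgroup.card_top, r.card] at h
  exact h.trans (by norm_num)

theorem range_le_fixed {x : X} (hx : x * x = 1) : (r.delta x).range ≤ r.fixed {x} := by
  rintro _ ⟨w, rfl⟩
  rw [← r.ker_delta, MonoidHom.mem_ker, r.delta_sq, hx, r.delta_eq_one, r.act_one]

/-- The lift of an element of order five fixes at most sixteen vectors. -/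
theorem card_fixed_five {x : X} (hx : x ^ 5 = 1) (h1 : r.proj x ≠ 1) :
    Nat.card (r.fixed {x}) ≤ 16 := by
  have := r.finite_W
  have := r.finite_X
  haveI : Fact (Nat.Prime 5) := ⟨by norm_num⟩
  obtain ⟨u₀, hu₀, hu₀5, hbd⟩ := r.five_bound
  have hv : orderOf (r.proj x) = 5 := orderOf_eq_prime (by rw [← map_pow, hx, map_one]) h1
  have hw : orderOf (r.proj u₀) = 5 := by
    obtain ⟨h1', -, -, -, -, -, -, -, h9, -⟩ := hex_normal_data
    refine orderOf_eq_prime (by rw [← map_pow, hu₀5, map_one]) fun h => ?_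
    rw [hu₀] at h
    exact (bne_iff_ne.1 h9) (by rw [← (el_spec h1').1, h, cm_one])
  have hf : (443520 : ℕ).factorization 5 = 1 := by
    rw [show (443520 : ℕ) = 5 ^ 1 * 88704 by norm_num,
      Nat.factorization_mul (by norm_num) (by norm_num),
      Nat.Prime.factorization_pow (by norm_num)]
    simp [Nat.factorization_eq_zero_of_not_dvd (by norm_num : ¬(5 ∣ 88704))]
  let S₀ : Sylow 5 M := Sylow.ofCard (Subgroup.zpowers (r.proj u₀)) (by
    rw [Nat.card_zpowers, hw, CfsgLib.Mathieu.card_M22, hf, pow_one])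
  let S₁ : Sylow 5 M := Sylow.ofCard (Subgroup.zpowers (r.proj x)) (by
    rw [Nat.card_zpowers, hv, CfsgLib.Mathieu.card_M22, hf, pow_one])
  obtain ⟨g, hg⟩ := MulAction.exists_smul_eq M S₁ S₀
  have hmem : r.proj u₀ ∈ g • S₁ := hg ▸ (Subgroup.mem_zpowers (r.proj u₀) : r.proj u₀ ∈ S₀)
  change r.proj u₀ ∈ (↑(g • S₁) : Subgroup M) at hmem
  rw [Sylow.coe_subgroup_smul, Subgroup.mem_pointwise_smul_iff_inv_smul_mem] at hmem
  change (MulAut.conj g)⁻¹ • r.proj u₀ ∈ Subgroup.zpowers (r.proj x) at hmem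
  rw [← map_inv] at hmem
  obtain ⟨i, hi⟩ := hmem
  change r.proj x ^ i = g⁻¹ * r.proj u₀ * g⁻¹⁻¹ at hi
  obtain ⟨y, rfl⟩ := r.surj g
  have hu : u₀ = y * x ^ i * y⁻¹ := by
    refine r.lift_five_unique ?_ hu₀5 ?_
    · rw [map_mul, map_mul, map_zpow, map_inv, hi]
      group
    · rw [conj_pow, ← zpow_natCast (x ^ i), ← zpow_mul, mul_comm i, zpow_mul, zpow_natCast, hx,
        one_zpow, mul_one, mul_inv_cancel]
  let f : r.fixed {x} → r.fixed {u₀} := fun w => ⟨r.act y w, r.mem_fixed_single.2 (by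
    have hxi : r.act (x ^ i) (w : W) = w := by
      have hs : Subgroup.zpowers (r.act x) ≤ MulAction.stabilizer (MulAut W) (w : W) :=
        Subgroup.zpowers_le.2 (r.mem_fixed_single.1 w.2)
      rw [map_zpow]
      exact hs ⟨i, rfl⟩
    rw [hu, r.act_mul, r.act_mul, r.act_inv_act, hxi])⟩
  refine le_trans (Nat.card_le_card_of_injective f fun a b e => Subtype.ext ?_) hbd
  exact (r.act y).injective (congrArg Subtype.val e)

/-- An involution of the acting group fixes exactly 256 vectors. -/
theorem card_fixed_invol {x : X} (hx : x * x = 1) (h1 : r.proj x ≠ 1) :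
    Nat.card (r.fixed {x}) = 256 := by
  have := r.finite_W
  haveI : Fact (Nat.Prime 2) := ⟨Nat.prime_two⟩
  have ha : orderOf (r.proj x) = 2 :=
    orderOf_eq_prime (by rw [pow_two, ← map_mul, hx, map_one]) h1
  have hxi : x⁻¹ = x := inv_eq_of_mul_eq_one_right hx
  -- an inverted element of order five bounds the fixed space from above
  have hle : Nat.card (r.fixed {x}) ≤ 256 := by
    obtain ⟨m, hm, hinv⟩ := Jf18.M22.exists_inverted_five ha
    have hm5 : m ^ 5 = 1 := hm ▸ pow_orderOf_eq_one m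
    obtain ⟨v, hv, hv5⟩ := r.exists_lift_five hm5
    have hv1 : r.proj v ≠ 1 := fun h => by
      rw [hv] at h; rw [h, orderOf_one] at hm; norm_num at hm
    have hxv : x * v * x⁻¹ = v⁻¹ := by
      refine r.lift_five_unique ?_ ?_ ?_
      · rw [map_mul, map_mul, map_inv, map_inv, hv, hinv]
      · rw [conj_pow, hv5, mul_one, mul_inv_cancel]
      · rw [inv_pow, hv5, inv_one]
    have hvx : x * v⁻¹ = v * x := by
      rw [← hxv]
      conv_lhs => rw [hxi, ← mul_assoc, ← mul_assoc, hx, one_mul]
    have hvx3 : x * (v ^ 3)⁻¹ = v ^ 3 * x := by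
      have h : SemiconjBy x v⁻¹ v := hvx
      have h3 := (h.pow_right 3).eq
      rwa [inv_pow] at h3
    have hconj : v ^ 3 * x * (v ^ 3)⁻¹ = v * x := by
      rw [mul_assoc, hvx3, ← mul_assoc, ← pow_add, pow_succ, hv5, one_mul]
    have hcard : Nat.card (r.fixed {x}) = Nat.card (r.fixed {v * x}) := by
      rw [← hconj]
      exact Nat.card_congr
        { toFun := fun w => ⟨r.act (v ^ 3) w, r.mem_fixed_single.2 (by
            rw [r.act_mul, r.act_mul, r.act_inv_act, r.mem_fixed_single.1 w.2])⟩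
          invFun := fun w => ⟨r.act (v ^ 3)⁻¹ w, r.mem_fixed_single.2 (by
            have := r.mem_fixed_single.1 w.2
            rw [r.act_mul, r.act_mul] at this
            have h2 := congrArg (r.act (v ^ 3)⁻¹) this
            rwa [r.act_inv_act] at h2)⟩
          left_inv := fun w => Subtype.ext (r.act_inv_act _ _)
          right_inv := fun w => Subtype.ext (r.act_act_inv _ _) }
    have hsub : r.fixed {x} ⊓ r.fixed {v * x} ≤ r.fixed {v} := fun w hw => by
      have h2 := r.mem_fixed_single.1 hw.2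
      rw [r.act_mul, r.mem_fixed_single.1 hw.1] at h2
      exact r.mem_fixed_single.2 h2
    have h2 := mul_card_le (A := r.fixed {x}) (B := r.fixed {v * x}) (C := ⊤) le_top le_top
    rw [← hcard, Subgroup.card_top, r.card] at h2
    have h3 := (Subgroup.card_le_of_le hsub).trans (r.card_fixed_five hv5 hv1)
    have h4 : Nat.card (r.fixed {x}) * Nat.card (r.fixed {x}) ≤ 256 * 256 :=
      h2.trans ((Nat.mul_le_mul_right _ h3).trans (by norm_num))
    exact Nat.mul_self_le_mul_self_iff.1 h4
  -- it is a square of an element of order four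
  obtain ⟨b, hb⟩ := Jf18.M22.exists_sq ha
  obtain ⟨y₀, hy₀⟩ := r.surj b
  obtain ⟨i, hi⟩ := r.exists_pow (x := x⁻¹ * (y₀ * y₀))
    (by rw [map_mul, map_inv, map_mul, hy₀, hb, inv_mul_cancel])
  rw [inv_mul_eq_iff_eq_mul] at hi
  have hy : (y₀ * r.p ^ i) * (y₀ * r.p ^ i) = x := by
    rw [((r.central y₀).zpow_left i).mul_mul_mul_comm, hi, mul_assoc, ← zpow_add, ← zpow_add,
      show i + (i + i) = 3 * i by ring, zpow_mul, show r.p ^ (3 : ℤ) = 1 by rw [zpow_ofNat]; exact r.cube, one_zpow, mul_one]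
  set z := y₀ * r.p ^ i
  set K := r.fixed {x}
  set I := (r.delta x).range
  have hIK : I ≤ K := r.range_le_fixed hx
  have hprod : Nat.card I * Nat.card K = 4096 := r.card_delta x
  obtain ⟨k, -, hk⟩ := r.exists_le_six (r.pinv_fixed {x})
  change Nat.card K = 4 ^ k at hk
  have hge : 64 ≤ Nat.card K := by
    have hh := (Nat.mul_le_mul_right (Nat.card K) (Subgroup.card_le_of_le hIK))
    rw [hprod] at hh
    exact Nat.mul_self_le_mul_self_iff.1 ((by norm_num : 64 * 64 ≤ 4096).trans hh)
  have hk4 : k ≤ 4 := by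
    rw [hk] at hle
    exact (Nat.pow_le_pow_iff_right (by norm_num : 1 < 4)).1 (hle.trans (by norm_num))
  have hk3 : 3 ≤ k := by
    rw [hk] at hge
    exact (Nat.pow_le_pow_iff_right (by norm_num : 1 < 4)).1 ((by norm_num : (4 : ℕ) ^ 3 ≤ 64).trans hge)
  rcases (show k = 4 ∨ k = 3 by omega) with rfl | rfl
  · rw [hk]; norm_num
  exfalso
  have hI64 : Nat.card I = 64 := by
    rw [hk] at hprod; norm_num at hprod; omega
  have hKI : K = I := (Subgroup.eq_of_le_of_card_ge hIK (by rw [hk, hI64]; norm_num)).symm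
  set K₁ := r.fixed {z}
  set I₁ := (r.delta z).range
  have hmap : I₁.map (r.delta z) = I := by
    ext w
    constructor
    · rintro ⟨_, ⟨a, rfl⟩, rfl⟩
      exact ⟨a, by rw [← hy]; exact (r.delta_sq z a).symm⟩
    · rintro ⟨a, rfl⟩
      exact ⟨r.delta z a, ⟨a, rfl⟩, by rw [r.delta_sq, hy]⟩
  have hK₁ : K₁ ≤ I₁ := by
    have h1 : K₁ ≤ K := fun w hw => r.mem_fixed_single.2 (by
      rw [← hy, r.act_mul, r.mem_fixed_single.1 hw, r.mem_fixed_single.1 hw])
    rw [hKI, ← hmap] at h1
    refine h1.trans ?_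
    rintro _ ⟨a, -, rfl⟩
    exact ⟨a, rfl⟩
  have h5 := card_map_mul (r.delta z) I₁
  rw [hmap, r.ker_delta, inf_of_le_right hK₁, hI64] at h5
  have h6 : Nat.card I₁ * Nat.card K₁ = 4096 := r.card_delta z
  rw [← h5] at h6
  obtain ⟨j, -, hj⟩ := r.exists_le_six (r.pinv_fixed {z})
  change Nat.card K₁ = 4 ^ j at hj
  rw [hj] at h6
  have h7 : (4 ^ j) * (4 ^ j) = 8 * 8 := by linarith
  have h8 : 4 ^ j = 8 := Nat.mul_self_inj.1 h7
  rcases j with _ | _ | j
  · norm_num at h8
  · norm_num at h8
  · have : 4 ^ 2 ≤ 4 ^ (j + 1 + 1) := Nat.pow_le_pow_right (by norm_num) (by omega)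
    omega

theorem card_range_invol {x : X} (hx : x * x = 1) (h1 : r.proj x ≠ 1) :
    Nat.card (r.delta x).range = 16 := by
  have h := r.card_delta x
  rw [r.card_fixed_invol hx h1] at h
  omega

/-- An invariant subgroup has no invariant subgroup of index two. -/
theorem eq_of_index_two {S T : Subgroup W} (hS : r.PInv S) (hT : r.PInv T) (hle : S ≤ T)
    (h2 : ∀ a ∈ T, ∀ b ∈ T, a ∉ S → b ∉ S → a * b ∈ S) : S = T := by
  have := r.finite_W
  by_contra hne
  obtain ⟨a, haT, haS⟩ := SetLike.exists_of_lt (lt_of_le_of_ne hle hne)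
  obtain ⟨s, -, hs⟩ := r.exists_le_six hS
  obtain ⟨t, -, ht⟩ := r.exists_le_six hT
  let f : T → S × Bool := fun b =>
    haveI := Classical.propDecidable ((b : W) ∈ S)
    if h : (b : W) ∈ S then (⟨b, h⟩, false) else (⟨a * b, h2 a haT b b.2 haS h⟩, true)
  have hf : Function.Injective f := by
    intro b b' e
    simp only [f] at e
    split_ifs at e with h h'
    · exact Subtype.ext (congrArg (fun y => (y.1 : W)) e)
    · exact absurd (congrArg Prod.snd e) (by simp)
    · exact absurd (congrArg Prod.snd e) (by simp)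
    · exact Subtype.ext (mul_left_cancel (congrArg (fun y => (y.1 : W)) e))
  have hc := Nat.card_le_card_of_injective f hf
  rw [Nat.card_prod, Nat.card_eq_fintype_card (α := Bool), Fintype.card_bool, hs, ht] at hc
  have hlt : s < t := by
    by_contra h
    refine hne (Subgroup.eq_of_le_of_card_ge hle ?_)
    rw [hs, ht]
    exact Nat.pow_le_pow_right (by norm_num) (by omega)
  have : 4 ^ (s + 1) ≤ 4 ^ t := Nat.pow_le_pow_right (by norm_num) hlt
  rw [pow_succ] at this
  have h0 : 0 < 4 ^ s := by positivity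
  omega

end CfsgLib.J4Type67.Rep
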