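import Cfsg.Agent.Jf18.Basic
import Cfsg.Agent.J4Type67.Elementary
import Cfsg.Agent.Jf18.InvolModule

/-!
Janko-four type: the involutions of the centraliser of `p` and the weak closure of `z`.
-/

set_option autoImplicit false
set_option linter.unusedSectionVars false
set_option linter.style.haveILetI false

namespace CfsgLib.Jf18.Ctx

open CfsgLib.J4Type67

universe u

variable {G : Type u} [Group G] [Finite G] (c : Ctx G)

/-! ### The module in terms of `G` -/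

theorem mem_zpowers_z {x : G} : x ∈ Subgroup.zpowers c.z ↔ x = 1 ∨ x = c.z := by
  constructor
  · intro h
    have h2 : c.z ^ (2 : ℤ) = 1 := by rw [zpow_two, c.z_mul_self]
    obtain ⟨i, rfl⟩ := h
    rcases Int.even_or_odd' i with ⟨k, rfl | rfl⟩
    · exact Or.inl (by simp [zpow_mul, h2])
    · exact Or.inr (by simp [zpow_add, zpow_mul, h2])
  · rintro (rfl | rfl)
    exacts [one_mem _, Subgroup.mem_zpowers _]

theorem z_mem_cent_p : c.z ∈ c.C := c.mem_C.2 ⟨Commute.refl _, (mem_cz.1 c.p_mem_H).symm⟩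

theorem commute_z {x : G} (hx : x ∈ c.H) : Commute x c.z := mem_cz.1 hx

theorem z_inv : c.z⁻¹ = c.z := inv_eq_of_mul_eq_one_right c.z_mul_self

theorem eq_of_mem_E_C {x : G} (hE : x ∈ c.E) (hC : x ∈ c.C) : x = 1 ∨ x = c.z :=
  c.fixE hE (c.mem_C.1 hC).2

/-- The element of the abstract centraliser. -/
def toC {x : G} (hx : x ∈ c.C) : c.setup.C := ⟨⟨x, hx.1⟩, c.mem_setup_C hx⟩

/-- The image in the acting group. -/
noncomputable def toX {x : G} (hx : x ∈ c.C) : c.setup.X := QuotientGroup.mk (c.toC hx)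

theorem proj_toX {x : G} (hx : x ∈ c.C) : c.setup.rep.proj (c.toX hx) = c.sig ⟨x, hx⟩ := rfl

theorem toX_mul {x y : G} (hx : x ∈ c.C) (hy : y ∈ c.C) :
    c.toX (mul_mem hx hy) = c.toX hx * c.toX hy := rfl

theorem toX_eq_one {x : G} (hx : x ∈ c.C) : c.toX hx = 1 ↔ x = 1 ∨ x = c.z := by
  rw [toX, QuotientGroup.eq_one_iff, Subgroup.mem_subgroupOf, c.setup.mem_Z]
  exact or_congr ⟨fun h => congrArg Subtype.val h, fun h => Subtype.ext h⟩
    ⟨fun h => congrArg Subtype.val h, fun h => Subtype.ext h⟩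

theorem toX_sq {x : G} (hx : x ∈ c.C) :
    c.toX hx * c.toX hx = 1 ↔ x * x = 1 ∨ x * x = c.z := by
  rw [← c.toX_mul hx hx, c.toX_eq_one]

theorem mem_setup_E {e : G} (he : e ∈ c.E) : (⟨e, c.E_le he⟩ : c.H) ∈ c.setup.E := he

/-- The image of an element of `E` in the module. -/
noncomputable def qE {e : G} (he : e ∈ c.E) : c.setup.W :=
  c.setup.q ⟨e, c.E_le he⟩ (c.mem_setup_E he)

theorem qE_mul {e f : G} (he : e ∈ c.E) (hf : f ∈ c.E) :
    c.qE (mul_mem he hf) = c.qE he * c.qE hf := rfl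

theorem qE_inv {e : G} (he : e ∈ c.E) : c.qE (inv_mem he) = (c.qE he)⁻¹ := rfl

theorem qE_eq_one {e : G} (he : e ∈ c.E) : c.qE he = 1 ↔ e = 1 ∨ e = c.z := by
  rw [qE, c.setup.q_one_iff, c.setup.mem_Z]
  exact or_congr ⟨fun h => congrArg Subtype.val h, fun h => Subtype.ext h⟩
    ⟨fun h => congrArg Subtype.val h, fun h => Subtype.ext h⟩

theorem qE_eq {e f : G} (he : e ∈ c.E) (hf : f ∈ c.E) (h : c.qE he = c.qE hf) :
    f = e ∨ f = e * c.z := by
  have h1 : c.qE (mul_mem (inv_mem he) hf) = 1 := by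
    rw [c.qE_mul (inv_mem he) hf, c.qE_inv he, h, inv_mul_cancel]
  refine ((c.qE_eq_one _).1 h1).imp (fun h => ?_) (fun h => ?_)
  · exact (inv_mul_eq_one.1 h).symm
  · exact (inv_mul_eq_iff_eq_mul.1 h)

theorem qE_surj (w : c.setup.W) : ∃ (e : G) (he : e ∈ c.E), c.qE he = w := by
  obtain ⟨a, ha, rfl⟩ := c.setup.q_surj w
  exact ⟨a, ha, rfl⟩

theorem act_qE {x : G} (hx : x ∈ c.C) {e : G} (he : e ∈ c.E) :
    c.setup.rep.act (c.toX hx) (c.qE he) = c.qE (c.normal_E hx.1 he) := rfl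

theorem commutator_mem_E {u : G} (hu : u ∈ c.H) {e : G} (he : e ∈ c.E) :
    e * u * e⁻¹ * u⁻¹ ∈ c.E := by
  have := mul_mem he (c.normal_E hu (inv_mem he))
  rwa [show e * (u * e⁻¹ * u⁻¹) = e * u * e⁻¹ * u⁻¹ by group] at this

theorem qE_comm {u : G} (hu : u ∈ c.C) {e : G} (he : e ∈ c.E) :
    c.qE (c.commutator_mem_E hu.1 he) = c.setup.rep.delta (c.toX hu) (c.qE he) := by
  have h : c.qE (c.commutator_mem_E hu.1 he) = c.qE he * c.qE (c.normal_E hu.1 (inv_mem he)) := by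
    rw [← c.qE_mul he (c.normal_E hu.1 (inv_mem he))]
    congr 1
    group
  rw [h, ← c.act_qE hu (inv_mem he), c.qE_inv he, map_inv, c.setup.rep.inv_eq, Rep.delta_apply,
    c.setup.rep.comm]

theorem mem_fixed_iff {u : G} (hu : u ∈ c.C) {e : G} (he : e ∈ c.E) :
    c.qE he ∈ c.setup.rep.fixed {c.toX hu} ↔ e * u * e⁻¹ * u⁻¹ ∈ Subgroup.zpowers c.z := by
  rw [c.setup.rep.mem_fixed_single, ← Rep.delta_eq_one, ← c.qE_comm hu he, c.qE_eq_one,
    c.mem_zpowers_z]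

/-- The preimage in `E` of a subgroup of the module. -/
def preG (S : Subgroup c.setup.W) : Subgroup G where
  carrier := {e | ∃ he : e ∈ c.E, c.qE he ∈ S}
  one_mem' := ⟨one_mem _, by rw [(c.qE_eq_one _).2 (Or.inl rfl)]; exact one_mem S⟩
  mul_mem' := fun ⟨ha, ha'⟩ ⟨hb, hb'⟩ => ⟨mul_mem ha hb, by rw [c.qE_mul ha hb]; exact mul_mem ha' hb'⟩
  inv_mem' := fun ⟨ha, ha'⟩ => ⟨inv_mem ha, by rw [c.qE_inv ha]; exact inv_mem ha'⟩

theorem mem_preG {S : Subgroup c.setup.W} {e : G} :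
    e ∈ c.preG S ↔ ∃ he : e ∈ c.E, c.qE he ∈ S := Iff.rfl

theorem card_preG (S : Subgroup c.setup.W) : Nat.card (c.preG S) = 2 * Nat.card S := by
  let f : c.preG S →* c.setup.W :=
    { toFun := fun e => c.qE e.2.choose
      map_one' := (c.qE_eq_one _).2 (Or.inl rfl)
      map_mul' := fun a b => c.qE_mul a.2.choose b.2.choose }
  have hr : f.range = S := by
    ext w
    constructor
    · rintro ⟨e, rfl⟩; exact e.2.choose_spec
    · intro hw
      obtain ⟨e, he, rfl⟩ := c.qE_surj w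
      exact ⟨⟨e, he, hw⟩, rfl⟩
  have hk : Nat.card f.ker = 2 := by
    rw [← c.orderOf_z, ← Nat.card_zpowers]
    exact Nat.card_congr
      { toFun := fun e => ⟨e.1.1, c.mem_zpowers_z.2 ((c.qE_eq_one e.1.2.choose).1 e.2)⟩
        invFun := fun e => ⟨⟨e.1, Subgroup.zpowers_le.2 c.z_mem_E e.2, by
            rw [(c.qE_eq_one _).2 (c.mem_zpowers_z.1 e.2)]; exact one_mem S⟩,
          (c.qE_eq_one (Subgroup.zpowers_le.2 c.z_mem_E e.2)).2 (c.mem_zpowers_z.1 e.2)⟩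
        left_inv := fun _ => rfl
        right_inv := fun _ => rfl }
  have h := Subgroup.card_mul_index f.ker
  rw [Subgroup.index_ker, hr, hk] at h
  exact h.symm

/-! ### Lifts -/

theorem sig_eq_one {u : c.C} :
    c.sig u = 1 ↔ (u : G) ∈ Subgroup.zpowers c.z ⊔ Subgroup.zpowers c.p := by
  constructor
  · intro h
    have hk : (⟨u, u.2.1⟩ : c.H) ∈ c.pi.ker := by
      rw [MonoidHom.mem_ker, ← c.conj_sig u, h, map_one]
    obtain ⟨i, hi⟩ := c.ker_pi_E hk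
    have hC : (u : G) * c.p ^ i ∈ c.C := mul_mem u.2 (zpow_mem c.p_mem_C i)
    rw [show (u : G) = (u : G) * c.p ^ i * (c.p ^ i)⁻¹ by group]
    exact mul_mem (Subgroup.mem_sup_left (c.mem_zpowers_z.2 (c.eq_of_mem_E_C hi hC)))
      (Subgroup.mem_sup_right (inv_mem (zpow_mem (Subgroup.mem_zpowers _) i)))
  · intro h
    have hle : Subgroup.zpowers c.z ⊔ Subgroup.zpowers c.p ≤ c.sig.ker.map c.C.subtype := by
      refine sup_le (Subgroup.zpowers_le.2 ⟨⟨c.z, c.z_mem_cent_p⟩, ?_, rfl⟩)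
        (Subgroup.zpowers_le.2 ⟨⟨c.p, c.p_mem_C⟩, ?_, rfl⟩)
      · show c.sig ⟨c.z, c.z_mem_cent_p⟩ = 1
        rw [← c.proj_toX c.z_mem_cent_p, (c.toX_eq_one _).2 (Or.inr rfl), map_one]
      · show c.sig ⟨c.p, c.p_mem_C⟩ = 1
        rw [← c.proj_toX c.p_mem_C]
        exact c.setup.rep.proj_p
    obtain ⟨v, hv, he⟩ := hle h
    rw [← show v = u from Subtype.ext he]
    exact hv

theorem exists_lift_sq {A : Subgroup M} (hA : ∀ a ∈ A, a * a = 1) {a : M} (ha : a ∈ A) :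
    ∃ u : c.C, ((u : G) * u = 1 ∨ (u : G) * u = c.z) ∧ c.sig u = a := by
  obtain ⟨x, hx, hxx⟩ := c.setup.rep.exists_lift_two hA ha
  obtain ⟨⟨h, hh⟩, rfl⟩ := QuotientGroup.mk_surjective x
  have hu : (h : G) ∈ c.C :=
    c.mem_C.2 ⟨mem_cz.1 h.2, congrArg Subtype.val (c.setup.mem_C.1 hh).eq⟩
  exact ⟨⟨h, hu⟩, (c.toX_sq hu).1 hxx, hx⟩

theorem eq_or_of_sig {u v : G} (hu : u ∈ c.C) (hv : v ∈ c.C)
    (hu2 : u * u = 1 ∨ u * u = c.z) (hv2 : v * v = 1 ∨ v * v = c.z)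
    (h : c.sig ⟨u, hu⟩ = c.sig ⟨v, hv⟩) : v = u ∨ v = u * c.z := by
  have e : c.toX hu = c.toX hv :=
    c.setup.rep.lift_two_unique h ((c.toX_sq hu).2 hu2) ((c.toX_sq hv).2 hv2)
  have h1 : c.toX (mul_mem (inv_mem hu) hv) = 1 := by
    show (c.toX hu)⁻¹ * c.toX hv = 1
    rw [e, inv_mul_cancel]
  exact ((c.toX_eq_one _).1 h1).imp (fun h => (inv_mul_eq_one.1 h).symm)
    (fun h => inv_mul_eq_iff_eq_mul.1 h)

theorem mul_z_sq {u : G} (hu : u ∈ c.C) : u * c.z * (u * c.z) = u * u := by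
  rw [(c.commute_z hu.1).symm.mul_mul_mul_comm, c.z_mul_self, mul_one]

theorem sq_mul {A : Subgroup M} (hA : ∀ a ∈ A, a * a = 1) {u v : G} (hu : u ∈ c.C) (hv : v ∈ c.C)
    (hu2 : u * u = 1 ∨ u * u = c.z) (hv2 : v * v = 1 ∨ v * v = c.z)
    (hua : c.sig ⟨u, hu⟩ ∈ A) (hva : c.sig ⟨v, hv⟩ ∈ A) :
    u * v * (u * v) = 1 ∨ u * v * (u * v) = c.z := by
  have h1 := (c.toX_sq hu).2 hu2
  have h2 := (c.toX_sq hv).2 hv2
  refine (c.toX_sq (mul_mem hu hv)).1 ?_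
  rw [c.toX_mul hu hv, (c.setup.rep.lift_commute hA (x := c.toX hv) (y := c.toX hu) hva hua h2).mul_mul_mul_comm,
    h1, h2, one_mul]

theorem sq_hex_lift {u : G} (hu : u ∈ c.C) (h2 : u * u = 1 ∨ u * u = c.z)
    (ha : c.sig ⟨u, hu⟩ ∈ hex) : u * u = 1 := by
  classical
  refine h2.resolve_right fun huz => ?_
  have hzz := c.z_mul_self
  set a := c.sig ⟨u, hu⟩
  have ha1 : a ≠ 1 := by
    intro h
    have h1 : c.sig ⟨(1 : G), one_mem _⟩ = c.sig ⟨u, hu⟩ := by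
      rw [show c.sig ⟨u, hu⟩ = 1 from h]; exact map_one _
    rcases c.eq_or_of_sig (one_mem _) hu (Or.inl (one_mul 1)) h2 h1 with e | e
    · rw [e, one_mul] at huz; exact c.z_ne_one huz.symm
    · rw [e, one_mul, hzz] at huz; exact c.z_ne_one huz.symm
  -- all lifts of non-trivial elements square to `z`
  have key : ∀ {v : G} (hv : v ∈ c.C), (v * v = 1 ∨ v * v = c.z) → c.sig ⟨v, hv⟩ ∈ hex →
      c.sig ⟨v, hv⟩ ≠ 1 → v * v = c.z := by
    intro v hv hv2 hvA hv1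
    obtain ⟨n, -, hn⟩ := hex_trans ha ha1 hvA hv1
    obtain ⟨⟨k, hk⟩, rfl⟩ := c.sig_surjective n
    have hw : k * u * k⁻¹ ∈ c.C := mul_mem (mul_mem hk hu) (inv_mem hk)
    have hw2 : k * u * k⁻¹ * (k * u * k⁻¹) = c.z := by
      rw [show k * u * k⁻¹ * (k * u * k⁻¹) = k * (u * u) * k⁻¹ by group, huz,
        (c.commute_z hk.1).eq]
      group
    have hs : c.sig ⟨k * u * k⁻¹, hw⟩ = c.sig ⟨v, hv⟩ := by
      rw [← hn]
      rw [← map_inv, ← map_mul, ← map_mul]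
      rfl
    rcases c.eq_or_of_sig hw hv (Or.inr hw2) hv2 hs with e | e
    · rw [e]; exact hw2
    · rw [e, c.mul_z_sq hw]; exact hw2
  have anti : ∀ {v w : G} (hv : v ∈ c.C) (hw : w ∈ c.C), v * v = c.z → w * w = c.z →
      v * w * (v * w) = c.z → v * w = c.z * (w * v) := by
    intro v w hv hw hvv hww hvw
    have hv' : v⁻¹ = c.z * v := inv_eq_of_mul_eq_one_right (by
      rw [← mul_assoc, (c.commute_z hv.1).eq, mul_assoc, hvv, hzz])
    have hw' : w⁻¹ = c.z * w := inv_eq_of_mul_eq_one_right (by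
      rw [← mul_assoc, (c.commute_z hw.1).eq, mul_assoc, hww, hzz])
    calc v * w = c.z * (v * w)⁻¹ := by rw [← hvw, mul_inv_cancel_right]
      _ = c.z * (c.z * w * (c.z * v)) := by rw [mul_inv_rev, hv', hw']
      _ = c.z * (w * v) := by
        rw [(c.commute_z hw.1).symm.eq, mul_assoc w, ← mul_assoc c.z c.z, hzz, one_mul]
  have pick : ∀ s : Finset M, s.card < 16 → ∃ b ∈ hex, b ∉ s := by
    intro s hs
    by_contra hno
    push Not at hno
    have h1 := Set.ncard_le_ncard (show (hex : Set M) ⊆ ↑s from fun b hb => hno b hb) s.finite_toSet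
    rw [Set.ncard_coe_finset, ← Nat.card_coe_set_eq] at h1
    change Nat.card hex ≤ s.card at h1
    rw [card_hex] at h1
    omega
  obtain ⟨b, hb, hb'⟩ := pick {1, a} (lt_of_le_of_lt Finset.card_le_two (by norm_num))
  obtain ⟨b₂, hb2, hb2'⟩ := pick {1, a, b, a * b} (lt_of_le_of_lt Finset.card_le_four (by norm_num))
  simp only [Finset.mem_insert, Finset.mem_singleton, not_or] at hb' hb2'
  obtain ⟨⟨v, hv⟩, hv2, hvs⟩ := c.exists_lift_sq sq_hex hb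
  obtain ⟨⟨w, hw⟩, hw2, hws⟩ := c.exists_lift_sq sq_hex hb2
  have hvA : c.sig ⟨v, hv⟩ ∈ hex := by rw [hvs]; exact hb
  have hwA : c.sig ⟨w, hw⟩ ∈ hex := by rw [hws]; exact hb2
  have hvv := key hv hv2 hvA (by rw [hvs]; exact hb'.1)
  have hww := key hw hw2 hwA (by rw [hws]; exact hb2'.1)
  have pair : ∀ {x y : G} (hx : x ∈ c.C) (hy : y ∈ c.C), x * x = c.z → y * y = c.z →
      c.sig ⟨x, hx⟩ ∈ hex → c.sig ⟨y, hy⟩ ∈ hex → c.sig ⟨x, hx⟩ ≠ c.sig ⟨y, hy⟩ →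
      x * y * (x * y) = c.z := by
    intro x y hx hy hxx hyy hxA hyA hne
    have hs : c.sig ⟨x * y, mul_mem hx hy⟩ = c.sig ⟨x, hx⟩ * c.sig ⟨y, hy⟩ :=
      map_mul c.sig ⟨x, hx⟩ ⟨y, hy⟩
    refine key (mul_mem hx hy) (c.sq_mul sq_hex hx hy (Or.inr hxx) (Or.inr hyy) hxA hyA)
      (hs ▸ mul_mem hxA hyA) fun h => hne ?_
    rw [hs, mul_eq_one_iff_eq_inv, inv_eq_of_mul_eq_one_right (sq_hex _ hyA)] at h
    exact h
  have hab : a ≠ b := fun e => hb'.2 e.symm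
  have hbc : b ≠ b₂ := fun e => hb2'.2.2.1 e.symm
  have hac : a ≠ b₂ := fun e => hb2'.2.1 e.symm
  have huv := anti hu hv huz hvv (pair hu hv huz hvv ha hvA (by rw [hvs]; exact hab))
  have huw := anti hu hw huz hww (pair hu hw huz hww ha hwA (by rw [hws]; exact hac))
  have hvw2 := pair hv hw hvv hww hvA hwA (by rw [hvs, hws]; exact hbc)
  have hsvw : c.sig ⟨v * w, mul_mem hv hw⟩ = b * b₂ := by
    rw [← hvs, ← hws]; exact map_mul c.sig ⟨v, hv⟩ ⟨w, hw⟩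
  have huvw := anti hu (mul_mem hv hw) huz hvw2 (pair hu (mul_mem hv hw) huz hvw2 ha
    (hsvw ▸ mul_mem hb hb2) (by
      rw [hsvw]
      intro e
      refine hb2'.2.2.2 ?_
      show b₂ = a * b
      rw [show a = b * b₂ from e, mul_assoc, comm_of_sq sq_hex hb2 hb, ← mul_assoc, sq_hex b hb,
        one_mul]))
  have h3 : u * (v * w) = v * w * u := by
    rw [← mul_assoc, huv, mul_assoc, mul_assoc v, huw, ← mul_assoc v c.z,
      (c.commute_z hv.1).eq, mul_assoc c.z v, ← mul_assoc c.z c.z, hzz, one_mul, mul_assoc]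
  rw [h3] at huvw
  exact c.z_ne_one (mul_eq_right.1 huvw.symm)

theorem sq_hex_conj {u : G} (hu : u ∈ c.C) (h2 : u * u = 1 ∨ u * u = c.z) {g : M}
    (ha : c.sig ⟨u, hu⟩ ∈ conjS g hex) : u * u = 1 := by
  obtain ⟨⟨k, hk⟩, rfl⟩ := c.sig_surjective g
  rw [mem_conjS] at ha
  have hw : k⁻¹ * u * k ∈ c.C := mul_mem (mul_mem (inv_mem hk) hu) hk
  have hs : c.sig ⟨k⁻¹ * u * k, hw⟩ ∈ hex := by
    have e : c.sig ⟨k⁻¹ * u * k, hw⟩ = (c.sig ⟨k, hk⟩)⁻¹ * c.sig ⟨u, hu⟩ * c.sig ⟨k, hk⟩ := by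
      rw [← map_inv, ← map_mul, ← map_mul]; rfl
    rw [e]; exact ha
  have h := c.sq_hex_lift hw (h2.imp
    (fun h => by rw [show k⁻¹ * u * k * (k⁻¹ * u * k) = k⁻¹ * (u * u) * k by group, h]; group)
    (fun h => by
      rw [show k⁻¹ * u * k * (k⁻¹ * u * k) = k⁻¹ * (u * u) * k by group, h, mul_assoc,
        ← (c.commute_z hk.1).eq]
      group)) hs
  rw [show k⁻¹ * u * k * (k⁻¹ * u * k) = k⁻¹ * (u * u) * k by group] at h
  have h' := congrArg (fun y => k * y * k⁻¹) h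
  simpa [mul_assoc] using h'

theorem exists_lift {a : M} (ha : orderOf a = 2) : ∃ u : c.C, (u : G) * u = 1 ∧ c.sig u = a := by
  obtain ⟨g, hg⟩ := M22.exists_hex ha
  obtain ⟨⟨u, hu⟩, h2, hs⟩ := c.exists_lift_sq (A := conjS g hex) (by
    rintro _ ⟨b, hb, rfl⟩
    rw [← map_mul, sq_hex b hb, map_one]) hg
  exact ⟨⟨u, hu⟩, c.sq_hex_conj hu h2 (g := g) (hs.symm ▸ hg), hs⟩

theorem sig_lift {u : G} (hu : u ∈ c.C) (h2 : u * u = 1) (h1 : u ≠ 1) (hz : u ≠ c.z) :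
    orderOf (c.sig ⟨u, hu⟩) = 2 := by
  haveI : Fact (Nat.Prime 2) := ⟨Nat.prime_two⟩
  refine orderOf_eq_prime ?_ fun h => ?_
  · rw [pow_two, ← map_mul,
      show (⟨u, hu⟩ : c.C) * ⟨u, hu⟩ = 1 from Subtype.ext h2, map_one]
  · have hs : c.sig ⟨(1 : G), one_mem _⟩ = c.sig ⟨u, hu⟩ := by rw [h]; exact map_one _
    rcases c.eq_or_of_sig (one_mem _) hu (Or.inl (one_mul 1)) (Or.inl h2) hs with e | e
    · exact h1 e
    · exact hz (by rw [e, one_mul])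

theorem card_lift (g : M) : ∃ L : Subgroup G, L ≤ c.C ∧ (∀ x ∈ L, x * x = 1) ∧ Nat.card L = 32 ∧
    c.z ∈ L ∧ ∀ x : c.C, (x : G) * x = 1 → c.sig x ∈ conjS g hex → (x : G) ∈ L := by
  have hA : ∀ a ∈ conjS g hex, a * a = 1 := by
    rintro _ ⟨b, hb, rfl⟩
    rw [← map_mul, sq_hex b hb, map_one]
  let L : Subgroup G :=
    { carrier := {x | ∃ hx : x ∈ c.C, x * x = 1 ∧ c.sig ⟨x, hx⟩ ∈ conjS g hex}
      one_mem' := ⟨one_mem _, one_mul 1, by
        rw [show c.sig ⟨(1 : G), one_mem _⟩ = 1 from map_one _]; exact one_mem _⟩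
      mul_mem' := by
        rintro x y ⟨hx, hxx, hxA⟩ ⟨hy, hyy, hyA⟩
        have hs : c.sig ⟨x * y, mul_mem hx hy⟩ ∈ conjS g hex := by
          rw [show c.sig ⟨x * y, mul_mem hx hy⟩ = c.sig ⟨x, hx⟩ * c.sig ⟨y, hy⟩ from
            map_mul c.sig ⟨x, hx⟩ ⟨y, hy⟩]
          exact mul_mem hxA hyA
        exact ⟨mul_mem hx hy, c.sq_hex_conj (mul_mem hx hy)
          (c.sq_mul hA hx hy (Or.inl hxx) (Or.inl hyy) hxA hyA) hs, hs⟩
      inv_mem' := by
        rintro x ⟨hx, hxx, hxA⟩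
        rw [show x⁻¹ = x from inv_eq_of_mul_eq_one_right hxx]
        exact ⟨hx, hxx, hxA⟩ }
  refine ⟨L, fun x hx => hx.1, fun x hx => hx.2.1, ?_, ?_, fun x h hs => ⟨x.2, h, hs⟩⟩
  · let f : L →* M :=
      { toFun := fun x => c.sig ⟨x.1, x.2.1⟩
        map_one' := map_one _
        map_mul' := fun x y => map_mul c.sig ⟨x.1, x.2.1⟩ ⟨y.1, y.2.1⟩ }
    have hr : f.range = conjS g hex := by
      ext a
      constructor
      · rintro ⟨x, rfl⟩; exact x.2.2.2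
      · intro ha
        obtain ⟨⟨u, hu⟩, h2, hs⟩ := c.exists_lift_sq hA ha
        exact ⟨⟨u, hu, c.sq_hex_conj hu h2 (g := g) (hs.symm ▸ ha), hs.symm ▸ ha⟩, hs⟩
    have hk : Nat.card f.ker = 2 := by
      rw [← c.orderOf_z, ← Nat.card_zpowers]
      exact Nat.card_congr
        { toFun := fun x => ⟨x.1.1, c.mem_zpowers_z.2 (by
            have h1 : c.sig ⟨(1 : G), one_mem _⟩ = c.sig ⟨x.1.1, x.1.2.1⟩ :=
              (map_one _).trans x.2.symm
            simpa using c.eq_or_of_sig (one_mem _) x.1.2.1 (Or.inl (one_mul 1))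
              (Or.inl x.1.2.2.1) h1)⟩
          invFun := fun x =>
            have hC : (x : G) ∈ c.C := Subgroup.zpowers_le.2 c.z_mem_cent_p x.2
            have hs : c.sig ⟨x, hC⟩ = 1 :=
              (c.sig_eq_one (u := ⟨x, hC⟩)).2 (Subgroup.mem_sup_left x.2)
            ⟨⟨x, hC, by
              rcases c.mem_zpowers_z.1 x.2 with e | e <;> rw [e]
              · exact one_mul 1
              · exact c.z_mul_self, hs.symm ▸ one_mem _⟩, hs⟩
          left_inv := fun _ => rfl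
          right_inv := fun _ => rfl }
    have h := Subgroup.card_mul_index f.ker
    rw [Subgroup.index_ker, hr, hk, card_conjS, card_hex] at h
    exact h.symm
  · refine ⟨c.z_mem_cent_p, c.z_mul_self, ?_⟩
    rw [(c.sig_eq_one (u := ⟨c.z, c.z_mem_cent_p⟩)).2 (Subgroup.mem_sup_left (Subgroup.mem_zpowers _))]
    exact one_mem _

theorem inn_le : c.inn ≤ c.H := sup_le c.E_le inf_le_left

theorem eq_one_of_cube {y : G} (h3 : y ^ 3 = 1) (h : y = 1 ∨ y = c.z) : y = 1 := by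
  refine h.resolve_right fun e => c.z_ne_one ?_
  rw [e, pow_succ, pow_two, c.z_mul_self, one_mul] at h3
  exact h3

theorem invol_split {v : G} (hv : v ∈ c.inn) (h2 : v * v = 1) (hE : v ∉ c.E) :
    ∃ e ∈ c.E, ∃ u ∈ c.C, u * u = 1 ∧ u ∉ c.E ∧ v = e * u := by
  haveI : Fact (Nat.Prime 2) := ⟨Nat.prime_two⟩
  have hvH := c.inn_le hv
  obtain ⟨a, ha⟩ := (c.mem_inn hvH).1 hv
  have ha2 : a * a = 1 := by
    apply conj_injective_M
    rw [map_mul, map_one, ha, ← map_mul,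
      show (⟨v, hvH⟩ : c.H) * ⟨v, hvH⟩ = 1 from Subtype.ext h2, map_one]
  obtain ⟨⟨u, hu⟩, hu2, hus⟩ : ∃ u : c.C, (u : G) * u = 1 ∧ c.sig u = a := by
    by_cases ha1 : a = 1
    · exact ⟨1, one_mul _, by rw [map_one, ha1]⟩
    · exact c.exists_lift (orderOf_eq_prime (by rw [pow_two, ha2]) ha1)
  have hui : u⁻¹ = u := inv_eq_of_mul_eq_one_right hu2
  have hk : (⟨v, hvH⟩ : c.H) * ⟨u, hu.1⟩ ∈ c.pi.ker := by
    rw [MonoidHom.mem_ker, map_mul, ← ha, ← c.conj_sig ⟨u, hu⟩, hus, ← map_mul, ha2, map_one]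
  obtain ⟨i, hi⟩ := c.ker_pi_E hk
  change v * u * c.p ^ i ∈ c.E at hi
  set e := v * u * c.p ^ i
  set w := (c.p ^ i)⁻¹ * u
  have hve : v = e * w := by
    simp only [e, w]
    rw [show v * u * c.p ^ i * ((c.p ^ i)⁻¹ * u) = v * (u * u) by group, hu2, mul_one]
  have hwC : w ∈ c.C := mul_mem (inv_mem (zpow_mem c.p_mem_C i)) hu
  have hww : w * w ∈ c.E := by
    have h4 : e * (w * e * w⁻¹) * (w * w) = 1 := by
      rw [show e * (w * e * w⁻¹) * (w * w) = e * w * (e * w) by group, ← hve, h2]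
    rw [eq_inv_of_mul_eq_one_right h4]
    exact inv_mem (mul_mem hi (c.normal_E hwC.1 hi))
  have hc : Commute (c.p ^ i)⁻¹ u := ((c.mem_C.1 hu).2.symm.zpow_left i).inv_left
  have hw2 : w * w = ((c.p ^ i)⁻¹) ^ 2 := by
    rw [hc.symm.mul_mul_mul_comm, hu2, mul_one, pow_two]
  have hp3 : ((c.p ^ i)⁻¹) ^ 3 = 1 := by
    rw [inv_pow, ← zpow_natCast, ← zpow_mul, mul_comm, zpow_mul, zpow_natCast, c.p_cube, one_zpow,
      inv_one]
  have h6 := c.eq_of_mem_E_C hww (mul_mem hwC hwC)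
  rw [hw2] at h6
  have hy2 := c.eq_one_of_cube (by rw [← pow_mul, show 2 * 3 = 3 * 2 by rfl, pow_mul, hp3, one_pow]) h6
  have hy1 : (c.p ^ i)⁻¹ = 1 := by rwa [pow_succ, hy2, one_mul] at hp3
  have hwu : w = u := by simp only [w]; rw [hy1, one_mul]
  refine ⟨e, hi, u, hu, hu2, fun huE => hE ?_, hwu ▸ hve⟩
  rw [hve, hwu]
  exact mul_mem hi huE

/-! ### Centralisers in `E` -/

theorem sig_ne_one {u : G} (hu : u ∈ c.C) (h2 : u * u = 1) (hE : u ∉ c.E) :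
    c.setup.rep.proj (c.toX hu) ≠ 1 := fun h => by
  have := c.sig_lift hu h2 (fun e => hE (e ▸ one_mem _)) (fun e => hE (e ▸ c.z_mem_E))
  rw [← c.proj_toX hu, h, orderOf_one] at this
  exact absurd this (by norm_num)

theorem commute_of_comm_mem {u : G} (hu : u ∈ c.C) {e : G} (he : e ∈ c.E)
    (h : e * u * e⁻¹ * u⁻¹ ∈ Subgroup.zpowers c.z) : Commute e u := by
  have hzu : Commute c.z u := (c.commute_z hu.1).symm
  have hpu : Commute c.p u := (c.mem_C.1 hu).2.symm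
  let S : Subgroup c.setup.W :=
    { carrier := {w | ∃ (e : G) (he : e ∈ c.E), Commute e u ∧ c.qE he = w}
      one_mem' := ⟨1, one_mem _, Commute.one_left u, (c.qE_eq_one _).2 (Or.inl rfl)⟩
      mul_mem' := by
        rintro _ _ ⟨a, ha, hau, rfl⟩ ⟨b, hb, hbu, rfl⟩
        exact ⟨a * b, mul_mem ha hb, hau.mul_left hbu, c.qE_mul ha hb⟩
      inv_mem' := by
        rintro _ ⟨a, ha, hau, rfl⟩
        exact ⟨a⁻¹, inv_mem ha, hau.inv_left, c.qE_inv ha⟩ }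
  have hS : c.setup.rep.PInv S := by
    rintro _ ⟨a, ha, hau, rfl⟩
    exact ⟨c.p * a * c.p⁻¹, c.normal_E c.p_mem_H ha,
      (hpu.mul_left hau).mul_left hpu.inv_left, (c.act_qE c.p_mem_C ha).symm⟩
  have hle : S ≤ c.setup.rep.fixed {c.toX hu} := by
    rintro _ ⟨a, ha, hau, rfl⟩
    refine (c.mem_fixed_iff hu ha).2 ?_
    rw [hau.eq, mul_inv_cancel_right, mul_inv_cancel]
    exact one_mem _
  have key : S = c.setup.rep.fixed {c.toX hu} := by
    refine c.setup.rep.eq_of_index_two hS (c.setup.rep.pinv_fixed _) hle ?_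
    intro a ha b hb haS hbS
    obtain ⟨a, ha', rfl⟩ := c.qE_surj a
    obtain ⟨b, hb', rfl⟩ := c.qE_surj b
    have hz : ∀ {x : G} (hx : x ∈ c.E), c.qE hx ∈ c.setup.rep.fixed {c.toX hu} → c.qE hx ∉ S →
        x * u = c.z * (u * x) := fun {x} hx hxf hxS => by
      rcases c.mem_zpowers_z.1 ((c.mem_fixed_iff hu hx).1 hxf) with e | e
      · exact absurd ⟨x, hx, mul_inv_eq_iff_eq_mul.1 (mul_inv_eq_one.1 e), rfl⟩ hxS
      · rw [← e]; group
    refine ⟨a * b, mul_mem ha' hb', ?_, c.qE_mul ha' hb'⟩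
    show a * b * u = u * (a * b)
    rw [mul_assoc, hz hb' hb hbS, ← mul_assoc a c.z, (c.commute_z (c.E_le ha')).eq, mul_assoc c.z,
      ← mul_assoc a u, hz ha' ha haS, mul_assoc c.z (u * a), ← mul_assoc c.z c.z, c.z_mul_self,
      one_mul, mul_assoc]
  have hmem : c.qE he ∈ S := key ▸ (c.mem_fixed_iff hu he).2 h
  obtain ⟨e', he', he'u, hq⟩ := hmem
  rcases c.qE_eq he' he hq with rfl | rfl
  · exact he'u
  · exact he'u.mul_left hzu

theorem cent_eq_preG {u : G} (hu : u ∈ c.C) :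
    c.E ⊓ Subgroup.centralizer ({u} : Set G) = c.preG (c.setup.rep.fixed {c.toX hu}) := by
  ext e
  rw [Subgroup.mem_inf, mem_cz, c.mem_preG]
  constructor
  · rintro ⟨he, hc⟩
    refine ⟨he, (c.mem_fixed_iff hu he).2 ?_⟩
    rw [hc.eq, mul_inv_cancel_right, mul_inv_cancel]
    exact one_mem _
  · rintro ⟨he, h⟩
    exact ⟨he, c.commute_of_comm_mem hu he ((c.mem_fixed_iff hu he).1 h)⟩

theorem card_cent_invol {u : G} (hu : u ∈ c.C) (h2 : u * u = 1) (hE : u ∉ c.E) :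
    Nat.card ↥(c.E ⊓ Subgroup.centralizer ({u} : Set G)) = 2 ^ 9 ∧
    (∀ e ∈ c.E, e * u * e⁻¹ * u⁻¹ ∈ Subgroup.zpowers c.z → Commute e u) := by
  refine ⟨?_, fun e he h => c.commute_of_comm_mem hu he h⟩
  rw [c.cent_eq_preG hu, c.card_preG,
    c.setup.rep.card_fixed_invol ((c.toX_sq hu).2 (Or.inl h2)) (c.sig_ne_one hu h2 hE)]
  norm_num

theorem exists_noncomm {u : G} (hu : u ∈ c.C) (h2 : u * u = 1) (hE : u ∉ c.E) :
    ∃ a ∈ c.E, ∃ b ∈ c.E, Commute a u ∧ Commute b u ∧ a * b * a⁻¹ * b⁻¹ = c.z := by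
  set K := c.E ⊓ Subgroup.centralizer ({u} : Set G)
  have hK : K ≤ c.H := inf_le_left.trans c.E_le
  by_contra hno
  have hab : ∀ a ∈ K, ∀ b ∈ K, a * b = b * a := by
    intro a ha b hb
    rcases c.commE ha.1 hb.1 with h | h
    · exact mul_inv_eq_iff_eq_mul.1 (mul_inv_eq_one.1 h)
    · exact absurd ⟨a, ha.1, b, hb.1, mem_cz.1 ha.2, mem_cz.1 hb.2, h⟩ hno
  have h := c.setup.card_le_of_commute (D := K.subgroupOf c.H) (fun x hx => hx.1)
    (fun a ha b hb => Subtype.ext (hab a ha b hb))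
  rw [Nat.card_congr (Subgroup.subgroupOfEquivOfLe hK).toEquiv, (c.card_cent_invol hu h2 hE).1] at h
  norm_num at h

theorem exists_comm_group {u : G} (hu : u ∈ c.C) (h2 : u * u = 1) (hE : u ∉ c.E) :
    ∃ R : Subgroup G, R ≤ c.E ⊓ Subgroup.centralizer ({u} : Set G) ∧ c.z ∈ R ∧ Nat.card R = 32 ∧
    (∀ r ∈ R, r * r = 1) ∧ (∀ e ∈ c.E, e * u * e⁻¹ * u⁻¹ ∈ R) ∧
    (∀ r ∈ R, ∃ e ∈ c.E, ∃ i : ℤ, r = e * u * e⁻¹ * u⁻¹ * c.z ^ i) ∧
    (∀ e ∈ c.E, ((∀ r ∈ R, Commute e r) ↔ Commute e u)) := by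
  set x := c.toX hu
  set I := (c.setup.rep.delta x).range
  have hxx : x * x = 1 := (c.toX_sq hu).2 (Or.inl h2)
  set R := c.preG I
  have hcard : Nat.card R = 32 := by
    rw [c.card_preG, c.setup.rep.card_range_invol hxx (c.sig_ne_one hu h2 hE)]
  have hcomm : ∀ e ∈ c.E, e * u * e⁻¹ * u⁻¹ ∈ R := fun e he =>
    ⟨c.commutator_mem_E hu.1 he, c.qE he, (c.qE_comm hu he).symm⟩
  have hRK : R ≤ c.E ⊓ Subgroup.centralizer ({u} : Set G) := by
    rw [c.cent_eq_preG hu]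
    rintro r ⟨hr, hrI⟩
    exact ⟨hr, c.setup.rep.range_le_fixed hxx hrI⟩
  have hzR : c.z ∈ R := ⟨c.z_mem_E, by rw [(c.qE_eq_one _).2 (Or.inr rfl)]; exact one_mem _⟩
  have hrep : ∀ r ∈ R, ∃ e ∈ c.E, ∃ i : ℤ, r = e * u * e⁻¹ * u⁻¹ * c.z ^ i := by
    rintro r ⟨hr, w, hw⟩
    obtain ⟨e, he, rfl⟩ := c.qE_surj w
    rw [← c.qE_comm hu he] at hw
    rcases c.qE_eq (c.commutator_mem_E hu.1 he) hr hw with h | h
    · exact ⟨e, he, 0, by rw [zpow_zero, mul_one, h]⟩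
    · exact ⟨e, he, 1, by rw [zpow_one, h]⟩
  have hcen : ∀ r ∈ R, ∀ f ∈ c.E, Commute f u → Commute f r := by
    intro r hr f hf hfu
    obtain ⟨e, he, i, rfl⟩ := hrep r hr
    refine Commute.mul_right ?_ ((c.commute_z (c.E_le hf)).zpow_right i)
    obtain ⟨ε, hεz, hfe⟩ : ∃ ε, (ε = 1 ∨ ε = c.z) ∧ f * e = ε * (e * f) :=
      ⟨f * e * f⁻¹ * e⁻¹, c.commE hf he, by group⟩
    have hεu : ε * u = u * ε := by
      rcases hεz with rfl | rfl
      · rw [one_mul, mul_one]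
      · exact (c.commute_z hu.1).symm.eq
    have h3 : f * e * f⁻¹ = ε * e := by rw [hfe]; group
    have h5 : f * (e * u * e⁻¹ * u⁻¹) * f⁻¹ = e * u * e⁻¹ * u⁻¹ := by
      rw [show f * (e * u * e⁻¹ * u⁻¹) * f⁻¹ =
        f * e * f⁻¹ * (f * u * f⁻¹) * (f * e * f⁻¹)⁻¹ * (f * u * f⁻¹)⁻¹ by group, h3, hfu.eq,
        mul_inv_cancel_right]
      have hεe : ε * e = e * ε := by
        rcases hεz with rfl | rfl
        · rw [one_mul, mul_one]
        · exact (c.commute_z (c.E_le he)).symm.eq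
      rw [hεe, mul_assoc e ε u, hεu, mul_inv_rev]
      group
    exact mul_inv_eq_iff_eq_mul.1 h5
  have hsq : ∀ r ∈ R, r * r = 1 := by
    let S : Subgroup c.setup.W :=
      { carrier := {w | ∃ (r : G) (hr : r ∈ c.E), r ∈ R ∧ r * r = 1 ∧ c.qE hr = w}
        one_mem' := ⟨1, one_mem _, one_mem _, one_mul 1, (c.qE_eq_one _).2 (Or.inl rfl)⟩
        mul_mem' := by
          rintro _ _ ⟨a, ha, haR, ha2, rfl⟩ ⟨b, hb, hbR, hb2, rfl⟩
          refine ⟨a * b, mul_mem ha hb, mul_mem haR hbR, ?_, c.qE_mul ha hb⟩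
          rw [(hcen a haR b hb (mem_cz.1 (hRK hbR).2)).mul_mul_mul_comm, ha2, hb2, one_mul]
        inv_mem' := by
          rintro _ ⟨a, ha, haR, ha2, rfl⟩
          exact ⟨a⁻¹, inv_mem ha, inv_mem haR, by rw [← mul_inv_rev, ha2, inv_one], c.qE_inv ha⟩ }
    have hI : c.setup.rep.PInv I := c.setup.rep.pinv_range_delta x
    have hS : c.setup.rep.PInv S := by
      rintro _ ⟨a, ha, haR, ha2, rfl⟩
      refine ⟨c.p * a * c.p⁻¹, c.normal_E c.p_mem_H ha, ⟨c.normal_E c.p_mem_H ha, ?_⟩, ?_,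
        (c.act_qE c.p_mem_C ha).symm⟩
      · rw [← c.act_qE c.p_mem_C ha]
        exact hI _ haR.choose_spec
      · rw [show c.p * a * c.p⁻¹ * (c.p * a * c.p⁻¹) = c.p * (a * a) * c.p⁻¹ by group, ha2,
          mul_one, mul_inv_cancel]
    have key : S = I := by
      refine c.setup.rep.eq_of_index_two hS hI ?_ ?_
      · rintro _ ⟨a, ha, haR, -, rfl⟩
        exact haR.choose_spec
      · intro a ha b hb haS hbS
        obtain ⟨a, ha', rfl⟩ := c.qE_surj a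
        obtain ⟨b, hb', rfl⟩ := c.qE_surj b
        have haR : a ∈ R := ⟨ha', ha⟩
        have hbR : b ∈ R := ⟨hb', hb⟩
        refine ⟨a * b, mul_mem ha' hb', mul_mem haR hbR, ?_, c.qE_mul ha' hb'⟩
        rw [(hcen a haR b hb' (mem_cz.1 (hRK hbR).2)).mul_mul_mul_comm,
          (c.sqE ha').resolve_left (fun h => haS ⟨a, ha', haR, h, rfl⟩),
          (c.sqE hb').resolve_left (fun h => hbS ⟨b, hb', hbR, h, rfl⟩), c.z_mul_self]
    rintro r ⟨hr, hrI⟩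
    rw [← key] at hrI
    obtain ⟨r', hr', -, hr2, hq⟩ := hrI
    rcases c.qE_eq hr' hr hq with rfl | rfl
    · exact hr2
    · rw [(c.commute_z (c.E_le hr')).symm.mul_mul_mul_comm, hr2, c.z_mul_self, one_mul]
  refine ⟨R, hRK, hzR, hcard, hsq, hcomm, hrep, fun e he => ⟨fun h => ?_, fun h r hr => hcen r hr e he h⟩⟩
  set d := c.setup
  set U := R.subgroupOf c.H
  have hRH : R ≤ c.H := fun r hr => c.E_le hr.1
  have hU : Nat.card U = 32 := by
    rw [Nat.card_congr (Subgroup.subgroupOfEquivOfLe hRH).toEquiv, hcard]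
  have h14 := d.card_centralizer_eq (U := U) (fun r hr => hr.1) hzR
  rw [hU] at h14
  have heq : (c.E ⊓ Subgroup.centralizer ({u} : Set G)).subgroupOf c.H =
      d.E ⊓ Subgroup.centralizer (U : Set c.H) := by
    refine Subgroup.eq_of_le_of_card_ge (fun y hy => ⟨hy.1, ?_⟩) ?_
    · exact Subgroup.mem_centralizer_iff.2 fun r hr =>
        Subtype.ext (hcen r hr y hy.1 (mem_cz.1 hy.2)).eq.symm
    · rw [Nat.card_congr (Subgroup.subgroupOfEquivOfLe (inf_le_left.trans c.E_le)).toEquiv,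
        (c.card_cent_invol hu h2 hE).1]
      norm_num at h14 ⊢
      omega
  have hmem : (⟨e, c.E_le he⟩ : c.H) ∈ d.E ⊓ Subgroup.centralizer (U : Set c.H) :=
    ⟨he, Subgroup.mem_centralizer_iff.2 fun r hr => Subtype.ext (h r hr).eq.symm⟩
  rw [← heq] at hmem
  exact mem_cz.1 hmem.2

/-! ### Weak closure -/

theorem mem_E_of_two {x : G} (hx : x ∈ c.H) (hk : c.pi ⟨x, hx⟩ = 1) {n : ℕ}
    (h2 : x ^ 2 ^ n = 1) : x ∈ c.E := by
  haveI : Fact (Nat.Prime 2) := ⟨Nat.prime_two⟩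
  have hp : IsPGroup 2 ↥(Subgroup.zpowers (⟨x, hx⟩ : c.H)) := by
    rintro ⟨_, i, rfl⟩
    refine ⟨n, Subtype.ext ?_⟩
    rw [SubmonoidClass.coe_pow, OneMemClass.coe_one]
    show ((⟨x, hx⟩ : c.H) ^ i) ^ 2 ^ n = 1
    rw [← zpow_natCast, ← zpow_mul, mul_comm, zpow_mul, zpow_natCast,
      show (⟨x, hx⟩ : c.H) ^ 2 ^ n = 1 from Subtype.ext h2, one_zpow]
  obtain ⟨T, hT⟩ := hp.exists_le_sylow
  exact c.setup.ker_inf_sylow T (hT (Subgroup.mem_zpowers _)) (MonoidHom.mem_ker.2 hk)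

/-- A conjugate of `z` in `C` carrying `p` along is `z`. -/
theorem weak_closed {g : G} (hg : g * c.z * g⁻¹ ∈ c.C)
    (hp : c.p ∈ Subgroup.zpowers (g * c.p * g⁻¹)) : g * c.z * g⁻¹ = c.z := by
  by_contra hne
  set u := g * c.z * g⁻¹
  have h2 : u * u = 1 := by
    simp only [u]
    rw [show g * c.z * g⁻¹ * (g * c.z * g⁻¹) = g * (c.z * c.z) * g⁻¹ by group, c.z_mul_self]
    group
  have h1 : u ≠ 1 := fun h => c.z_ne_one (conj_eq_one_iff.1 h)
  have hE : u ∉ c.E := fun h => (c.eq_of_mem_E_C h hg).elim h1 hne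
  set c' := c.conj g
  have hz' : c'.z = u := rfl
  obtain ⟨j, hj⟩ := hp
  have hpH' : c.p ∈ c'.H := by
    rw [← hj]; exact zpow_mem c'.p_mem_H j
  have hpk : c'.pi ⟨c.p, hpH'⟩ = 1 := by
    rw [show (⟨c.p, hpH'⟩ : c'.H) = (⟨c'.p, c'.p_mem_H⟩ : c'.H) ^ j from Subtype.ext hj.symm,
      map_zpow, show c'.pi ⟨c'.p, c'.p_mem_H⟩ = 1 from MonoidHom.mem_ker.1 c'.setup.pker, one_zpow]
  set x := c.toX hg
  have hfin := c.setup.rep.finite_W
  -- every element centralising `u` is a commutator with `p`, up to `z`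
  have key : ∀ k ∈ c.E, Commute k u → ∃ t, t ∈ c.E ∧ t ∈ c'.E ∧ (k = t ∨ k = t * c.z) := by
    intro k hk hku
    set S := c.setup.rep.fixed {x}
    have hkS : c.qE hk ∈ S := by
      refine (c.mem_fixed_iff hg hk).2 ?_
      rw [hku.eq, mul_inv_cancel_right, mul_inv_cancel]
      exact one_mem _
    let φ : S → S := fun w => ⟨c.setup.rep.act c.setup.rep.p w * w,
      mul_mem (c.setup.rep.pinv_fixed _ _ w.2) w.2⟩
    have hφ : Function.Injective φ := by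
      intro a b e
      have e' : c.setup.rep.delta c.setup.rep.p a.1 = c.setup.rep.delta c.setup.rep.p b.1 :=
        congrArg Subtype.val e
      have h3 : c.setup.rep.delta c.setup.rep.p (a.1⁻¹ * b.1) = 1 := by
        rw [map_mul, map_inv, e', inv_mul_cancel]
      exact Subtype.ext (inv_mul_eq_one.1 (c.setup.rep.fpf _ (Rep.delta_eq_one _ |>.1 h3)))
    obtain ⟨⟨w, hw⟩, hwk⟩ := (Finite.injective_iff_surjective.1 hφ) ⟨_, hkS⟩
    obtain ⟨k', hk', rfl⟩ := c.qE_surj w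
    have hk'u : Commute k' u :=
      c.commute_of_comm_mem hg hk' ((c.mem_fixed_iff hg hk').1 hw)
    set t := k' * c.p * k'⁻¹ * c.p⁻¹
    have ht : t ∈ c.E := c.commutator_mem_E c.p_mem_H hk'
    have hqt : c.qE ht = c.qE hk := (c.qE_comm c.p_mem_C hk').trans (congrArg Subtype.val hwk)
    refine ⟨t, ht, ?_, c.qE_eq ht hk hqt⟩
    have hk'H : k' ∈ c'.H := mem_cz.2 (hz'.symm ▸ hk'u)
    have htH : t ∈ c'.H := mul_mem (mul_mem (mul_mem hk'H hpH') (inv_mem hk'H)) (inv_mem hpH')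
    refine c'.mem_E_of_two htH ?_ (n := 2) ?_
    · rw [show (⟨t, htH⟩ : c'.H) = ⟨k', hk'H⟩ * ⟨c.p, hpH'⟩ * ⟨k', hk'H⟩⁻¹ * ⟨c.p, hpH'⟩⁻¹ from
        Subtype.ext rfl, map_mul, map_mul, map_mul, map_inv, map_inv, hpk]
      simp
    · rcases c.sqE ht with h | h
      · rw [show 2 ^ 2 = 2 * 2 by rfl, pow_mul, pow_two t, h, one_pow]
      · rw [show 2 ^ 2 = 2 * 2 by rfl, pow_mul, pow_two t, h, pow_two, c.z_mul_self]
  obtain ⟨a, ha, b, hb, hau, hbu, hab⟩ := c.exists_noncomm hg h2 hE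
  obtain ⟨s, hs, hs', hsa⟩ := key a ha hau
  obtain ⟨t, ht, ht', htb⟩ := key b hb hbu
  have hzc : ∀ {y : G}, y ∈ c.E → Commute c.z y := fun hy => (c.commute_z (c.E_le hy)).symm
  have hl : ∀ {x y : G}, y ∈ c.E → x * c.z * y * (x * c.z)⁻¹ * y⁻¹ = x * y * x⁻¹ * y⁻¹ :=
    fun {x y} hy => by rw [mul_assoc x c.z y, (hzc hy).eq]; group
  have hr : ∀ {x y : G}, x ∈ c.E → x * (y * c.z) * x⁻¹ * (y * c.z)⁻¹ = x * y * x⁻¹ * y⁻¹ :=
    fun {x y} hx => by
      rw [← mul_assoc x y, mul_assoc (x * y) c.z x⁻¹, (hzc (inv_mem hx)).eq]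
      group
  have hst : s * t * s⁻¹ * t⁻¹ = c.z := by
    rw [← hab]
    rcases hsa with rfl | rfl <;> rcases htb with rfl | rfl
    · rfl
    · rw [hr hs]
    · rw [hl ht]
    · rw [hr (mul_mem hs c.z_mem_E), hl ht]
  rcases c'.commE hs' ht' with h | h <;> rw [hst] at h
  · exact c.z_ne_one h
  · exact hne (h.trans hz').symm

end CfsgLib.Jf18.Ctx
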