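import Cfsg.Agent.Jf18.Basic
import Cfsg.Agent.Jf18.M22
import Cfsg.Agent.J4Type67.Elementary
import Cfsg.Agent.PGroup.Extraspecial

/-!
Janko-four type: the Sylow 3-subgroup of the centraliser of the involution and its normaliser.
-/

set_option autoImplicit false
set_option linter.unusedSectionVars false
set_option linter.style.haveILetI false

namespace CfsgLib.Jf18

open scoped Pointwise commutatorElement
open CfsgLib.J4Type67

universe u

theorem fact_three {m : ℕ} (hm : ¬ 3 ∣ m) : (3 ^ 3 * m).factorization 3 = 3 := by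
  have hm0 : m ≠ 0 := fun h => hm (h ▸ dvd_zero 3)
  rw [Nat.factorization_mul (by norm_num) hm0, Finsupp.add_apply,
    Nat.factorization_eq_zero_of_not_dvd hm, Nat.Prime.factorization_pow Nat.prime_three]
  simp

/-- In a 3-group an element with exponent prime to three is trivial. -/
theorem eq_one_of_three_group {K : Type*} [Group K] {R : Subgroup K} (hR : IsPGroup 3 R) {x : K}
    (hx : x ∈ R) {n : ℕ} (hn : Nat.Coprime 3 n) (h : x ^ n = 1) : x = 1 := by
  obtain ⟨k, hk⟩ := hR ⟨x, hx⟩
  have h3 : x ^ 3 ^ k = 1 := congrArg Subtype.val hk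
  have := pow_gcd_eq_one.2 ⟨h3, h⟩
  rwa [(Nat.Coprime.pow_left k hn).gcd_eq_one, pow_one] at this

/-- An element normalising a subgroup normalises whatever is cut out by it in a natural way. -/
theorem conj_mem_normalizer_of {K : Type*} [Group K] {R P : Subgroup K} {h g : K}
    (hP : ∀ y, h * y * h⁻¹ ∈ P ↔ y ∈ R ∧ ∀ r ∈ R, Commute y r)
    (hg : g ∈ Subgroup.normalizer (R : Set K)) :
    h * g * h⁻¹ ∈ Subgroup.normalizer (P : Set K) := by
  have key : ∀ k ∈ Subgroup.normalizer (R : Set K), ∀ y,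
      (y ∈ R ∧ ∀ r ∈ R, Commute y r) → k * y * k⁻¹ ∈ R ∧ ∀ r ∈ R, Commute (k * y * k⁻¹) r := by
    intro k hk y hy
    refine ⟨(Subgroup.mem_normalizer_iff.1 hk y).1 hy.1, fun r hr => ?_⟩
    have hr' : k⁻¹ * r * k ∈ R := by
      have := (Subgroup.mem_normalizer_iff.1 (inv_mem hk) r).1 hr
      rwa [inv_inv] at this
    show k * y * k⁻¹ * r = r * (k * y * k⁻¹)
    calc k * y * k⁻¹ * r = k * (y * (k⁻¹ * r * k)) * k⁻¹ := by group
      _ = k * ((k⁻¹ * r * k) * y) * k⁻¹ := by rw [(hy.2 _ hr').eq]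
      _ = r * (k * y * k⁻¹) := by group
  rw [Subgroup.mem_normalizer_iff]
  intro x
  have e1 : x = h * (h⁻¹ * x * h) * h⁻¹ := by group
  have e2 : h * g * h⁻¹ * x * (h * g * h⁻¹)⁻¹ = h * (g * (h⁻¹ * x * h) * g⁻¹) * h⁻¹ := by group
  rw [e2]
  constructor
  · intro hx
    exact (hP _).2 (key g hg _ ((hP _).1 (e1 ▸ hx)))
  · intro hx
    have := key g⁻¹ (inv_mem hg) _ ((hP _).1 hx)
    rw [show g⁻¹ * (g * (h⁻¹ * x * h) * g⁻¹) * g⁻¹⁻¹ = h⁻¹ * x * h by group] at this
    rw [e1]
    exact (hP _).2 this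

theorem card_normalizer_eq {K : Type*} [Group K] [Finite K] {p : ℕ} [Fact p.Prime]
    (P Q : Sylow p K) :
    Nat.card (Subgroup.normalizer ((P : Subgroup K) : Set K)) =
      Nat.card (Subgroup.normalizer ((Q : Subgroup K) : Set K)) := by
  have hP := Subgroup.card_mul_index (Subgroup.normalizer ((P : Subgroup K) : Set K))
  have hQ := Subgroup.card_mul_index (Subgroup.normalizer ((Q : Subgroup K) : Set K))
  have eP : (Subgroup.normalizer ((P : Subgroup K) : Set K)).index = Nat.card (Sylow p K) :=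
    P.card_eq_index_normalizer.symm
  have eQ : (Subgroup.normalizer ((Q : Subgroup K) : Set K)).index = Nat.card (Sylow p K) :=
    Q.card_eq_index_normalizer.symm
  rw [eP] at hP
  rw [eQ] at hQ
  exact Nat.eq_of_mul_eq_mul_right Nat.card_pos (hP.trans hQ.symm)

/-- A group of order `27` with a non-trivial commutator has a centre of order three. -/
theorem card_center_27 {R : Type*} [Group R] (hR : Nat.card R = 27) {a b : R} (hab : a * b ≠ b * a) :
    Nat.card (Subgroup.center R) = 3 := by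
  haveI : Finite R := Nat.finite_of_card_ne_zero (by omega)
  haveI : Fact (Nat.Prime 3) := ⟨Nat.prime_three⟩
  haveI : Nontrivial R := ⟨⟨a * b, b * a, hab⟩⟩
  have hp : IsPGroup 3 R := IsPGroup.of_card (n := 3) (by rw [hR]; norm_num)
  have h1 : 1 < Nat.card (Subgroup.center R) := by
    haveI := hp.center_nontrivial
    exact Finite.one_lt_card
  have hdvd : Nat.card (Subgroup.center R) ∣ 3 ^ 3 := by
    have := Subgroup.card_subgroup_dvd_card (Subgroup.center R)
    rwa [hR] at this
  obtain ⟨k, hk, hcard⟩ := (Nat.dvd_prime_pow Nat.prime_three).1 hdvd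
  have hidx := Subgroup.card_eq_card_quotient_mul_card_subgroup (Subgroup.center R)
  rw [hR, hcard] at hidx
  interval_cases k
  · rw [hcard] at h1; norm_num at h1
  · simpa using hcard
  · exfalso
    have hq : Nat.card (R ⧸ Subgroup.center R) = 3 := by omega
    haveI : IsCyclic (R ⧸ Subgroup.center R) := isCyclic_of_prime_card hq
    let _ : CommGroup R := commGroupOfCyclicCenterQuotient
      (QuotientGroup.mk' (Subgroup.center R)) (QuotientGroup.ker_mk' _).le
    exact hab (mul_comm a b)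
  · exfalso
    have hZ : Subgroup.center R = ⊤ := Subgroup.eq_top_of_card_eq _ (by rw [hcard, hR]; norm_num)
    exact hab ((Subgroup.mem_center_iff.1 (hZ ▸ Subgroup.mem_top b : b ∈ Subgroup.center R)) a)

/-- The normalisers of Sylow 3-subgroups of `Aut M22` have order 144. -/
theorem card_normalizer_aut (T : Sylow 3 (MulAut M)) :
    Nat.card (Subgroup.normalizer ((T : Subgroup (MulAut M)) : Set (MulAut M))) = 144 := by
  haveI : Fact (Nat.Prime 3) := ⟨Nat.prime_three⟩
  have hA : (Nat.card (MulAut M)).factorization 3 = 2 := by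
    rw [Setup.card_mulAut, show (887040 : ℕ) = 3 ^ 2 * 98560 by norm_num,
      Nat.factorization_mul (by norm_num) (by norm_num), Finsupp.add_apply,
      Nat.factorization_eq_zero_of_not_dvd (by norm_num : ¬(3 ∣ 98560)),
      Nat.Prime.factorization_pow Nat.prime_three]
    simp
  let φ : Sylow 3 M → Sylow 3 (MulAut M) := fun P =>
    Sylow.ofCard ((P : Subgroup M).map (MulAut.conj : M →* MulAut M)) (by
      rw [Subgroup.card_map_of_injective (f := (MulAut.conj : M →* MulAut M)) conj_injective_M, (M22.card_sylow_three P).1, hA]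
      norm_num)
  have hφ : ∀ P, ((φ P : Sylow 3 (MulAut M)) : Subgroup (MulAut M)) =
      (P : Subgroup M).map (MulAut.conj : M →* MulAut M) := fun _ => rfl
  haveI hn : (MulAut.conj : M →* MulAut M).range.Normal := Subgroup.normal_of_index_eq_two inn_index
  have hinj : Function.Injective φ := fun P Q h => Sylow.ext (Subgroup.map_injective conj_injective_M
    (by rw [← hφ, ← hφ, h]))
  have hle : ∀ S : Sylow 3 (MulAut M), (S : Subgroup (MulAut M)) ≤ (MulAut.conj : M →* MulAut M).range := by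
    intro S
    obtain ⟨P₀⟩ : Nonempty (Sylow 3 M) := inferInstance
    obtain ⟨g, rfl⟩ := MulAction.exists_smul_eq (MulAut M) (φ P₀) S
    intro x hx
    rw [Sylow.coe_subgroup_smul, Subgroup.mem_pointwise_smul_iff_inv_smul_mem, hφ] at hx
    have h1 : (MulAut.conj g)⁻¹ • x ∈ (MulAut.conj : M →* MulAut M).range :=
      Subgroup.map_le_range _ _ hx
    have h2 := hn.conj_mem _ h1 g
    simpa [mul_assoc] using h2
  have hsurj : Function.Surjective φ := by
    intro S
    refine ⟨Sylow.ofCard ((S : Subgroup (MulAut M)).comap (MulAut.conj : M →* MulAut M)) ?_, ?_⟩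
    · have h := Subgroup.card_map_of_injective (f := (MulAut.conj : M →* MulAut M))
        (K := (S : Subgroup (MulAut M)).comap (MulAut.conj : M →* MulAut M)) conj_injective_M
      rw [Subgroup.map_comap_eq_self (hle S), Sylow.card_eq_multiplicity, hA] at h
      obtain ⟨P₀⟩ : Nonempty (Sylow 3 M) := inferInstance
      have h9 := (M22.card_sylow_three P₀).1
      rw [Sylow.card_eq_multiplicity] at h9
      rw [← h, h9]; norm_num
    · exact Sylow.ext (Subgroup.map_comap_eq_self (hle S))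
  have hcard : Nat.card (Sylow 3 (MulAut M)) = Nat.card (Sylow 3 M) :=
    (Nat.card_eq_of_bijective φ ⟨hinj, hsurj⟩).symm
  obtain ⟨P₀⟩ : Nonempty (Sylow 3 M) := inferInstance
  have h1 := Subgroup.card_mul_index (Subgroup.normalizer ((P₀ : Subgroup M) : Set M))
  have e0 : (Subgroup.normalizer ((P₀ : Subgroup M) : Set M)).index = Nat.card (Sylow 3 M) :=
    P₀.card_eq_index_normalizer.symm
  rw [e0, (M22.card_sylow_three P₀).2.2, CfsgLib.Mathieu.card_M22] at h1
  have h2 := Subgroup.card_mul_index (Subgroup.normalizer ((T : Subgroup (MulAut M)) : Set (MulAut M)))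
  have eT : (Subgroup.normalizer ((T : Subgroup (MulAut M)) : Set (MulAut M))).index =
      Nat.card (Sylow 3 (MulAut M)) := T.card_eq_index_normalizer.symm
  rw [eT, hcard, Setup.card_mulAut,
    show Nat.card (Sylow 3 M) = 6160 by omega] at h2
  omega

section generic

variable {H : Type u} [Group H] [Finite H] (d : Setup H)

include d in
theorem sylowThree_card_H : Nat.card H = 3 ^ 3 * (98560 * 2 ^ 13) := by
  rw [Subgroup.card_eq_card_quotient_mul_card_subgroup d.π.ker, d.cardKer,
    Nat.card_congr (QuotientGroup.quotientKerEquivOfSurjective d.π d.surj).toEquiv,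
    Setup.card_mulAut]
  norm_num

theorem sylowThree_card_C : Nat.card d.C = 3 ^ 3 * 98560 := by
  have hle : d.Z ≤ d.C := Subgroup.zpowers_le.2 (d.mem_C.2 (d.zc d.p))
  have hX : Nat.card d.X = 3 * 443520 := by
    have h := d.rep.card_comap ⊤
    rw [Subgroup.comap_top, Subgroup.card_top, Subgroup.card_top, CfsgLib.Mathieu.card_M22] at h
    exact h
  rw [Subgroup.card_eq_card_quotient_mul_card_subgroup (d.Z.subgroupOf d.C),
    Nat.card_congr (Subgroup.subgroupOfEquivOfLe hle).toEquiv, d.card_Z]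
  show Nat.card d.X * 2 = _
  rw [hX]
  norm_num

/-- A Sylow 3-subgroup of `H` centralising `p`, with `p` in its derived group. -/
theorem exists_core : ∃ R : Sylow 3 H, (R : Subgroup H) ≤ d.C ∧ Nat.card (R : Subgroup H) = 27 ∧
    d.p ∈ ⁅(R : Subgroup H), (R : Subgroup H)⁆ := by
  haveI : Fact (Nat.Prime 3) := ⟨Nat.prime_three⟩
  obtain ⟨RC⟩ : Nonempty (Sylow 3 d.C) := inferInstance
  have hRC : Nat.card (RC : Subgroup d.C) = 27 := by
    rw [Sylow.card_eq_multiplicity, sylowThree_card_C, fact_three (by norm_num)]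
    norm_num
  set pC : d.C := ⟨d.p, d.mem_C.2 (Commute.refl _)⟩
  have hpn : pC ∈ Subgroup.normalizer ((RC : Subgroup d.C) : Set d.C) := by
    rw [Subgroup.mem_normalizer_iff]
    intro x
    have : pC * x = x * pC := Subtype.ext (d.mem_C.1 x.2).eq.symm
    rw [this, mul_inv_cancel_right]
  have hP : IsPGroup 3 ↥(Subgroup.zpowers pC) := IsPGroup.of_card (n := 1) (by
    rw [Nat.card_zpowers, ← Subgroup.orderOf_coe, pow_one]; exact d.p_order)
  have hpRC : pC ∈ (RC : Subgroup d.C) :=
    ((hP.inf_normalizer_sylow RC).le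
      ⟨Subgroup.mem_zpowers pC, hpn⟩).2
  have hder : pC ∈ ⁅(RC : Subgroup d.C), (RC : Subgroup d.C)⁆ := by
    have h := d.rep.p_mem_commutator
      (RC.mapSurjective (QuotientGroup.mk'_surjective (d.Z.subgroupOf d.C)))
    rw [Sylow.coe_mapSurjective, ← Subgroup.map_commutator] at h
    obtain ⟨y, hy, hye⟩ := h
    have hyR : y ∈ (RC : Subgroup d.C) := Subgroup.commutator_le_self _ hy
    have hz : (((y⁻¹ * pC : d.C)) : H) ∈ d.Z := (QuotientGroup.eq (s := d.Z.subgroupOf d.C)).1 hye
    have h1 : y⁻¹ * pC = 1 := by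
      refine eq_one_of_three_group RC.isPGroup' (mul_mem (inv_mem hyR) hpRC) (n := 2) (by norm_num) ?_
      refine Subtype.ext ?_
      rw [Subgroup.coe_pow, Subgroup.coe_one]
      rcases d.mem_Z.1 hz with e | e <;> rw [e]
      · exact one_pow 2
      · rw [pow_two, d.zz]
    rwa [← inv_mul_eq_one.1 h1]
  have hc : Nat.card ((RC : Subgroup d.C).map d.C.subtype) = 27 := by
    rw [Subgroup.card_map_of_injective d.C.subtype_injective, hRC]
  refine ⟨Sylow.ofCard ((RC : Subgroup d.C).map d.C.subtype) (by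
    rw [hc, sylowThree_card_H d, fact_three (by norm_num)]; norm_num),
    Subgroup.map_subtype_le _, hc, ?_⟩
  show d.p ∈ ⁅(RC : Subgroup d.C).map d.C.subtype, (RC : Subgroup d.C).map d.C.subtype⁆
  rw [← Subgroup.map_commutator]
  exact ⟨pC, hder, rfl⟩

/-- A Sylow 3-subgroup of `H` with its centre and normaliser. -/
theorem exists_sylowThree : ∃ R : Sylow 3 H, Cfsg.IsExtraspecial 3 ↥(R : Subgroup H) ∧
    Nat.card (R : Subgroup H) = 27 ∧ Monoid.exponent ↥(R : Subgroup H) = 3 ∧
    (∀ y, y ∈ Subgroup.zpowers d.p ↔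
      y ∈ (R : Subgroup H) ∧ ∀ r ∈ (R : Subgroup H), Commute y r) ∧
    Nat.card (Subgroup.normalizer ((R : Subgroup H) : Set H)) = 864 := by
  haveI : Fact (Nat.Prime 3) := ⟨Nat.prime_three⟩
  obtain ⟨R, hRC, hR27, hpd⟩ := exists_core d
  have hpR : d.p ∈ (R : Subgroup H) := Subgroup.commutator_le_self _ hpd
  have hpc : ∀ r ∈ (R : Subgroup H), Commute d.p r := fun r hr => (d.mem_C.1 (hRC hr)).symm
  obtain ⟨a, b, hab⟩ : ∃ a b : ↥(R : Subgroup H), a * b ≠ b * a := by
    by_contra hno
    push Not at hno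
    refine d.pne (Subgroup.mem_bot.1 ?_)
    rw [← Subgroup.commutator_eq_bot_iff_le_centralizer.2 (fun x hx =>
      Subgroup.mem_centralizer_iff.2 fun y hy => congrArg Subtype.val (hno ⟨y, hy⟩ ⟨x, hx⟩) :
        (R : Subgroup H) ≤ Subgroup.centralizer ((R : Subgroup H) : Set H))]
    exact hpd
  have hZ3 := card_center_27 hR27 hab
  set p' : ↥(R : Subgroup H) := ⟨d.p, hpR⟩
  have hcen : Subgroup.zpowers p' = Subgroup.center ↥(R : Subgroup H) :=
    Subgroup.eq_of_le_of_card_ge
      (Subgroup.zpowers_le.2 (Subgroup.mem_center_iff.2 fun r => Subtype.ext (hpc r r.2).eq.symm))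
      (by rw [hZ3, Nat.card_zpowers, ← Subgroup.orderOf_coe]; exact d.p_order.ge)
  have hcentre : ∀ y, y ∈ Subgroup.zpowers d.p ↔
      y ∈ (R : Subgroup H) ∧ ∀ r ∈ (R : Subgroup H), Commute y r := by
    intro y
    constructor
    · rintro ⟨i, rfl⟩
      exact ⟨zpow_mem hpR i, fun r hr => (hpc r hr).zpow_left i⟩
    · rintro ⟨hy, hc⟩
      have h : (⟨y, hy⟩ : ↥(R : Subgroup H)) ∈ Subgroup.zpowers p' := by
        rw [hcen]; exact Subgroup.mem_center_iff.2 fun r => Subtype.ext (hc r r.2).eq.symm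
      obtain ⟨i, hi⟩ := h
      exact ⟨i, congrArg Subtype.val hi⟩
  have hkerR : ∀ x ∈ (R : Subgroup H), x ∈ d.π.ker → x ∈ Subgroup.zpowers d.p := by
    intro x hx hk
    obtain ⟨i, hi⟩ := d.ker_decomp hk
    obtain ⟨k, hk2⟩ := d.pgroupE ⟨_, hi⟩
    have h1 : x * d.p ^ i = 1 := eq_one_of_three_group R.isPGroup' (mul_mem hx (zpow_mem hpR i))
      (Nat.Coprime.pow_right k (by norm_num)) (congrArg Subtype.val hk2)
    rw [eq_inv_of_mul_eq_one_left h1]
    exact inv_mem (zpow_mem (Subgroup.mem_zpowers _) i)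
  have hexp : ∀ x ∈ (R : Subgroup H), x ^ 3 = 1 := by
    intro x hx
    have hx27 : x ^ 27 = 1 := by
      have h : (⟨x, hx⟩ : ↥(R : Subgroup H)) ^ 27 = 1 := by rw [← hR27]; exact pow_card_eq_one'
      exact congrArg Subtype.val h
    set xC : d.C := ⟨x, hRC hx⟩
    have hkersig : ∀ y : d.C, d.sigma y = 1 → (y : H) ∈ d.π.ker := fun y hy => by
      rw [MonoidHom.mem_ker, ← d.conj_sigma, hy, map_one]
    have hp3 : ∀ y ∈ Subgroup.zpowers d.p, y ^ 3 = 1 := by
      rintro _ ⟨i, rfl⟩
      rw [← zpow_natCast, ← zpow_mul, mul_comm, zpow_mul, zpow_natCast, d.p3, one_zpow]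
    by_cases hs1 : d.sigma xC = 1
    · exact hp3 _ (hkerR x hx (hkersig xC hs1))
    have hs27 : d.sigma xC ^ 27 = 1 := by
      rw [← map_pow, show xC ^ 27 = 1 from Subtype.ext hx27, map_one]
    have hpg : IsPGroup 3 ↥(Subgroup.zpowers (d.sigma xC)) := by
      have := orderOf_dvd_of_pow_eq_one hs27
      obtain ⟨k, -, hk⟩ := (Nat.dvd_prime_pow Nat.prime_three (m := 3)).1 (by norm_num; exact this)
      exact IsPGroup.of_card (n := k) (by rw [Nat.card_zpowers, hk])
    obtain ⟨Q, hQ⟩ := hpg.exists_le_sylow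
    have hs3 : d.sigma xC ^ 3 = 1 :=
      (M22.card_sylow_three Q).2.1 _ (hQ (Subgroup.mem_zpowers _))
    have ho : orderOf (d.sigma xC) = 3 := orderOf_eq_prime hs3 hs1
    obtain ⟨g, hg⟩ := M22.exists_conj_three ho (by rw [orderOf_inv]; exact ho :
      orderOf (d.sigma xC)⁻¹ = 3)
    obtain ⟨v, hv⟩ := d.rep.surj g
    induction v using QuotientGroup.induction_on with
    | H cc =>
      have hv' : d.sigma cc = g := hv
      have hyk : d.sigma (cc * xC * cc⁻¹ * xC) = 1 := by
        rw [map_mul, map_mul, map_mul, map_inv, hv', hg, inv_mul_cancel]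
      obtain ⟨i, hi⟩ := d.ker_decomp (hkersig _ hyk)
      have hpC : d.p ∈ d.C := d.mem_C.2 (Commute.refl _)
      have hz := d.mem_Z_of_C hi (mul_mem (cc * xC * cc⁻¹ * xC).2 (zpow_mem hpC i))
      set w : H := (cc : H) * x * (cc : H)⁻¹ * x with hw
      have hz' : w * d.p ^ i ∈ d.Z := hz
      have hwx : Commute w x := by
        have h1 : Commute (w * d.p ^ i) x := by
          rcases d.mem_Z.1 hz' with e | e <;> rw [e]
          · exact Commute.one_left x
          · exact d.zc x
        have := h1.mul_left ((hpc x hx).zpow_left i).inv_left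
        rwa [mul_inv_cancel_right] at this
      have hw6 : w ^ 6 = 1 := by
        have hcomm : Commute (w * d.p ^ i) (d.p ^ i)⁻¹ := by
          rcases d.mem_Z.1 hz' with e | e <;> rw [e]
          · exact Commute.one_left _
          · exact d.zc _
        rw [show w = w * d.p ^ i * (d.p ^ i)⁻¹ by rw [mul_inv_cancel_right], hcomm.mul_pow,
          inv_pow, pow_mul (d.p ^ i) 3 2, hp3 _ (zpow_mem (Subgroup.mem_zpowers _) i), one_pow,
          inv_one, mul_one, pow_mul _ 2 3, pow_two]
        rcases d.mem_Z.1 hz' with e | e <;> rw [e]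
        · simp
        · rw [d.zz, one_pow]
      have h6 : (cc : H) * x ^ 6 * (cc : H)⁻¹ = (x ^ 6)⁻¹ := by
        rw [← conj_pow, show (cc : H) * x * (cc : H)⁻¹ = w * x⁻¹ by rw [hw, mul_inv_cancel_right],
          hwx.inv_right.mul_pow, hw6, one_mul, inv_pow]
      have hfix : (cc : H) * x ^ 6 * (cc : H)⁻¹ = x ^ 6 := by
        have h3 : (xC ^ 6 : d.C).1 ∈ Subgroup.zpowers d.p := by
          refine hkerR _ (pow_mem hx 6) (hkersig _ ?_)
          rw [map_pow, show (6 : ℕ) = 3 * 2 by rfl, pow_mul, hs3, one_pow]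
        obtain ⟨j, hj⟩ := h3
        have hc6 : Commute (cc : H) (x ^ 6) := by
          rw [show x ^ 6 = d.p ^ j from hj.symm]
          exact ((d.mem_C.1 cc.2).zpow_right j)
        exact mul_inv_eq_iff_eq_mul.2 hc6.eq
      rw [hfix] at h6
      have h12 : x ^ 12 = 1 := by
        rw [show (12 : ℕ) = 6 + 6 by rfl, pow_add]
        exact eq_inv_iff_mul_eq_one.1 h6
      have := pow_gcd_eq_one.2 ⟨hx27, h12⟩
      exact this
  have hes : Cfsg.IsExtraspecial 3 ↥(R : Subgroup H) := by
    refine CfsgLib.PGroup.isExtraspecial_of R.isPGroup' hZ3 ⟨a, b, hab⟩ (fun x y => ?_) fun x => ?_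
    · have hq : Nat.card (↥(R : Subgroup H) ⧸ Subgroup.center ↥(R : Subgroup H)) = 3 ^ 2 := by
        have h := Subgroup.card_eq_card_quotient_mul_card_subgroup (Subgroup.center ↥(R : Subgroup H))
        rw [hR27, hZ3] at h
        omega
      rw [← QuotientGroup.eq_one_iff, ← QuotientGroup.mk'_apply, map_commutatorElement,
        commutatorElement_eq_one_iff_commute]
      exact IsPGroup.commutative_of_card_eq_prime_sq hq _ _
    · rw [show x ^ 3 = 1 from Subtype.ext (hexp x x.2)]
      exact one_mem _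
  refine ⟨R, hes, hR27, ?_, hcentre, ?_⟩
  · rcases (Nat.dvd_prime Nat.prime_three).1 (Monoid.exponent_dvd_of_forall_pow_eq_one
      fun x : ↥(R : Subgroup H) => Subtype.ext (hexp x x.2)) with h | h
    · exfalso
      haveI := Monoid.exp_eq_one_iff.1 h
      rw [Nat.card_of_subsingleton (1 : ↥(R : Subgroup H))] at hR27
      omega
    · exact h
  · -- the normaliser
    set N := Subgroup.normalizer ((R : Subgroup H) : Set H)
    have hker : d.π.ker ⊓ N = Subgroup.zpowers (d.z * d.p) := by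
      refine le_antisymm ?_ (Subgroup.zpowers_le.2 ⟨?_, ?_⟩)
      · rintro n ⟨hk, hn⟩
        have hz1 : d.z ∈ Subgroup.zpowers (d.z * d.p) := ⟨(3 : ℕ), by
          show (d.z * d.p) ^ ((3 : ℕ) : ℤ) = d.z
          rw [zpow_natCast, (d.zc d.p).mul_pow, d.p3, mul_one, pow_succ, pow_two, d.zz, one_mul]⟩
        have hp1 : d.p ∈ Subgroup.zpowers (d.z * d.p) := by
          have := mul_mem (inv_mem hz1) (Subgroup.mem_zpowers (d.z * d.p))
          rwa [inv_mul_cancel_left] at this
        obtain ⟨i, hi⟩ := d.ker_decomp hk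
        set e := n * d.p ^ i
        have he : e ∈ N := mul_mem hn (zpow_mem (Subgroup.le_normalizer hpR) i)
        have h1 : e * d.p * e⁻¹ * d.p⁻¹ = 1 := by
          have hE : e * d.p * e⁻¹ * d.p⁻¹ ∈ d.E := by
            rw [show e * d.p * e⁻¹ * d.p⁻¹ = e * (d.p * e⁻¹ * d.p⁻¹) by group]
            exact mul_mem hi (d.normalE _ _ (inv_mem hi))
          obtain ⟨k, hk2⟩ := d.pgroupE ⟨_, hE⟩
          exact eq_one_of_three_group R.isPGroup'
            (mul_mem ((Subgroup.mem_normalizer_iff.1 he _).1 hpR) (inv_mem hpR))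
            (Nat.Coprime.pow_right k (by norm_num)) (congrArg Subtype.val hk2)
        have hez : e ∈ Subgroup.zpowers (d.z * d.p) := by
          rcases d.fixE e hi (mul_inv_eq_iff_eq_mul.1 (mul_inv_eq_one.1 h1)) with h | h <;> rw [h]
          exacts [one_mem _, hz1]
        have := mul_mem hez (inv_mem (zpow_mem hp1 i))
        rwa [mul_inv_cancel_right] at this
      · exact mul_mem (d.E_le d.zmem) d.pker
      · refine mul_mem ?_ (Subgroup.le_normalizer hpR)
        show d.z ∈ Subgroup.normalizer ((R : Subgroup H) : Set H)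
        rw [Subgroup.mem_normalizer_iff]
        intro x
        rw [(d.zc x).eq, mul_inv_cancel_right]
    have hker6 : Nat.card ↥(d.π.ker ⊓ N) = 6 := by
      rw [hker, Nat.card_zpowers, (d.zc d.p).orderOf_mul_eq_mul_orderOf_of_coprime
        (by rw [d.order_z, d.p_order]; norm_num), d.order_z, d.p_order]
    set T := R.mapSurjective d.surj
    have himg : N.map d.π = Subgroup.normalizer ((T : Subgroup (MulAut M)) : Set (MulAut M)) := by
      refine le_antisymm (Subgroup.le_normalizer_map d.π) fun t ht => ?_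
      obtain ⟨h, rfl⟩ := d.surj t
      set K := ((R : Subgroup H).map d.π).comap d.π
      have hRK : (R : Subgroup H) ≤ K := Subgroup.le_comap_map _ _
      have hhR : ((h • R : Sylow 3 H) : Subgroup H) ≤ K := by
        intro x hx
        rw [Sylow.coe_subgroup_smul, Subgroup.mem_pointwise_smul_iff_inv_smul_mem] at hx
        have h1 : d.π ((MulAut.conj h)⁻¹ • x) ∈ (T : Subgroup (MulAut M)) := ⟨_, hx, rfl⟩
        show d.π x ∈ (T : Subgroup (MulAut M))
        have h2 := (Subgroup.mem_normalizer_iff.1 ht _).1 h1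
        simpa [mul_assoc] using h2
      obtain ⟨k, hk⟩ := MulAction.exists_smul_eq K ((h • R).subtype hhR) (R.subtype hRK)
      rw [Sylow.smul_subtype] at hk
      have hk'' := Sylow.subtype_injective hk
      rw [Subgroup.smul_def, ← mul_smul] at hk''
      have hk' : (k : H) * h ∈ N := Sylow.smul_eq_iff_mem_normalizer.1 hk''
      obtain ⟨r, hr, hrk⟩ : d.π (k : H) ∈ (R : Subgroup H).map d.π := k.2
      refine ⟨r⁻¹ * ((k : H) * h), mul_mem (inv_mem (Subgroup.le_normalizer hr)) hk', ?_⟩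
      rw [map_mul, map_mul, map_inv, hrk, inv_mul_cancel_left]
    have hN := Subgroup.card_eq_card_quotient_mul_card_subgroup (d.π.comp N.subtype).ker
    rw [Nat.card_congr (QuotientGroup.quotientKerEquivRange _).toEquiv, MonoidHom.range_comp,
      Subgroup.range_subtype, himg, card_normalizer_aut] at hN
    rw [hN, show (d.π.comp N.subtype).ker = d.π.ker.subgroupOf N from rfl,
      ← Subgroup.card_map_of_injective N.subtype_injective, Subgroup.subgroupOf_map_subtype, hker6]

/-- The Sylow 3-subgroups of `H`. -/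
theorem sylowThree_props (R : Sylow 3 H) : Cfsg.IsExtraspecial 3 ↥(R : Subgroup H) ∧
    Nat.card (R : Subgroup H) = 27 ∧ Monoid.exponent ↥(R : Subgroup H) = 3 ∧
    (∃ a : H, ∀ y, a * y * a⁻¹ ∈ Subgroup.zpowers d.p ↔
      y ∈ (R : Subgroup H) ∧ ∀ r ∈ (R : Subgroup H), Commute y r) ∧
    Nat.card (Subgroup.normalizer ((R : Subgroup H) : Set H)) = 864 := by
  haveI : Fact (Nat.Prime 3) := ⟨Nat.prime_three⟩
  obtain ⟨R₀, h1, h2, h3, h4, h5⟩ := exists_sylowThree d
  obtain ⟨a, ha⟩ := MulAction.exists_smul_eq H R R₀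
  let e := R.equiv R₀
  have hmem : ∀ y, a * y * a⁻¹ ∈ (R₀ : Subgroup H) ↔ y ∈ (R : Subgroup H) := fun y => by
    rw [← ha, Sylow.coe_subgroup_smul, Subgroup.mem_pointwise_smul_iff_inv_smul_mem]
    simp [mul_assoc]
  refine ⟨extraspecial_congr e.symm h1, (Nat.card_congr e.toEquiv).trans h2,
    (Monoid.exponent_eq_of_mulEquiv e).trans h3, ⟨a, fun y => ?_⟩,
    (card_normalizer_eq R R₀).trans h5⟩
  rw [h4, hmem]
  refine and_congr_right fun _ => ⟨fun h r hr => ?_, fun h r hr => ?_⟩
  · have h' := h _ ((hmem r).2 hr)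
    exact Commute.conj_iff a |>.1 h'
  · have hr' : a⁻¹ * r * a ∈ (R : Subgroup H) := (hmem _).1 (by simpa [mul_assoc] using hr)
    have h' := (Commute.conj_iff a).2 (h _ hr')
    simpa [mul_assoc] using h'

end generic

namespace Ctx

variable {G : Type u} [Group G] [Finite G] (c : Ctx G)

theorem sylow_H (R : Sylow 3 c.H) :
    Cfsg.IsExtraspecial 3 ↥((R : Subgroup c.H).map c.H.subtype) ∧
    Nat.card ↥((R : Subgroup c.H).map c.H.subtype) = 27 ∧
    Monoid.exponent ↥((R : Subgroup c.H).map c.H.subtype) = 3 ∧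
    (∃ h ∈ c.H, ∀ g : G, g ∈ Subgroup.normalizer (((R : Subgroup c.H).map c.H.subtype : Subgroup G) : Set G) →
      h * g * h⁻¹ ∈ Subgroup.normalizer (Subgroup.zpowers c.p : Set G)) ∧
    Nat.card ↥(c.H ⊓ Subgroup.normalizer (((R : Subgroup c.H).map c.H.subtype : Subgroup G) : Set G)) = 864 := by
  obtain ⟨h1, h2, h3, ⟨a, ha⟩, h5⟩ := sylowThree_props c.setup R
  let e := (R : Subgroup c.H).equivMapOfInjective c.H.subtype c.H.subtype_injective
  have hback : ((R : Subgroup c.H).map c.H.subtype).subgroupOf c.H = (R : Subgroup c.H) :=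
    Subgroup.comap_map_eq_self_of_injective c.H.subtype_injective _
  refine ⟨extraspecial_congr e h1, (Nat.card_congr e.toEquiv).symm.trans h2,
    (Monoid.exponent_eq_of_mulEquiv e).symm.trans h3, ⟨a, a.2, fun g hg =>
      conj_mem_normalizer_of (fun y => ?_) hg⟩, ?_⟩
  · constructor
    · rintro ⟨i, hi⟩
      have hy : y ∈ c.H := by
        have hm : (a : G) * y * (a : G)⁻¹ ∈ c.H := hi ▸ zpow_mem c.p_mem_H i
        have := mul_mem (mul_mem (inv_mem a.2) hm) a.2
        simpa [mul_assoc] using this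
      obtain ⟨hy1, hy2⟩ := (ha ⟨y, hy⟩).1 ⟨i, Subtype.ext hi⟩
      refine ⟨⟨_, hy1, rfl⟩, ?_⟩
      rintro _ ⟨r, hr, rfl⟩
      exact congrArg Subtype.val (hy2 r hr).eq
    · rintro ⟨⟨y', hy', rfl⟩, hc⟩
      obtain ⟨i, hi⟩ := (ha y').2 ⟨hy', fun r hr => Subtype.ext (hc _ ⟨r, hr, rfl⟩).eq⟩
      exact ⟨i, congrArg Subtype.val hi⟩
  · have e1 : Subgroup.normalizer ((R : Subgroup c.H) : Set c.H) = (Subgroup.normalizer
        (((R : Subgroup c.H).map c.H.subtype : Subgroup G) : Set G)).subgroupOf c.H := by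
      rw [Subgroup.subgroupOf_normalizer_eq (Subgroup.map_subtype_le _), hback]
    rw [e1, ← Subgroup.card_map_of_injective c.H.subtype_injective,
      Subgroup.subgroupOf_map_subtype, inf_comm] at h5
    exact h5

theorem sylow_G (hN : Subgroup.normalizer (Subgroup.zpowers c.p : Set G) ≤ c.H) (R : Sylow 3 G)
    (hR : (R : Subgroup G) ≤ c.H) :
    Cfsg.IsExtraspecial 3 ↥(R : Subgroup G) ∧ Nat.card ↥(R : Subgroup G) = 27 ∧
    Monoid.exponent ↥(R : Subgroup G) = 3 ∧
    Subgroup.normalizer ((R : Subgroup G) : Set G) ≤ c.H ∧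
    Nat.card ↥(Subgroup.normalizer ((R : Subgroup G) : Set G)) = 864 := by
  obtain ⟨h1, h2, h3, ⟨h, hh, h4⟩, h5⟩ := c.sylow_H (R.subtype hR)
  rw [Sylow.coe_subtype, Subgroup.map_subgroupOf_eq_of_le hR] at h1 h2 h3 h4 h5
  have hle : Subgroup.normalizer ((R : Subgroup G) : Set G) ≤ c.H := fun g hg => by
    have := mul_mem (mul_mem (inv_mem hh) (hN (h4 g hg))) hh
    simpa [mul_assoc] using this
  exact ⟨h1, h2, h3, hle, by rwa [inf_of_le_right hle] at h5⟩

end Ctx

end CfsgLib.Jf18
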