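import Cfsg.Prelude.Def_JankoFourType
import Cfsg.Agent.J4Type67.Setup
import Cfsg.Agent.Constrained.Basic

/-!
Janko-four type: context, transport, and the projection of the centraliser onto `Aut M22`.
-/

set_option autoImplicit false
set_option linter.unusedSectionVars false
set_option linter.style.haveILetI false

namespace CfsgLib.Jf18

open scoped Pointwise commutatorElement
open CfsgLib.J4Type67

universe u

/-- An involution with a chosen element of order three as in the hypothesis block. -/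
structure Ctx (G : Type u) [Group G] where
  z : G
  p : G
  hJ : Cfsg.IsOfJankoFourTypeWith z (Subgroup.zpowers p)

variable {G : Type u} [Group G] [Finite G]

/-- The hypothesis block gives a context. -/
theorem exists_ctx {z : G} {P : Subgroup G} (h : Cfsg.IsOfJankoFourTypeWith z P) :
    ∃ c : Ctx G, c.z = z ∧ Subgroup.zpowers c.p = P := by
  have hP : Nat.card P = 3 := h.2.2.2.2.2.1
  obtain ⟨p, hp, hp1⟩ := (Subgroup.bot_or_exists_ne_one P).resolve_left (by
    intro hb; rw [hb, Subgroup.card_bot] at hP; omega)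
  haveI : Fact (Nat.Prime 3) := ⟨Nat.prime_three⟩
  have e : Subgroup.zpowers p = P := by
    refine Subgroup.eq_of_le_of_card_ge (Subgroup.zpowers_le.2 hp) ?_
    rw [hP, Nat.card_zpowers]
    have : orderOf (⟨p, hp⟩ : P) ∣ 3 := hP ▸ orderOf_dvd_natCard _
    rw [Subgroup.orderOf_mk] at this
    rcases (Nat.dvd_prime Nat.prime_three).1 this with h' | h'
    · exact absurd (orderOf_eq_one_iff.1 h') hp1
    · omega
  exact ⟨⟨z, p, by rw [e]; exact h⟩, rfl, e⟩

omit [Finite G] in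
theorem mem_cz {z x : G} : x ∈ Subgroup.centralizer ({z} : Set G) ↔ Commute x z :=
  Subgroup.mem_centralizer_singleton_iff

theorem pCore_normal (K : Type u) [Group K] : (Cfsg.pCore 2 K).Normal :=
  Subgroup.sSup_normal _ fun _ hN => hN.1

theorem extraspecial_congr {p : ℕ} {G H : Type*} [Group G] [Group H] (e : G ≃* H) (h : Cfsg.IsExtraspecial p G) : Cfsg.IsExtraspecial p H := by
  obtain ⟨⟨hp, hfr, hder⟩, hcard⟩ := h
  have hc : (Subgroup.center G).map e.toMonoidHom = Subgroup.center H := by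
    refine le_antisymm ?_ fun y hy => ⟨e.symm y, Subgroup.mem_center_iff.2 fun v =>
      e.injective ?_, e.apply_symm_apply y⟩
    · rintro _ ⟨y, hy, rfl⟩
      refine Subgroup.mem_center_iff.2 fun u => ?_
      obtain ⟨v, rfl⟩ := e.surjective u
      show e v * e y = e y * e v
      rw [← map_mul, ← map_mul, Subgroup.mem_center_iff.1 hy v]
    · rw [map_mul, map_mul, e.apply_symm_apply, Subgroup.mem_center_iff.1 hy (e v)]
  have hf : (frattini G).map e.toMonoidHom = frattini H :=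
    le_antisymm (Subgroup.map_le_iff_le_comap.2
        (frattini_le_comap_frattini_of_surjective (φ := e.toMonoidHom) e.surjective))
      fun y hy => ⟨e.symm y, frattini_le_comap_frattini_of_surjective (φ := e.symm.toMonoidHom)
        e.symm.surjective hy, e.apply_symm_apply y⟩
  have hd : (commutator G).map e.toMonoidHom = commutator H := by
    rw [commutator_def, Subgroup.map_commutator, Subgroup.map_top_of_surjective _ e.surjective,
      ← commutator_def]
  refine ⟨⟨hp.of_equiv e, ?_, ?_⟩, ?_⟩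
  · rw [← hf, hfr, hc]
  · rw [← hd, hder, hc]
  · rw [← hc, ← hcard, Subgroup.card_map_of_injective e.injective]

namespace Ctx

variable (c : Ctx G)

/-- The centraliser of the involution. -/
abbrev H : Subgroup G := Subgroup.centralizer ({c.z} : Set G)

/-- Its largest normal 2-subgroup. -/
abbrev E : Subgroup G := Cfsg.twoCoreOfCentralizer c.z

/-- The centraliser of the element of order three in it. -/
abbrev C : Subgroup G := c.H ⊓ Subgroup.centralizer (Subgroup.zpowers c.p : Set G)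

/-- The inner part of the centraliser. -/
def inn : Subgroup G := c.E ⊔ c.C

/-- Some involution other than `z` of the centraliser of `p` in `H` is fused to `z`. -/
def FactA : Prop := ∃ u ∈ c.C, u ≠ c.z ∧ IsConj c.z u

/-- Some other element of `E` is fused to `z`. -/
def CaseE : Prop := ∃ v ∈ c.E, v ≠ c.z ∧ IsConj c.z v

/-- Some inner element other than `z` is fused to `z`. -/
def CaseInn : Prop := ∃ v ∈ c.inn, v ≠ c.z ∧ IsConj c.z v

/-- An elementary subgroup of order `2 ^ 11` holds two conjugates of `z`. -/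
def CommonV : Prop := ∃ (v : G) (V : Subgroup G), v ≠ c.z ∧ IsConj c.z v ∧ c.z ∈ V ∧ v ∈ V ∧
  (∀ x ∈ V, x * x = 1) ∧ Nat.card V = 2 ^ 11

theorem E_le : c.E ≤ c.H := Subgroup.map_subtype_le _

theorem exists_pi : ∃ π : c.H →* MulAut M, Function.Surjective π ∧
    c.E.subgroupOf c.H ≤ π.ker ∧ Nat.card π.ker = 3 * 2 ^ 13 ∧
    (Subgroup.zpowers c.p).subgroupOf c.H ≤ π.ker ∧ c.p ∈ c.H := by
  obtain ⟨-, -, hcard, -, ⟨N, hEN, hNH, -, hN, ⟨hn, ⟨e⟩⟩, hPN⟩, -⟩ := c.hJ
  haveI := hn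
  refine ⟨e.toMonoidHom.comp (QuotientGroup.mk' _), e.surjective.comp
    (QuotientGroup.mk'_surjective _), ?_⟩
  have hk : (e.toMonoidHom.comp (QuotientGroup.mk' (N.subgroupOf c.H))).ker = N.subgroupOf c.H := by
    ext x; simp
  rw [hk]
  refine ⟨fun x hx => hEN hx, ?_, fun x hx => hPN hx, hNH (hPN (Subgroup.mem_zpowers _))⟩
  rw [Nat.card_congr (Subgroup.subgroupOfEquivOfLe hNH).toEquiv, hN, hcard]

theorem p_mem_H : c.p ∈ c.H := c.exists_pi.choose_spec.2.2.2.2

/-- The projection onto `Aut M22`. -/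
noncomputable def pi : c.H →* MulAut M := c.exists_pi.choose

theorem z_mem_H : c.z ∈ c.H := mem_cz.2 (Commute.refl _)

theorem mem_C {x : G} : x ∈ c.C ↔ Commute x c.z ∧ Commute x c.p := by
  rw [Subgroup.mem_inf, mem_cz, Subgroup.mem_centralizer_iff]
  refine and_congr_right fun _ => ⟨fun h => (h _ (Subgroup.mem_zpowers _)).symm, ?_⟩
  rintro h _ ⟨i, rfl⟩
  exact (h.zpow_right i).symm

theorem orderOf_z : orderOf c.z = 2 := c.hJ.1

theorem z_ne_one : c.z ≠ 1 := fun h => by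
  have := c.orderOf_z
  rw [h, orderOf_one] at this
  omega

theorem z_mul_self : c.z * c.z = 1 := by
  rw [← pow_two, ← c.orderOf_z, pow_orderOf_eq_one]

theorem p_cube : c.p ^ 3 = 1 := by
  have h := c.hJ.2.2.2.2.2.1
  rw [Nat.card_zpowers] at h
  rw [← h, pow_orderOf_eq_one]

theorem orderOf_p : orderOf c.p = 3 := by rw [← Nat.card_zpowers]; exact c.hJ.2.2.2.2.2.1

theorem card_E : Nat.card c.E = 2 ^ 13 := c.hJ.2.2.1

theorem z_mem_E : c.z ∈ c.E :=
  ((c.hJ.2.2.2.2.2.2.1).symm ▸ Subgroup.mem_zpowers c.z : c.z ∈ c.E ⊓ _).1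

theorem fixE {e : G} (he : e ∈ c.E) (hc : Commute e c.p) : e = 1 ∨ e = c.z := by
  have : e ∈ c.E ⊓ Subgroup.centralizer (Subgroup.zpowers c.p : Set G) :=
    ⟨he, (c.mem_C.2 ⟨mem_cz.1 (c.E_le he), hc⟩).2⟩
  rw [c.hJ.2.2.2.2.2.2.1] at this
  have h2 : c.z ^ (2 : ℤ) = 1 := by rw [zpow_two, c.z_mul_self]
  obtain ⟨i, rfl⟩ := this
  rcases Int.even_or_odd' i with ⟨k, rfl | rfl⟩
  · exact Or.inl (by simp [zpow_mul, h2])
  · exact Or.inr (by simp [zpow_add, zpow_mul, h2])

theorem subgroupOf_E : c.E.subgroupOf c.H = Cfsg.pCore 2 c.H :=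
  Subgroup.comap_map_eq_self_of_injective (Subgroup.subtype_injective _) _

theorem normal_E {g e : G} (hg : g ∈ c.H) (he : e ∈ c.E) : g * e * g⁻¹ ∈ c.E := by
  have h : (⟨e, c.E_le he⟩ : c.H) ∈ Cfsg.pCore 2 c.H := by rw [← c.subgroupOf_E]; exact he
  haveI : (Cfsg.pCore 2 c.H).Normal := CfsgLib.Jf18.pCore_normal c.H
  have := this.conj_mem _ h ⟨g, hg⟩
  rw [← c.subgroupOf_E] at this
  exact this

theorem isPGroup_E : IsPGroup 2 c.E := c.hJ.2.1.1.1

theorem center_E {a : G} (ha : a ∈ c.E) (h : ∀ b ∈ c.E, Commute a b) : a = 1 ∨ a = c.z := by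
  have hc : (⟨a, ha⟩ : c.E) ∈ Subgroup.center c.E :=
    Subgroup.mem_center_iff.2 fun b => Subtype.ext (h b b.2).eq.symm
  have hz : (⟨c.z, c.z_mem_E⟩ : c.E) ∈ Subgroup.center c.E :=
    Subgroup.mem_center_iff.2 fun b => Subtype.ext (mem_cz.1 (c.E_le b.2)).eq
  have hne : (⟨⟨c.z, c.z_mem_E⟩, hz⟩ : Subgroup.center c.E) ≠ 1 := fun e =>
    c.z_ne_one (congrArg (fun y : Subgroup.center c.E => (y : G)) e)
  by_contra hh
  rw [not_or] at hh
  have h2 := c.hJ.2.1.2
  rw [Nat.card_eq_two_iff' (1 : Subgroup.center c.E)] at h2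
  obtain ⟨y, -, hy⟩ := h2
  have ea := hy ⟨_, hc⟩ (fun e => hh.1 (congrArg (fun y : Subgroup.center c.E => (y : G)) e))
  have ez := hy ⟨_, hz⟩ hne
  exact hh.2 (congrArg (fun y : Subgroup.center c.E => (y : G)) (ea.trans ez.symm))

theorem commE {a b : G} (ha : a ∈ c.E) (hb : b ∈ c.E) :
    a * b * a⁻¹ * b⁻¹ = 1 ∨ a * b * a⁻¹ * b⁻¹ = c.z := by
  have h : ⁅(⟨a, ha⟩ : c.E), ⟨b, hb⟩⁆ ∈ Subgroup.center c.E := by
    rw [← c.hJ.2.1.1.2.2]
    exact Subgroup.commutator_mem_commutator (Subgroup.mem_top _) (Subgroup.mem_top _)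
  exact c.center_E (mul_mem (mul_mem (mul_mem ha hb) (inv_mem ha)) (inv_mem hb))
    fun x hx => (congrArg Subtype.val (Subgroup.mem_center_iff.1 h ⟨x, hx⟩)).symm

theorem sqE {a : G} (ha : a ∈ c.E) : a * a = 1 ∨ a * a = c.z := by
  refine c.center_E (mul_mem ha ha) fun x hx => ?_
  have h := c.commE ha hx
  rcases h with h | h
  · have h1 : Commute a x := mul_inv_eq_iff_eq_mul.1 (mul_inv_eq_one.1 h)
    exact h1.mul_left h1
  · have h1 : a * x = c.z * (x * a) := by
      rw [← h]; group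
    have hzc : a * c.z = c.z * a := mem_cz.1 (c.E_le ha)
    show a * a * x = x * (a * a)
    rw [mul_assoc, h1, ← mul_assoc, hzc, mul_assoc, ← mul_assoc a x, h1, ← mul_assoc,
      ← mul_assoc, c.z_mul_self, one_mul, mul_assoc]

theorem self_cent {h : G} (hh : h ∈ c.H) (hc : ∀ b ∈ c.E, Commute h b) : h ∈ c.E :=
  c.hJ.2.2.2.1 ⟨hh, Subgroup.mem_centralizer_iff.2 fun b hb => (hc b hb).eq.symm⟩

theorem exists_inverter :
    ∃ h : c.H, h * ⟨c.p, c.p_mem_H⟩ * h⁻¹ = (⟨c.p, c.p_mem_H⟩ : c.H)⁻¹ := by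
  classical
  have hne := c.hJ.2.2.2.2.2.2.2.1
  by_contra hno
  refine hne (le_antisymm (fun x hx => ?_) (fun x hx => ⟨hx.1, Subgroup.centralizer_le_normalizer _ hx.2⟩))
  refine c.mem_C.2 ⟨mem_cz.1 hx.1, ?_⟩
  have h := (Subgroup.mem_normalizer_iff.1 hx.2 c.p).1 (Subgroup.mem_zpowers _)
  rw [mem_zpowers_iff_mem_range_orderOf, c.orderOf_p] at h
  obtain ⟨i, hi, he⟩ := Finset.mem_image.1 h
  rw [Finset.mem_range] at hi
  interval_cases i
  · exfalso
    rw [pow_zero] at he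
    have h' := c.orderOf_p
    rw [conj_eq_one_iff.1 he.symm, orderOf_one] at h'
    omega
  · rw [pow_one] at he
    exact mul_inv_eq_iff_eq_mul.1 he.symm
  · exfalso
    refine hno ⟨⟨x, hx.1⟩, Subtype.ext ?_⟩
    show x * c.p * x⁻¹ = c.p⁻¹
    rw [← he, pow_two]
    exact eq_inv_of_mul_eq_one_left (by rw [← c.p_cube, pow_succ, pow_two])

theorem derived_p : (⟨c.p, c.p_mem_H⟩ : c.H) ∈
    ⁅Subgroup.centralizer {(⟨c.p, c.p_mem_H⟩ : c.H)},
      Subgroup.centralizer {(⟨c.p, c.p_mem_H⟩ : c.H)}⁆ := by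
  have h := c.hJ.2.2.2.2.2.2.2.2 (Subgroup.mem_zpowers c.p)
  have e : c.C = (Subgroup.centralizer {(⟨c.p, c.p_mem_H⟩ : c.H)}).map c.H.subtype := by
    ext x
    rw [c.mem_C]
    constructor
    · rintro ⟨h1, h2⟩
      exact ⟨⟨x, mem_cz.2 h1⟩, Subgroup.mem_centralizer_singleton_iff.2 (Subtype.ext h2.eq), rfl⟩
    · rintro ⟨y, hy, rfl⟩
      exact ⟨mem_cz.1 y.2, congrArg Subtype.val (Subgroup.mem_centralizer_singleton_iff.1 hy)⟩
  change c.p ∈ ⁅c.C, c.C⁆ at h
  rw [e, ← Subgroup.map_commutator] at h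
  obtain ⟨y, hy, hye⟩ := h
  rwa [show y = (⟨c.p, c.p_mem_H⟩ : c.H) from Subtype.ext hye] at hy

/-- The abstract setup on the centraliser. -/
noncomputable def setup : Setup c.H where
  E := c.E.subgroupOf c.H
  z := ⟨c.z, c.z_mem_H⟩
  p := ⟨c.p, c.p_mem_H⟩
  normalE g x hx := c.normal_E g.2 hx
  pgroupE := c.isPGroup_E.of_equiv (Subgroup.subgroupOfEquivOfLe c.E_le).symm
  cardE := (Nat.card_congr (Subgroup.subgroupOfEquivOfLe c.E_le).toEquiv).trans c.card_E
  zmem := c.z_mem_E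
  zz := Subtype.ext c.z_mul_self
  zne h := c.z_ne_one (congrArg Subtype.val h)
  zc h := Subtype.ext (mem_cz.1 h.2).symm.eq
  commE a ha b hb := (c.commE ha hb).imp (fun h => Subtype.ext h) (fun h => Subtype.ext h)
  sqE a ha := (c.sqE ha).imp (fun h => Subtype.ext h) (fun h => Subtype.ext h)
  centE a ha h := (c.center_E ha fun b hb =>
    congrArg Subtype.val (h ⟨b, c.E_le hb⟩ hb)).imp (fun h => Subtype.ext h) (fun h => Subtype.ext h)
  self h hh := c.self_cent h.2 fun b hb => congrArg Subtype.val (hh ⟨b, c.E_le hb⟩ hb)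
  π := c.pi
  surj := c.exists_pi.choose_spec.1
  E_le := c.exists_pi.choose_spec.2.1
  cardKer := c.exists_pi.choose_spec.2.2.1
  pker := c.exists_pi.choose_spec.2.2.2.1 (Subgroup.mem_zpowers c.p)
  p3 := Subtype.ext c.p_cube
  pne h := by
    have h' := c.orderOf_p
    rw [show c.p = 1 from congrArg Subtype.val h, orderOf_one] at h'
    omega
  fixE e he h := (c.fixE he (congrArg Subtype.val h)).imp
    (fun h => Subtype.ext h) (fun h => Subtype.ext h)
  inverter := c.exists_inverter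
  derived := c.derived_p

end Ctx

end CfsgLib.Jf18

namespace CfsgLib.Jf18.Ctx

open CfsgLib.J4Type67

universe u

variable {G : Type u} [Group G] [Finite G] (c : Ctx G)

theorem mem_setup_C {x : G} (hx : x ∈ c.C) : (⟨x, hx.1⟩ : c.H) ∈ c.setup.C :=
  c.setup.mem_C.2 (Subtype.ext (c.mem_C.1 hx).2.eq)

/-- The projection of the centraliser of `p` in `H` onto `M22`. -/
noncomputable def sig : c.C →* M :=
  c.setup.sigma.comp
    { toFun := fun x => (⟨⟨x, x.2.1⟩, c.mem_setup_C x.2⟩ : c.setup.C)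
      map_one' := rfl
      map_mul' := fun _ _ => rfl }

theorem sig_surjective : Function.Surjective c.sig := by
  intro m
  have h : MulAut.conj m ∈ c.setup.C.map c.setup.π := by rw [c.setup.map_C]; exact ⟨m, rfl⟩
  obtain ⟨x, hx, hxm⟩ := h
  refine ⟨⟨x, c.mem_C.2 ⟨mem_cz.1 x.2, congrArg Subtype.val (c.setup.mem_C.1 hx).eq⟩⟩, ?_⟩
  apply conj_injective_M
  show MulAut.conj (c.setup.sigma ⟨x, hx⟩) = _
  rw [c.setup.conj_sigma]; exact hxm

theorem conj_sig (x : c.C) : MulAut.conj (c.sig x) = c.pi ⟨x, x.2.1⟩ := c.setup.conj_sigma _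

theorem ker_pi_E {x : c.H} : x ∈ c.pi.ker → ∃ i : ℤ, (x : G) * c.p ^ i ∈ c.E := fun hx =>
  c.setup.ker_decomp (n := x) hx

theorem pi_of_mem_E {e : G} (he : e ∈ c.E) : c.pi ⟨e, c.E_le he⟩ = 1 :=
  MonoidHom.mem_ker.1 (c.setup.E_le (show (⟨e, c.E_le he⟩ : c.H) ∈ c.setup.E from he))

theorem p_mem_C : c.p ∈ c.C := c.mem_C.2 ⟨mem_cz.1 c.p_mem_H, Commute.refl _⟩

/-- The inner part is the preimage of the inner automorphisms. -/
theorem mem_inn {x : G} (hx : x ∈ c.H) :
    x ∈ c.inn ↔ c.pi ⟨x, hx⟩ ∈ (MulAut.conj : M →* MulAut M).range := by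
  set K := (((MulAut.conj : M →* MulAut M).range).comap c.pi).map c.H.subtype
  have hK : ∀ y : c.H, (y : G) ∈ K ↔ c.pi y ∈ (MulAut.conj : M →* MulAut M).range := fun y => by
    constructor
    · rintro ⟨y', hy', e⟩
      rwa [← show y' = y from Subtype.ext e]
    · exact fun h => ⟨y, h, rfl⟩
  rw [← hK ⟨x, hx⟩]
  constructor
  · intro h
    refine (sup_le (fun e he => ?_) (fun y hy => ?_) : c.E ⊔ c.C ≤ K) h
    · exact (hK ⟨e, c.E_le he⟩).2 (by rw [c.pi_of_mem_E he]; exact one_mem _)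
    · exact (hK ⟨y, hy.1⟩).2 ⟨c.sig ⟨y, hy⟩, c.conj_sig ⟨y, hy⟩⟩
  · intro h
    obtain ⟨m, hm⟩ := (hK ⟨x, hx⟩).1 h
    obtain ⟨⟨y, hy⟩, hym⟩ := c.sig_surjective m
    have hk : (⟨y, hy.1⟩ : c.H)⁻¹ * ⟨x, hx⟩ ∈ c.pi.ker := by
      rw [MonoidHom.mem_ker, map_mul, map_inv, ← hm, ← hym, c.conj_sig ⟨y, hy⟩, inv_mul_cancel]
    obtain ⟨i, hi⟩ := c.ker_pi_E hk
    have : x = y * (y⁻¹ * x * c.p ^ i) * (c.p ^ i)⁻¹ := by group
    rw [this]
    exact mul_mem (mul_mem (Subgroup.mem_sup_right hy) (Subgroup.mem_sup_left hi))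
      (Subgroup.mem_sup_right (inv_mem (zpow_mem c.p_mem_C i)))

/-! ### Transport -/

theorem centralizer_map {G' : Type u} [Group G'] (f : G ≃* G') (x : G) :
    (Subgroup.centralizer ({x} : Set G)).map f.toMonoidHom =
      Subgroup.centralizer ({f x} : Set G') := by
  ext y
  rw [Subgroup.mem_map_equiv, mem_cz, mem_cz]
  constructor
  · intro h
    simpa using h.map f
  · intro h
    simpa using h.map f.symm

theorem centralizer_zpowers_map {G' : Type u} [Group G'] (f : G ≃* G') (p : G) :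
    (Subgroup.centralizer (Subgroup.zpowers p : Set G)).map f.toMonoidHom =
      Subgroup.centralizer (Subgroup.zpowers (f p) : Set G') := by
  ext y
  rw [Subgroup.mem_map_equiv, Subgroup.mem_centralizer_iff, Subgroup.mem_centralizer_iff]
  constructor
  · rintro h _ ⟨i, rfl⟩
    have := congrArg f (h (p ^ i) ⟨i, rfl⟩)
    simpa using this
  · rintro h _ ⟨i, rfl⟩
    have := congrArg f.symm (h (f p ^ i) ⟨i, rfl⟩)
    simpa using this

theorem twoCore_map {G' : Type u} [Group G'] [Finite G'] (f : G ≃* G') :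
    Cfsg.twoCoreOfCentralizer (f c.z) = c.E.map f.toMonoidHom := by
  have hK := centralizer_map f c.z
  let e : ↥c.H ≃* ↥(Subgroup.centralizer ({f c.z} : Set G')) :=
    (c.H.equivMapOfInjective f.toMonoidHom f.injective).trans (MulEquiv.subgroupCongr hK)
  unfold E Cfsg.twoCoreOfCentralizer
  rw [← CfsgLib.Constrained.pCore_map e 2, Subgroup.map_map, Subgroup.map_map]
  rfl

theorem map_commutator_eq {G' : Type u} [Group G'] (f : G ≃* G') (A : Subgroup G) :
    ⁅A.map f.toMonoidHom, A.map f.toMonoidHom⁆ = ⁅A, A⁆.map f.toMonoidHom :=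
  (Subgroup.map_commutator _ _ _).symm

theorem hJ_map {G' : Type u} [Group G'] [Finite G'] (f : G ≃* G') :
    Cfsg.IsOfJankoFourTypeWith (f c.z) (Subgroup.zpowers (f c.p)) := by
  obtain ⟨h1, h2, h3, h4, ⟨N, hEN, hNH, hnorm, hN, ⟨hn, ⟨e⟩⟩, hPN⟩, h6, h7, h8, h9⟩ := c.hJ
  have hP : (Subgroup.zpowers c.p).map f.toMonoidHom = Subgroup.zpowers (f c.p) :=
    MonoidHom.map_zpowers _ _
  have hH := centralizer_map f c.z
  have hE := c.twoCore_map f
  have hCP := centralizer_zpowers_map f c.p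
  have hcE : Nat.card ↥(c.E.map f.toMonoidHom) = 2 ^ 13 := by
    rw [← Nat.card_congr (c.E.equivMapOfInjective f.toMonoidHom f.injective).toEquiv, h3]
  have hNP : (Subgroup.normalizer (Subgroup.zpowers c.p : Set G)).map f.toMonoidHom =
      Subgroup.normalizer (Subgroup.zpowers (f c.p) : Set G') := by
    rw [Subgroup.map_equiv_normalizer_eq, hP]
  refine ⟨by rw [MulEquiv.orderOf_eq]; exact h1, ?_, by rw [hE]; exact hcE, ?_, ?_, ?_, ?_, ?_, ?_⟩
  · rw [hE]
    exact CfsgLib.Jf18.extraspecial_congr (c.E.equivMapOfInjective f.toMonoidHom f.injective) h2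
  · rintro y ⟨hy1, hy2⟩
    rw [hE] at hy2 ⊢
    rw [← hH] at hy1
    obtain ⟨x, hx, rfl⟩ := hy1
    refine ⟨x, h4 ⟨hx, Subgroup.mem_centralizer_iff.2 fun b hb => f.injective ?_⟩, rfl⟩
    have := Subgroup.mem_centralizer_iff.1 hy2 (f b) ⟨b, hb, rfl⟩
    simpa using this
  · refine ⟨N.map f.toMonoidHom, by rw [hE]; exact Subgroup.map_mono hEN,
      by rw [← hH]; exact Subgroup.map_mono hNH, ?_, ?_, ?_, by rw [← hP]; exact Subgroup.map_mono hPN⟩
    · rw [← hH, ← Subgroup.map_equiv_normalizer_eq]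
      exact Subgroup.map_mono hnorm
    · rw [← Nat.card_congr (N.equivMapOfInjective f.toMonoidHom f.injective).toEquiv, hN, h3, hE, hcE]
    · let ee : ↥c.H ≃* ↥(Subgroup.centralizer ({f c.z} : Set G')) :=
        (c.H.equivMapOfInjective f.toMonoidHom f.injective).trans (MulEquiv.subgroupCongr hH)
      have he : (N.subgroupOf c.H).map ee.toMonoidHom =
          (N.map f.toMonoidHom).subgroupOf (Subgroup.centralizer ({f c.z} : Set G')) := by
        ext y
        constructor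
        · rintro ⟨x, hx, rfl⟩
          exact ⟨x, hx, rfl⟩
        · rintro ⟨x, hx, hxy⟩
          exact ⟨⟨x, hNH hx⟩, hx, Subtype.ext hxy⟩
      haveI := hn
      haveI hn' : ((N.map f.toMonoidHom).subgroupOf
          (Subgroup.centralizer ({f c.z} : Set G'))).Normal :=
        he ▸ hn.map _ ee.surjective
      exact ⟨hn', ⟨(QuotientGroup.congr _ _ ee he).symm.trans e⟩⟩
  · rw [← hP, ← Nat.card_congr ((Subgroup.zpowers c.p).equivMapOfInjective f.toMonoidHom f.injective).toEquiv]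
    exact h6
  · rw [hE, ← hCP, ← Subgroup.map_inf _ _ _ f.injective, h7, MonoidHom.map_zpowers]
    rfl
  · rw [← hH, ← hCP, ← hNP, ← Subgroup.map_inf _ _ _ f.injective, ← Subgroup.map_inf _ _ _ f.injective]
    exact fun h => h8 (Subgroup.map_injective f.injective h)
  · rw [← hH, ← hCP, ← Subgroup.map_inf _ _ _ f.injective, map_commutator_eq, ← hP]
    exact Subgroup.map_mono h9

/-- The conjugate context. -/
def conj (g : G) : Ctx G := ⟨g * c.z * g⁻¹, g * c.p * g⁻¹, c.hJ_map (MulAut.conj g)⟩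

theorem E_conj (g : G) : (c.conj g).E = conjS g c.E := c.twoCore_map (MulAut.conj g)

theorem H_conj (g : G) : (c.conj g).H = conjS g c.H := (centralizer_map (MulAut.conj g) c.z).symm

theorem C_conj (g : G) : (c.conj g).C = conjS g c.C := by
  rw [show conjS g c.C = c.C.map (MulAut.conj g).toMonoidHom from rfl,
    Subgroup.map_inf c.H _ _ (MulAut.conj g).injective, centralizer_zpowers_map,
    show c.H.map (MulAut.conj g).toMonoidHom = (c.conj g).H from (c.H_conj g).symm]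
  rfl

theorem inn_conj (g : G) : (c.conj g).inn = conjS g c.inn := by
  rw [inn, inn, E_conj, C_conj, conjS, conjS, conjS, Subgroup.map_sup]

theorem isConj_iff_conj {g : G} {v : G} :
    IsConj c.z v ↔ IsConj (c.conj g).z v :=
  ⟨fun h => (isConj_iff.2 ⟨g, rfl⟩ : IsConj c.z (g * c.z * g⁻¹)).symm.trans h,
    fun h => (isConj_iff.2 ⟨g, rfl⟩ : IsConj c.z (g * c.z * g⁻¹)).trans h⟩

theorem factA_conj {g : G} (h : (c.conj g).FactA) : c.FactA := by
  obtain ⟨u, hu, hne, hc⟩ := h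
  rw [C_conj, mem_conjS] at hu
  refine ⟨_, hu, fun e => hne ?_, (c.isConj_iff_conj.2 hc).trans (isConj_iff.2 ⟨g⁻¹, by group⟩)⟩
  show u = g * c.z * g⁻¹
  rw [← e]; group

theorem caseE_conj {g : G} (h : (c.conj g).CaseE) : c.CaseE := by
  obtain ⟨u, hu, hne, hc⟩ := h
  rw [E_conj, mem_conjS] at hu
  refine ⟨_, hu, fun e => hne ?_, (c.isConj_iff_conj.2 hc).trans (isConj_iff.2 ⟨g⁻¹, by group⟩)⟩
  show u = g * c.z * g⁻¹
  rw [← e]; group

theorem exists_conj_z {v : G} (h : IsConj c.z v) : ∃ g : G, (c.conj g).z = v := isConj_iff.1 h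

end CfsgLib.Jf18.Ctx
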