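import Cfsg.Agent.J4Type67.Module
import Cfsg.Agent.Jf18.InvolModule
import Cfsg.Agent.Jf18.M22

/-!
The elements of order three outside the centre of the threefold extension of `M22`: the three
fixed spaces of order 16.
-/

set_option autoImplicit false
set_option linter.unusedSectionVars false
set_option linter.style.haveILetI false

namespace CfsgLib.J4Type67.Rep

open scoped Pointwise commutatorElement

universe u v

variable {X : Type u} {W : Type v} [Group X] [Group W] (r : Rep X W)

theorem p_ne_inv : r.p * r.p ≠ 1 := fun h => r.p_ne_one (by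
  have := r.cube
  rwa [pow_succ, pow_two, h, one_mul] at this)

/-- The twist of an element by the central element is conjugate to it. -/
theorem exists_shift {x : X} (hx : x ^ 3 = 1) (h1 : r.proj x ≠ 1) :
    ∃ y : X, y * x * y⁻¹ = x * r.p := by
  classical
  have := r.finite_X
  haveI : Fact (Nat.Prime 3) := ⟨Nat.prime_three⟩
  have hpg : IsPGroup 3 ↥(Subgroup.zpowers x) := by
    rintro ⟨_, i, rfl⟩
    refine ⟨1, Subtype.ext ?_⟩
    rw [pow_one, SubmonoidClass.coe_pow, OneMemClass.coe_one, ← zpow_natCast, ← zpow_mul, mul_comm,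
      zpow_mul, zpow_natCast, hx, one_zpow]
  obtain ⟨R, hR⟩ := hpg.exists_le_sylow
  obtain ⟨Q, hQ⟩ := (R.isPGroup'.map r.proj).exists_le_sylow
  have hQc : ∀ a ∈ (Q : Subgroup M), ∀ b ∈ (Q : Subgroup M), a * b = b * a := fun a ha b hb =>
    congrArg Subtype.val ((IsPGroup.commutative_of_card_eq_prime_sq (p := 3)
      (G := ↥(Q : Subgroup M)) (by rw [(Jf18.M22.card_sylow_three Q).1]; norm_num)) ⟨a, ha⟩ ⟨b, hb⟩)
  -- some element of the Sylow subgroup moves `x`
  have hmove : ∃ y ∈ (R : Subgroup X), y * x ≠ x * y := by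
    by_contra hno
    push Not at hno
    have ha : r.proj x ∈ (Q : Subgroup M) := hQ ⟨x, hR (Subgroup.mem_zpowers x), rfl⟩
    set A : Subgroup (Q : Subgroup M) := Subgroup.zpowers ⟨r.proj x, ha⟩
    haveI : A.Normal := ⟨fun n hn g => by
      rwa [show g * n = n * g from Subtype.ext (hQc g g.2 n n.2), mul_inv_cancel_right]⟩
    have hA : Nat.card A = 3 := by
      rw [Nat.card_zpowers, Subgroup.orderOf_mk]
      exact orderOf_eq_prime (by rw [← map_pow, hx, map_one]) h1
    have hquot : Nat.card ((Q : Subgroup M) ⧸ A) = 3 := by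
      have h := Subgroup.card_eq_card_quotient_mul_card_subgroup A
      rw [(Jf18.M22.card_sylow_three Q).1, hA] at h
      omega
    haveI : IsCyclic ((Q : Subgroup M) ⧸ A) := isCyclic_of_prime_card hquot
    let f : (R : Subgroup X) →* (Q : Subgroup M) ⧸ A :=
      (QuotientGroup.mk' A).comp
        { toFun := fun y => (⟨r.proj y.1, hQ ⟨y.1, y.2, rfl⟩⟩ : (Q : Subgroup M))
          map_one' := Subtype.ext (map_one r.proj)
          map_mul' := fun a b => Subtype.ext (map_mul r.proj a.1 b.1) }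
    have hker : f.ker ≤ Subgroup.center (R : Subgroup X) := by
      intro y hy
      obtain ⟨i, hi⟩ := (QuotientGroup.eq_one_iff _).1 hy
      have hi' : r.proj x ^ i = r.proj y.1 := congrArg Subtype.val hi
      obtain ⟨j, hj⟩ := r.exists_pow (x := (x ^ i)⁻¹ * y.1)
        (by rw [map_mul, map_inv, map_zpow, hi', inv_mul_cancel])
      rw [inv_mul_eq_iff_eq_mul] at hj
      refine Subgroup.mem_center_iff.2 fun g => Subtype.ext ?_
      show g.1 * y.1 = y.1 * g.1
      rw [hj]
      exact ((show Commute g.1 x from hno g.1 g.2).zpow_right i).mul_right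
        ((r.central g.1).symm.zpow_right j)
    set_option linter.deprecated false in
    have hcomm := commutative_of_cyclic_center_quotient f hker
    have hp : r.p ∈ (⊥ : Subgroup X) := by
      have hle : ⁅(R : Subgroup X), (R : Subgroup X)⁆ ≤ ⊥ := ?_
      · exact hle (r.p_mem_commutator R)
      rw [Subgroup.commutator_le]
      intro a ha b hb
      rw [Subgroup.mem_bot, commutatorElement_eq_one_iff_mul_comm]
      exact congrArg Subtype.val (hcomm ⟨a, ha⟩ ⟨b, hb⟩)
    exact r.p_ne_one hp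
  obtain ⟨y, hy, hne⟩ := hmove
  obtain ⟨i, hi⟩ := r.exists_pow (x := x⁻¹ * (y * x * y⁻¹)) (by
    have hxQ : r.proj x ∈ (Q : Subgroup M) := hQ ⟨x, hR (Subgroup.mem_zpowers x), rfl⟩
    rw [map_mul, map_inv, map_mul, map_mul, map_inv, hQc _ (hQ ⟨y, hy, rfl⟩) _ hxQ]
    group)
  rw [inv_mul_eq_iff_eq_mul] at hi
  obtain ⟨k, hk, hke⟩ := Finset.mem_image.1
    (mem_zpowers_iff_mem_range_orderOf.1 (Subgroup.mem_zpowers r.p |> fun h => zpow_mem h i))
  rw [r.order_p, Finset.mem_range] at hk
  rw [← hke] at hi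
  interval_cases k
  · rw [pow_zero, mul_one] at hi
    exact absurd (mul_inv_eq_iff_eq_mul.1 hi) hne
  · exact ⟨y, by rwa [pow_one] at hi⟩
  · refine ⟨y * y, ?_⟩
    rw [show y * y * x * (y * y)⁻¹ = y * (y * x * y⁻¹) * y⁻¹ by group, hi,
      show y * (x * r.p ^ 2) * y⁻¹ = y * x * y⁻¹ * (y * r.p ^ 2 * y⁻¹) by group, hi,
      ((r.central y).pow_left 2).symm.eq, mul_inv_cancel_right, mul_assoc, ← pow_add, pow_succ,
      r.cube, one_mul]

theorem act_twist_of_fixed {x : X} {a : W} {c : X} (h : r.act (x * c) a = a) (hc : Commute c x) :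
    r.act x (r.act c a) = a := by
  rw [← r.act_mul]; exact h

/-- The sum of the three fixed spaces is direct and everything. -/
theorem pieces {x : X} (hx : x ^ 3 = 1) :
    (∀ a b c : W, r.act x a = a → r.act (x * r.p) b = b → r.act (x * (r.p * r.p)) c = c →
      a * b * c = 1 → a = 1 ∧ b = 1 ∧ c = 1) ∧
    (∀ w : W, ∃ a b c : W, r.act x a = a ∧ r.act (x * r.p) b = b ∧
      r.act (x * (r.p * r.p)) c = c ∧ a * b * c = w) := by
  have hp3 : ∀ w, r.act r.p (r.act r.p (r.act r.p w)) = w := fun w => by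
    rw [← r.act_mul, ← r.act_mul, ← pow_three', r.cube, r.act_one]
  have hx3 : ∀ w, r.act x (r.act x (r.act x w)) = w := fun w => by
    rw [← r.act_mul, ← r.act_mul, ← pow_three', hx, r.act_one]
  have htr : ∀ w : W, w * r.act r.p w * r.act r.p (r.act r.p w) = 1 := fun w => by
    apply r.fpf
    rw [map_mul, map_mul, hp3, r.comm _ w, ← mul_assoc]
  constructor
  · intro a b c ha hb hc habc
    have hb' : r.act x b = r.act r.p (r.act r.p b) := by
      have h := congrArg (fun t => r.act r.p (r.act r.p t)) hb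
      simp only [r.act_mul] at h
      rwa [r.act_comm x, hp3] at h
    have hc' : r.act x c = r.act r.p c := by
      have h := congrArg (r.act r.p) hc
      simp only [r.act_mul] at h
      rwa [r.act_comm x, r.act_comm x, hp3] at h
    have e1 : a * r.act r.p (r.act r.p b) * r.act r.p c = 1 := by
      have h := congrArg (r.act x) habc
      rwa [map_mul, map_mul, map_one, ha, hb', hc'] at h
    have e2 : a * r.act r.p b * r.act r.p (r.act r.p c) = 1 := by
      have h := congrArg (r.act x) e1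
      rw [map_mul, map_mul, map_one, ha, r.act_comm x, r.act_comm x, r.act_comm x, hb', hc', hp3] at h
      exact h
    letI : CommGroup W := { (inferInstance : Group W) with mul_comm := r.comm }
    have ha1 : a = 1 := by
      have h : (a * b * c) * (a * r.act r.p (r.act r.p b) * r.act r.p c) *
          (a * r.act r.p b * r.act r.p (r.act r.p c)) = 1 := by rw [habc, e1, e2, one_mul, one_mul]
      have h' : (a * a * a) * (b * r.act r.p b * r.act r.p (r.act r.p b)) *
          (c * r.act r.p c * r.act r.p (r.act r.p c)) = 1 := by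
        rw [← h]; simp only [mul_comm, mul_assoc, mul_left_comm]
      rwa [htr, htr, mul_one, mul_one, r.sq, one_mul] at h'
    rw [ha1, one_mul] at habc e1
    have hbc : c = b := ((inv_eq_of_mul_eq_one_right habc).symm).trans (r.inv_eq b)
    rw [hbc] at e1
    have hb1 : b = 1 := by
      have h1 : r.act r.p (r.act r.p b) = r.act r.p b := by
        rw [eq_inv_of_mul_eq_one_left e1, r.inv_eq]
      exact r.fpf b ((r.act r.p).injective h1)
    exact ⟨ha1, hb1, hbc.trans hb1⟩
  · intro w
    refine ⟨w * r.act x w * r.act x (r.act x w),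
      w * r.act (x * r.p) w * r.act (x * r.p) (r.act (x * r.p) w),
      w * r.act (x * (r.p * r.p)) w * r.act (x * (r.p * r.p)) (r.act (x * (r.p * r.p)) w),
      ?_, ?_, ?_, ?_⟩
    all_goals letI : CommGroup W := { (inferInstance : Group W) with mul_comm := r.comm }
    · rw [map_mul, map_mul, hx3]; simp only [mul_comm, mul_left_comm]
    · have h3 : ∀ t, r.act (x * r.p) (r.act (x * r.p) (r.act (x * r.p) t)) = t := fun t => by
        rw [← r.act_mul, ← r.act_mul, ← pow_three', ((r.central x).symm).mul_pow, hx, r.cube, one_mul,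
          r.act_one]
      rw [map_mul, map_mul, h3]; simp only [mul_comm, mul_left_comm]
    · have h3 : ∀ t, r.act (x * (r.p * r.p)) (r.act (x * (r.p * r.p))
          (r.act (x * (r.p * r.p)) t)) = t := fun t => by
        rw [← r.act_mul, ← r.act_mul, ← pow_three',
          (((r.central x).mul_left (r.central x)).symm).mul_pow, hx, (Commute.refl r.p).mul_pow,
          r.cube, one_mul, one_mul, r.act_one]
      rw [map_mul, map_mul, h3]; simp only [mul_comm, mul_left_comm]
    · have e1 : r.act (x * r.p) w = r.act r.p (r.act x w) := by rw [r.act_mul, r.act_comm x]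
      have e2 : r.act (x * r.p) (r.act (x * r.p) w) = r.act r.p (r.act r.p (r.act x (r.act x w))) := by
        rw [e1, r.act_mul, r.act_comm x, r.act_comm x]
      have e3 : r.act (x * (r.p * r.p)) w = r.act r.p (r.act r.p (r.act x w)) := by
        rw [r.act_mul, r.act_mul r.p, r.act_comm x, r.act_comm x]
      have e4 : r.act (x * (r.p * r.p)) (r.act (x * (r.p * r.p)) w) =
          r.act r.p (r.act x (r.act x w)) := by
        rw [e3, r.act_mul, r.act_mul r.p, r.act_comm x, r.act_comm x, r.act_comm x, r.act_comm x, hp3]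
      have key : ∀ a A PA QA B PB QB : W, (a * A * B) * (a * PA * QB) * (a * QA * PB) =
          (a * a * a) * (A * PA * QA) * (B * PB * QB) := fun a A PA QA B PB QB => by
        simp only [mul_comm, mul_assoc, mul_left_comm]
      rw [e2, e1, e4, e3, key, htr, htr, r.sq, one_mul, mul_one, mul_one]

theorem mem_fixed_conj {y x : X} {w : W} (h : w ∈ r.fixed {x}) :
    r.act y w ∈ r.fixed {y * x * y⁻¹} := by
  rw [r.mem_fixed_single] at h ⊢
  rw [r.act_mul, r.act_mul, r.act_inv_act, h]

theorem card_fixed_shift {x : X} (hx : x ^ 3 = 1) (h1 : r.proj x ≠ 1) :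
    Nat.card (r.fixed {x * r.p}) = Nat.card (r.fixed {x}) ∧
    Nat.card (r.fixed {x * (r.p * r.p)}) = Nat.card (r.fixed {x}) := by
  obtain ⟨y, hy⟩ := r.exists_shift hx h1
  have key : ∀ t, Nat.card (r.fixed {t}) = Nat.card (r.fixed {y * t * y⁻¹}) := fun t =>
    Nat.card_congr
      { toFun := fun w => ⟨r.act y w, r.mem_fixed_conj w.2⟩
        invFun := fun w => ⟨r.act y⁻¹ w, by
          have := r.mem_fixed_conj (y := y⁻¹) w.2
          rwa [show y⁻¹ * (y * t * y⁻¹) * y⁻¹⁻¹ = t by group] at this⟩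
        left_inv := fun w => Subtype.ext (r.act_inv_act _ _)
        right_inv := fun w => Subtype.ext (r.act_act_inv _ _) }
  have e1 := key x
  have e2 := key (x * r.p)
  rw [hy] at e1
  rw [show y * (x * r.p) * y⁻¹ = y * x * y⁻¹ * (y * r.p * y⁻¹) by group, hy,
    (r.central y).symm.eq, mul_inv_cancel_right, mul_assoc] at e2
  exact ⟨e1.symm, e2.symm.trans e1.symm⟩

/-- The fixed space of a non-central element of order three has order 16. -/
theorem card_fixed_three {x : X} (hx : x ^ 3 = 1) (h1 : r.proj x ≠ 1) :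
    Nat.card (r.fixed {x}) = 16 := by
  have := r.finite_W
  obtain ⟨hinj, hsurj⟩ := r.pieces hx
  obtain ⟨c1, c2⟩ := r.card_fixed_shift hx h1
  let Φ : r.fixed {x} × r.fixed {x * r.p} × r.fixed {x * (r.p * r.p)} → W :=
    fun t => t.1.1 * t.2.1.1 * t.2.2.1
  have hΦ : Function.Bijective Φ := by
    constructor
    · rintro ⟨a, b, c⟩ ⟨a', b', c'⟩ e
      letI : CommGroup W := { (inferInstance : Group W) with mul_comm := r.comm }
      have e' : (a.1 * a'.1⁻¹) * (b.1 * b'.1⁻¹) * (c.1 * c'.1⁻¹) = 1 := by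
        have h0 : a.1 * b.1 * c.1 * (a'.1 * b'.1 * c'.1)⁻¹ = 1 := mul_inv_eq_one.2 e
        rw [← h0]; simp only [mul_inv_rev, mul_comm, mul_assoc, mul_left_comm]
      obtain ⟨h1', h2', h3'⟩ := hinj _ _ _ (r.mem_fixed_single.1 (mul_mem a.2 (inv_mem a'.2)))
        (r.mem_fixed_single.1 (mul_mem b.2 (inv_mem b'.2)))
        (r.mem_fixed_single.1 (mul_mem c.2 (inv_mem c'.2))) e'
      exact Prod.ext (Subtype.ext (mul_inv_eq_one.1 h1'))
        (Prod.ext (Subtype.ext (mul_inv_eq_one.1 h2')) (Subtype.ext (mul_inv_eq_one.1 h3')))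
    · intro w
      obtain ⟨a, b, c, ha, hb, hc, e⟩ := hsurj w
      exact ⟨(⟨a, r.mem_fixed_single.2 ha⟩, ⟨b, r.mem_fixed_single.2 hb⟩,
        ⟨c, r.mem_fixed_single.2 hc⟩), e⟩
  have h := Nat.card_eq_of_bijective Φ hΦ
  rw [Nat.card_prod, Nat.card_prod, c1, c2, r.card] at h
  obtain ⟨k, -, hk⟩ := r.exists_le_six (r.pinv_fixed {x})
  change Nat.card (r.fixed {x}) = _ at hk
  rw [hk] at h ⊢
  rw [← pow_add, ← pow_add, show (2 : ℕ) ^ 12 = 4 ^ 6 by norm_num] at h
  have := Nat.pow_right_injective (le_refl 2 |>.trans (by norm_num : 2 ≤ 4)) h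
  rw [show k = 2 by omega]
  norm_num

/-- An involution is trivial on at most one of the three fixed spaces. -/
theorem not_fix_two {x y : X} (hx : x ^ 3 = 1) (h1 : r.proj x ≠ 1) (hy : y * y = 1)
    (hy1 : r.proj y ≠ 1) (hc : Commute y x) (ha : r.fixed {x} ≤ r.fixed {y})
    (hb : r.fixed {x * r.p} ≤ r.fixed {y}) : False := by
  have := r.finite_W
  obtain ⟨hinj, -⟩ := r.pieces hx
  obtain ⟨c1, c2⟩ := r.card_fixed_shift hx h1
  have h16 := r.card_fixed_three hx h1
  set S := r.fixed {x * (r.p * r.p)}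
  have hS : ∀ w ∈ S, r.act y w ∈ S := fun w hw => by
    have := r.mem_fixed_conj (y := y) hw
    rwa [(hc.mul_right (((r.central y).mul_left (r.central y)).symm)).eq,
      mul_inv_cancel_right] at this
  have hmod := r.card_fixed_modEq S y hS Nat.prime_two (n := 1) (by rw [pow_one, pow_two, hy])
  obtain ⟨k, -, hk⟩ := r.exists_le_six (r.pinv_inf (r.pinv_fixed {x * (r.p * r.p)}) (r.pinv_fixed {y}))
  change Nat.card ↥(S ⊓ r.fixed {y}) = _ at hk
  rw [c2, h16, hk] at hmod
  have hk1 : 4 ≤ 4 ^ k := by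
    rcases k with _ | k
    · simp [Nat.ModEq] at hmod
    · exact Nat.le_self_pow (by omega) 4
  let Φ : r.fixed {x} × r.fixed {x * r.p} × ↥(S ⊓ r.fixed {y}) → r.fixed {y} :=
    fun t => ⟨t.1.1 * t.2.1.1 * t.2.2.1, mul_mem (mul_mem (ha t.1.2) (hb t.2.1.2)) t.2.2.2.2⟩
  have hΦ : Function.Injective Φ := by
    rintro ⟨a, b, c⟩ ⟨a', b', c'⟩ e
    letI : CommGroup W := { (inferInstance : Group W) with mul_comm := r.comm }
    have e' : (a.1 * a'.1⁻¹) * (b.1 * b'.1⁻¹) * (c.1 * c'.1⁻¹) = 1 := by
      have h0 : a.1 * b.1 * c.1 * (a'.1 * b'.1 * c'.1)⁻¹ = 1 :=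
        mul_inv_eq_one.2 (congrArg Subtype.val e)
      rw [← h0]; simp only [mul_inv_rev, mul_comm, mul_assoc, mul_left_comm]
    obtain ⟨h1', h2', h3'⟩ := hinj _ _ _ (r.mem_fixed_single.1 (mul_mem a.2 (inv_mem a'.2)))
      (r.mem_fixed_single.1 (mul_mem b.2 (inv_mem b'.2)))
      (r.mem_fixed_single.1 (mul_mem c.2.1 (inv_mem c'.2.1))) e'
    exact Prod.ext (Subtype.ext (mul_inv_eq_one.1 h1'))
      (Prod.ext (Subtype.ext (mul_inv_eq_one.1 h2')) (Subtype.ext (mul_inv_eq_one.1 h3')))
  have h := Nat.card_le_card_of_injective Φ hΦ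
  rw [Nat.card_prod, Nat.card_prod, c1, h16, hk, r.card_fixed_invol hy hy1] at h
  omega

end CfsgLib.J4Type67.Rep
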