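import Cfsg.Agent.Jf18.Invol
import Cfsg.Agent.Jf18.ThreeModule

/-!
Janko-four type: the centraliser in `H` of an element of order three outside `⟨p⟩`; a central
involution of it lies in its derived subgroup.
-/

set_option autoImplicit false
set_option linter.unusedSectionVars false
set_option linter.style.haveILetI false

open scoped Pointwise commutatorElement

namespace CfsgLib.J4Type67.Setup

universe u

variable {H : Type u} [Group H] [Finite H] (d : Setup H)

theorem z_pow_eq_one {ε : H} (h : ε ∈ d.Z) (h3 : ε ^ 3 = 1) : ε = 1 := by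
  rcases d.mem_Z.1 h with rfl | rfl
  · rfl
  · rwa [pow_succ, pow_two, d.zz, one_mul] at h3

theorem commute_of_cube {x k : H} (hx : x ^ 3 = 1) (h : k * x * k⁻¹ * x⁻¹ ∈ d.Z) : Commute k x := by
  have hc : Commute (k * x * k⁻¹ * x⁻¹) x := by
    rcases d.mem_Z.1 h with e | e <;> rw [e]
    · exact Commute.one_left _
    · exact d.zc x
  have h3 : (k * x * k⁻¹ * x⁻¹) ^ 3 = 1 := by
    have e : (k * x * k⁻¹) ^ 3 = 1 := by rw [conj_pow, hx, mul_one, mul_inv_cancel]
    rw [show k * x * k⁻¹ = k * x * k⁻¹ * x⁻¹ * x by group, hc.mul_pow, hx, mul_one] at e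
    exact e
  exact mul_inv_eq_iff_eq_mul.1 (mul_inv_eq_one.1 (d.z_pow_eq_one h h3))

/-- The element of the acting group over an inner element. -/
theorem exists_rep {k : H} (hk : d.π k ∈ (MulAut.conj : M →* MulAut M).range) :
    ∃ K : d.X, (∀ w, d.rep.act K w = d.actH k w) ∧ MulAut.conj (d.rep.proj K) = d.π k := by
  rw [← d.map_C] at hk
  obtain ⟨c₀, hc₀, hck⟩ := hk
  obtain ⟨i, hi⟩ := d.ker_decomp (n := k * c₀⁻¹)
    (by rw [MonoidHom.mem_ker, map_mul, map_inv, hck, mul_inv_cancel])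
  let c : d.C := ⟨(d.p ^ i)⁻¹ * c₀,
    mul_mem (inv_mem (zpow_mem (d.mem_C.2 (Commute.refl _)) i)) hc₀⟩
  have hte : k * (c : H)⁻¹ ∈ d.E := by
    show k * ((d.p ^ i)⁻¹ * c₀)⁻¹ ∈ d.E
    rwa [mul_inv_rev, inv_inv, ← mul_assoc]
  refine ⟨QuotientGroup.mk c, fun w => (d.act_decomp hte w).symm, ?_⟩
  show MulAut.conj (d.sigma c) = d.π k
  rw [d.conj_sigma]
  show d.π ((d.p ^ i)⁻¹ * c₀) = d.π k
  rw [map_mul, map_inv, map_zpow, MonoidHom.mem_ker.1 d.pker, one_zpow, inv_one, one_mul, hck]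

theorem rep_eq {A B : d.X} (h : ∀ w, d.rep.act A w = d.rep.act B w) : A = B :=
  d.rep.inj (MulEquiv.ext h)

theorem actH_E {e : H} (he : e ∈ d.E) (w : d.W) : d.actH e w = w := by
  obtain ⟨b, hb, rfl⟩ := d.q_surj w
  exact (d.conj_mem_Z hb).2 (d.commE' he hb)

/-- An outer element inverts the central element on the module. -/
theorem outer_inverts {τ : H} (hτI : d.π τ ∉ (MulAut.conj : M →* MulAut M).range) (w : d.W) :
    d.actH τ (d.actH d.p w) = (d.actH d.p)⁻¹ (d.actH τ w) := by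
  obtain ⟨a, ha, hπa⟩ := d.exists_normalizer τ
  have hainv : a * d.p * a⁻¹ = d.p⁻¹ := by
    refine (d.conj_p ha).resolve_left fun e => hτI ?_
    rw [← hπa, ← d.map_C]
    exact ⟨a, d.mem_C.2 (mul_inv_eq_iff_eq_mul.1 e), rfl⟩
  obtain ⟨i, hi⟩ := d.ker_decomp (n := τ * a⁻¹) (by
    rw [MonoidHom.mem_ker, map_mul, map_inv, hπa, mul_inv_cancel])
  have hrel : d.actH τ * d.actH d.p * (d.actH τ)⁻¹ = (d.actH d.p)⁻¹ := by
    have hτ : τ = (τ * a⁻¹ * d.p ^ i) * ((d.p ^ i)⁻¹ * a) := by group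
    have hτ' : d.actH τ = (d.actH d.p ^ i)⁻¹ * d.actH a := by
      conv_lhs => rw [hτ]
      rw [map_mul, show d.actH (τ * a⁻¹ * d.p ^ i) = 1 from MulEquiv.ext (d.actH_E hi), one_mul,
        map_mul, map_inv, map_zpow]
    have hai : d.actH a * d.actH d.p * (d.actH a)⁻¹ = (d.actH d.p)⁻¹ := by
      rw [← map_inv, ← map_mul, ← map_mul, hainv, map_inv]
    rw [hτ', show (d.actH d.p ^ i)⁻¹ * d.actH a * d.actH d.p * ((d.actH d.p ^ i)⁻¹ * d.actH a)⁻¹ =
      (d.actH d.p ^ i)⁻¹ * (d.actH a * d.actH d.p * (d.actH a)⁻¹) * d.actH d.p ^ i by group, hai]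
    group
  have h := congrArg (fun φ : MulAut d.W => φ (d.actH τ w)) hrel
  simpa using h

section Three

variable {x : H} (hx : x ∈ d.C) (hx3 : x ^ 3 = 1) (hs : d.sigma ⟨x, hx⟩ ≠ 1)

/-- The image of the element in the acting group. -/
abbrev xX : d.X := QuotientGroup.mk ⟨x, hx⟩

include hx3 in
theorem xX_cube : (d.xX hx) ^ 3 = 1 := by
  rw [← QuotientGroup.mk_pow, show (⟨x, hx⟩ : d.C) ^ 3 = 1 from Subtype.ext hx3]
  rfl

include hx3 in
theorem centE_eq : d.E ⊓ Subgroup.centralizer ({x} : Set H) =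
    d.pre (d.rep.fixed {d.xX hx}) := by
  ext e
  rw [Subgroup.mem_inf, Subgroup.mem_centralizer_singleton_iff, d.mem_pre]
  constructor
  · rintro ⟨he, hc⟩
    refine ⟨he, d.rep.mem_fixed_single.2 ?_⟩
    show d.actH x (d.q e he) = d.q e he
    rw [d.conj_mem_Z he, ← hc, mul_inv_cancel_right, mul_inv_cancel]
    exact one_mem _
  · rintro ⟨he, h⟩
    have h' : x * e * x⁻¹ * e⁻¹ ∈ d.Z := (d.conj_mem_Z he).1 (d.rep.mem_fixed_single.1 h)
    refine ⟨he, (d.commute_of_cube hx3 ?_).eq⟩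
    have h2 := inv_mem h'
    rwa [show (x * e * x⁻¹ * e⁻¹)⁻¹ = e * x * e⁻¹ * x⁻¹ by group] at h2

include hx3 hs in
theorem card_centE : Nat.card ↥(d.E ⊓ Subgroup.centralizer ({x} : Set H)) = 32 := by
  rw [d.centE_eq hx hx3, d.card_pre, d.rep.card_fixed_three (d.xX_cube hx hx3) hs]

include hx3 hs in
theorem exists_shift_C : ∃ c ∈ d.C, c * x * c⁻¹ = x * d.p := by
  obtain ⟨y, hy⟩ := d.rep.exists_shift (d.xX_cube hx hx3) hs
  obtain ⟨⟨c, hc⟩, rfl⟩ := QuotientGroup.mk_surjective y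
  refine ⟨c, hc, ?_⟩
  have h : c * x * c⁻¹ * (x * d.p)⁻¹ ∈ d.Z := by
    have h1 : (QuotientGroup.mk (⟨c, hc⟩ * ⟨x, hx⟩ * ⟨c, hc⟩⁻¹ *
        (⟨x, hx⟩ * ⟨d.p, d.mem_C.2 (Commute.refl _)⟩)⁻¹ : d.C) : d.X) = 1 := by
      rw [QuotientGroup.mk_mul, QuotientGroup.mk_mul, QuotientGroup.mk_mul, QuotientGroup.mk_inv,
        QuotientGroup.mk_inv, QuotientGroup.mk_mul, mul_inv_eq_one]
      exact hy
    have h2 := (QuotientGroup.eq_one_iff _).1 h1
    exact h2
  have hxp : Commute x d.p := d.mem_C.1 hx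
  set ε := c * x * c⁻¹ * (x * d.p)⁻¹
  have he : c * x * c⁻¹ = ε * (x * d.p) := by simp only [ε]; group
  have hε : Commute ε (x * d.p) := by
    rcases d.mem_Z.1 h with e | e <;> rw [e]
    · exact Commute.one_left _
    · exact d.zc _
  have h3 : ε ^ 3 = 1 := by
    have e : (c * x * c⁻¹) ^ 3 = 1 := by rw [conj_pow, hx3, mul_one, mul_inv_cancel]
    rwa [he, hε.mul_pow, hxp.mul_pow, hx3, d.p3, one_mul, mul_one] at e
  rw [he, d.z_pow_eq_one h h3, one_mul]

include hx3 hs in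
/-- The shape of a 2-subgroup of the centraliser. -/
theorem two_group_bound {T : Subgroup H} (hT : IsPGroup 2 T)
    (hTx : T ≤ Subgroup.centralizer ({x} : Set H)) :
    Nat.card (d.innPre T) ≤ 4 ∧ Nat.card T ≤ 32 * (2 * Nat.card (d.innPre T)) ∧
    ((∀ t ∈ T, d.π t ∈ (MulAut.conj : M →* MulAut M).range) →
      Nat.card T ≤ 32 * Nat.card (d.innPre T)) ∧
    ∀ q ∈ d.innPre T, Commute q (d.sigma ⟨x, hx⟩) := by
  set a := d.sigma ⟨x, hx⟩
  have hπx : d.π x = MulAut.conj a := (d.conj_sigma ⟨x, hx⟩).symm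
  have hcomm : ∀ q ∈ d.innPre T, Commute q a := by
    intro q hq
    obtain ⟨t, ht, htq⟩ := d.mem_innPre.1 hq
    apply conj_injective_M
    rw [map_mul, map_mul, ← htq, ← hπx, ← map_mul, ← map_mul,
      (Subgroup.mem_centralizer_singleton_iff.1 (hTx ht))]
  have hQp : IsPGroup 2 ↥(d.innPre T) :=
    (hT.map d.π).comap_of_injective _ conj_injective_M
  have hQ4 : Nat.card (d.innPre T) ≤ 4 := by
    haveI : Fact (Nat.Prime 2) := ⟨Nat.prime_two⟩
    obtain ⟨e, he⟩ := IsPGroup.iff_card.1 hQp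
    have h36 : Nat.card (d.innPre T) ∣ 36 := by
      have ha : orderOf a = 3 := by
        haveI : Fact (Nat.Prime 3) := ⟨Nat.prime_three⟩
        refine orderOf_eq_prime ?_ hs
        rw [← map_pow, show (⟨x, hx⟩ : d.C) ^ 3 = 1 from Subtype.ext hx3, map_one]
      rw [← Jf18.M22.card_cent_three ha]
      exact Subgroup.card_dvd_of_le fun q hq =>
        Subgroup.mem_centralizer_singleton_iff.2 (hcomm q hq).eq
    rw [he] at h36 ⊢
    by_contra hlt
    have : 2 ^ 3 ∣ 36 := (pow_dvd_pow 2 (by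
      by_contra h3
      exact hlt ((Nat.pow_le_pow_right (by norm_num) (by omega : e ≤ 2)).trans (by norm_num)) :
        3 ≤ e)).trans h36
    norm_num at this
  let f : T →* MulAut M := d.π.comp T.subtype
  have hker : Nat.card f.ker ≤ 32 := by
    rw [← d.card_centE hx hx3 hs]
    obtain ⟨T', hT'⟩ := hT.exists_le_sylow
    refine Nat.card_le_card_of_injective
      (fun t : f.ker => (⟨t.1.1, d.ker_inf_sylow T' (hT' t.1.2) t.2, hTx t.1.2⟩ :
        ↥(d.E ⊓ Subgroup.centralizer ({x} : Set H)))) fun s t e => ?_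
    exact Subtype.ext (Subtype.ext (congrArg Subtype.val e :))
  have hcard : Nat.card T ≤ 32 * Nat.card f.range := by
    have h := Subgroup.card_mul_index f.ker
    rw [Subgroup.index_ker] at h
    rw [← h]
    exact Nat.mul_le_mul_right _ hker
  have hmap : (d.innPre T).map (MulAut.conj : M →* MulAut M) =
      f.range ⊓ (MulAut.conj : M →* MulAut M).range := by
    rw [innPre, Subgroup.map_comap_eq, inf_comm]
    congr 1
    rw [MonoidHom.range_eq_map, ← Subgroup.map_map, ← MonoidHom.range_eq_map, Subgroup.range_subtype]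
  refine ⟨hQ4, hcard.trans (Nat.mul_le_mul_left _ ?_), fun hall => hcard.trans (le_of_eq ?_), hcomm⟩
  · rw [← Subgroup.card_map_of_injective conj_injective_M (K := d.innPre T), hmap]
    exact card_le_two_mul _ (le_of_eq inn_index) (by rw [inn_index]; norm_num) _
  · rw [← Subgroup.card_map_of_injective conj_injective_M (K := d.innPre T), hmap,
      inf_of_le_left (fun φ ⟨t, ht⟩ => ht ▸ hall t.1 t.2)]

include hx3 hs in
theorem two_bound : ¬ 2 ^ 9 ∣ Nat.card (Subgroup.centralizer ({x} : Set H)) := by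
  haveI : Fact (Nat.Prime 2) := ⟨Nat.prime_two⟩
  intro h
  obtain ⟨T₀, hT₀⟩ := Sylow.exists_subgroup_card_pow_prime 2 h
  set T := T₀.map (Subgroup.centralizer ({x} : Set H)).subtype
  have hTc : Nat.card T = 2 ^ 9 := by
    rw [← hT₀]; exact Subgroup.card_map_of_injective (Subgroup.subtype_injective _)
  obtain ⟨h1, h2, -, -⟩ := d.two_group_bound hx hx3 hs (T := T) (IsPGroup.of_card hTc)
    (Subgroup.map_subtype_le _)
  omega

include hx3 hs in
theorem cent_z : ∀ e ∈ d.E ⊓ Subgroup.centralizer ({x} : Set H),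
    (∀ f ∈ d.E ⊓ Subgroup.centralizer ({x} : Set H), Commute e f) → e ∈ d.Z := by
  rintro e ⟨he, hex⟩ hall
  refine d.mem_Z.2 (d.centE e he fun f hf => ?_)
  have hex' : x * e = e * x := (Subgroup.mem_centralizer_singleton_iff.1 hex).symm
  have hxi : x * (x * e * x⁻¹) * x⁻¹ = e := by rw [hex', mul_inv_cancel_right, hex', mul_inv_cancel_right]
  set f₁ := x * f * x⁻¹
  set f₂ := x * f₁ * x⁻¹
  have hf1 : f₁ ∈ d.E := d.normalE x f hf
  have hf2 : f₂ ∈ d.E := d.normalE x f₁ hf1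
  set t := f * f₁ * f₂
  have ht : t ∈ d.E ⊓ Subgroup.centralizer ({x} : Set H) := by
    rw [d.centE_eq hx hx3, d.mem_pre]
    refine ⟨mul_mem (mul_mem hf hf1) hf2, d.rep.mem_fixed_single.2 ?_⟩
    have hq : d.q t (mul_mem (mul_mem hf hf1) hf2) = d.q f hf * d.q f₁ hf1 * d.q f₂ hf2 := rfl
    rw [hq, map_mul, map_mul]
    have hq1 : d.rep.act (d.xX hx) (d.q f hf) = d.q f₁ hf1 := rfl
    have hq2 : d.rep.act (d.xX hx) (d.q f₁ hf1) = d.q f₂ hf2 := rfl
    have hq3 : d.rep.act (d.xX hx) (d.q f₂ hf2) = d.q f hf := by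
      rw [← hq2, ← hq1, ← d.rep.act_mul, ← d.rep.act_mul, ← pow_three', d.xX_cube hx hx3, d.rep.act_one]
    rw [hq1, hq2, hq3, d.rep.comm _ (d.q f hf), ← mul_assoc]
  have het := (hall t ht).eq
  obtain ⟨ε, hεz, hef⟩ : ∃ ε ∈ d.Z, e * f * e⁻¹ = ε * f :=
    ⟨e * f * e⁻¹ * f⁻¹, d.commE' he hf, by group⟩
  have hεc : ∀ y, Commute ε y := fun y => by
    rcases d.mem_Z.1 hεz with rfl | rfl
    · exact Commute.one_left _
    · exact d.zc y
  have hconj : ∀ g, e * g * e⁻¹ = ε * g → e * (x * g * x⁻¹) * e⁻¹ = ε * (x * g * x⁻¹) := by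
    intro g hg
    calc e * (x * g * x⁻¹) * e⁻¹ = (e * x) * g * (e * x)⁻¹ := by group
      _ = (x * e) * g * (x * e)⁻¹ := by rw [hex']
      _ = x * (e * g * e⁻¹) * x⁻¹ := by group
      _ = ε * (x * g * x⁻¹) := by rw [hg, ← mul_assoc x, ← (hεc x).eq]; group
  have he1 : e * f₁ * e⁻¹ = ε * f₁ := hconj f hef
  have he2 : e * f₂ * e⁻¹ = ε * f₂ := hconj f₁ he1
  have hεt : ε * ε * ε = 1 := by
    have h : e * t * e⁻¹ = t := by rw [het, mul_inv_cancel_right]
    rw [show e * t * e⁻¹ = (e * f * e⁻¹) * (e * f₁ * e⁻¹) * (e * f₂ * e⁻¹) by simp only [t]; group,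
      hef, he1, he2, (hεc f).symm.mul_mul_mul_comm, (hεc (f * f₁)).symm.mul_mul_mul_comm] at h
    exact mul_eq_right.1 h
  have h1 : ε = 1 := d.z_pow_eq_one hεz (by rw [pow_succ, pow_two, hεt])
  rw [h1, one_mul] at hef
  exact mul_inv_eq_iff_eq_mul.1 hef

include hx3 hs in
/-- The centraliser in the extraspecial group lies in the derived subgroup. -/
theorem centE_le_commutator : d.E ⊓ Subgroup.centralizer ({x} : Set H) ≤
    ⁅Subgroup.centralizer ({x} : Set H), Subgroup.centralizer ({x} : Set H)⁆ := by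
  have := d.rep.finite_W
  set D := d.E ⊓ Subgroup.centralizer ({x} : Set H)
  set K := Subgroup.centralizer ({x} : Set H)
  have hz : d.z ∈ ⁅K, K⁆ := by
    obtain ⟨a, ha, b, hb, hab⟩ : ∃ a ∈ D, ∃ b ∈ D, ¬ Commute a b := by
      by_contra hno
      push Not at hno
      have hle : D ≤ d.Z := fun e he => d.cent_z hx hx3 hs e he fun f hf => hno e he f hf
      have := Subgroup.card_le_of_le hle
      rw [d.card_centE hx hx3 hs, d.card_Z] at this
      omega
    rcases d.commE a ha.1 b hb.1 with h | h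
    · exact absurd (mul_inv_eq_iff_eq_mul.1 (mul_inv_eq_one.1 h)) hab
    · rw [← h]; exact Subgroup.commutator_mem_commutator ha.2 hb.2
  have hpK : d.p ∈ K := Subgroup.mem_centralizer_singleton_iff.2 (d.mem_C.1 hx).eq.symm
  intro e he
  obtain ⟨heE, hef⟩ : ∃ heE : e ∈ d.E, d.q e heE ∈ d.rep.fixed {d.xX hx} := by
    refine d.mem_pre.1 ?_
    rw [← d.centE_eq hx hx3]
    exact he
  set S := d.rep.fixed {d.xX hx}
  let φ : S → S := fun w => ⟨d.rep.act d.rep.p w * w,
    mul_mem (d.rep.pinv_fixed _ _ w.2) w.2⟩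
  have hφ : Function.Injective φ := by
    intro a b e
    have e' : d.rep.delta d.rep.p a.1 = d.rep.delta d.rep.p b.1 := congrArg Subtype.val e
    have h3 : d.rep.delta d.rep.p (a.1⁻¹ * b.1) = 1 := by rw [map_mul, map_inv, e', inv_mul_cancel]
    exact Subtype.ext (inv_mul_eq_one.1 (d.rep.fpf _ (Rep.delta_eq_one _ |>.1 h3)))
  obtain ⟨⟨w, hw⟩, hwe⟩ := (Finite.injective_iff_surjective.1 hφ) ⟨_, hef⟩
  obtain ⟨k, hk, rfl⟩ := d.q_surj w
  have hkD : k ∈ D := by
    show k ∈ d.E ⊓ Subgroup.centralizer ({x} : Set H)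
    rw [d.centE_eq hx hx3]
    exact d.mem_pre.2 ⟨hk, hw⟩
  set t := d.p * k * d.p⁻¹ * k⁻¹
  have ht : t ∈ ⁅K, K⁆ := Subgroup.commutator_mem_commutator hpK hkD.2
  have htE : t ∈ d.E := mul_mem (d.normalE d.p k hk) (inv_mem hk)
  have hqt : d.q t htE = d.q e heE := by
    refine Eq.trans ?_ (congrArg Subtype.val hwe)
    show d.q (d.p * k * d.p⁻¹) (d.normalE d.p k hk) * (d.q k hk)⁻¹ =
      d.actH d.p (d.q k hk) * d.q k hk
    rw [d.rep.inv_eq]
    rfl
  have h := (d.q_eq_iff).1 hqt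
  rw [show e = t * (t⁻¹ * e) by group]
  rcases d.mem_Z.1 h with h' | h' <;> rw [h']
  · exact mul_mem ht (one_mem _)
  · exact mul_mem ht hz

include hx3 hs in
/-- The preimage of the inner part commuting with the element has index three. -/
theorem card_M0 : ∀ M₀ : Subgroup M, M₀ = (Subgroup.centralizer ({d.xX hx} : Set d.X)).map d.rep.proj →
    Nat.card M₀ = 12 := by
  rintro _ rfl
  set r := d.rep
  set xb := d.xX hx
  have := r.finite_X
  haveI : Fact (Nat.Prime 3) := ⟨Nat.prime_three⟩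
  set a := r.proj xb
  have ha : orderOf a = 3 := orderOf_eq_prime (by rw [← map_pow, d.xX_cube hx hx3, map_one]) hs
  set Pa := (Subgroup.centralizer ({a} : Set M)).comap r.proj
  have hPa : Nat.card Pa = 108 := by
    rw [r.card_comap, Jf18.M22.card_cent_three ha]
  have hmem : ∀ k ∈ Pa, k * xb * k⁻¹ * xb⁻¹ ∈ Subgroup.zpowers r.p := by
    intro k hk
    rw [← r.ker, MonoidHom.mem_ker, map_mul, map_mul, map_mul, map_inv, map_inv,
      Subgroup.mem_centralizer_singleton_iff.1 hk, mul_inv_cancel_right, mul_inv_cancel]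
  have hcen : ∀ u ∈ Subgroup.zpowers r.p, ∀ y, Commute u y := by
    rintro _ ⟨i, rfl⟩ y
    exact (r.central y).zpow_left i
  let f : Pa →* d.X := {
    toFun := fun k => k.1 * xb * k.1⁻¹ * xb⁻¹
    map_one' := by simp
    map_mul' := fun k l => by
      show k.1 * l.1 * xb * (k.1 * l.1)⁻¹ * xb⁻¹ = _
      rw [show k.1 * l.1 * xb * (k.1 * l.1)⁻¹ * xb⁻¹ =
        k.1 * (l.1 * xb * l.1⁻¹ * xb⁻¹) * (xb * k.1⁻¹ * xb⁻¹) by group,
        ← (hcen _ (hmem l.1 l.2) k.1).eq, (hcen _ (hmem l.1 l.2) (k.1 * xb * k.1⁻¹ * xb⁻¹)).symm.eq]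
      group }
  have hr : f.range = Subgroup.zpowers r.p := by
    refine le_antisymm (by rintro _ ⟨k, rfl⟩; exact hmem k.1 k.2) (Subgroup.zpowers_le.2 ?_)
    obtain ⟨y, hy⟩ := r.exists_shift (d.xX_cube hx hx3) hs
    refine ⟨⟨y, Subgroup.mem_centralizer_singleton_iff.2 ?_⟩, ?_⟩
    · have h := congrArg r.proj hy
      rw [map_mul, map_mul, map_mul, map_inv, r.proj_p, mul_one] at h
      exact mul_inv_eq_iff_eq_mul.1 h
    · show y * xb * y⁻¹ * xb⁻¹ = r.p
      rw [hy, ← (r.central xb).eq, mul_inv_cancel_right]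
  have hker : Nat.card f.ker = 36 := by
    have h := Subgroup.card_mul_index f.ker
    rw [Subgroup.index_ker, hr, Nat.card_zpowers, r.order_p, hPa] at h
    omega
  have hC : Nat.card (Subgroup.centralizer ({xb} : Set d.X)) = 36 := by
    rw [← hker]
    exact Nat.card_congr
      { toFun := fun k => ⟨⟨k.1, Subgroup.mem_centralizer_singleton_iff.2 (by
            rw [← map_mul, ← map_mul, Subgroup.mem_centralizer_singleton_iff.1 k.2])⟩, by
          show k.1 * xb * k.1⁻¹ * xb⁻¹ = 1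
          rw [Subgroup.mem_centralizer_singleton_iff.1 k.2, mul_inv_cancel_right, mul_inv_cancel]⟩
        invFun := fun k => ⟨k.1.1, Subgroup.mem_centralizer_singleton_iff.2
          (mul_inv_eq_iff_eq_mul.1 (mul_inv_eq_one.1 k.2))⟩
        left_inv := fun _ => rfl
        right_inv := fun _ => rfl }
  let g : Subgroup.centralizer ({xb} : Set d.X) →* M := r.proj.comp (Subgroup.subtype _)
  have hgr : g.range = (Subgroup.centralizer ({xb} : Set d.X)).map r.proj := by
    rw [MonoidHom.range_eq_map, ← Subgroup.map_map, ← MonoidHom.range_eq_map, Subgroup.range_subtype]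
  have hgk : Nat.card g.ker = 3 := by
    rw [← r.card_ker]
    exact Nat.card_congr
      { toFun := fun k => ⟨k.1.1, k.2⟩
        invFun := fun k => ⟨⟨k.1, Subgroup.mem_centralizer_singleton_iff.2
          (hcen _ (r.ker ▸ k.2) xb).eq⟩, k.2⟩
        left_inv := fun _ => rfl
        right_inv := fun _ => rfl }
  have h := Subgroup.card_mul_index g.ker
  rw [Subgroup.index_ker, hgr, hgk, hC] at h
  omega

include hx3 hs in
/-- A central involution of the centraliser lies in its derived subgroup. -/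
theorem central_mem_commutator
    (h8 : 2 ^ 8 ∣ Nat.card (Subgroup.centralizer ({x} : Set H))) {w : H}
    (hwx : w ∈ Subgroup.centralizer ({x} : Set H)) (hw2 : w * w = 1)
    (hcen : ∀ k ∈ Subgroup.centralizer ({x} : Set H), Commute w k) :
    w ∈ ⁅Subgroup.centralizer ({x} : Set H), Subgroup.centralizer ({x} : Set H)⁆ := by
  classical
  set K := Subgroup.centralizer ({x} : Set H)
  set r := d.rep
  set xb := d.xX hx
  have := r.finite_W
  have hxb3 := d.xX_cube hx hx3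
  have hD := d.centE_le_commutator hx hx3 hs
  haveI : Fact (Nat.Prime 2) := ⟨Nat.prime_two⟩
  have hpK : d.p ∈ K := Subgroup.mem_centralizer_singleton_iff.2 (d.mem_C.1 hx).eq.symm
  have hwp := hcen _ hpK
  -- `w` is inner
  have hwI : d.π w ∈ (MulAut.conj : M →* MulAut M).range := by
    by_contra hout
    have hsub : ∀ v : d.W, d.actH d.p (d.actH d.p v) = v := fun v => by
      have h := d.outer_inverts hout ((d.actH w)⁻¹ v)
      rw [show d.actH w (d.actH d.p ((d.actH w)⁻¹ v)) = (d.actH w * d.actH d.p) ((d.actH w)⁻¹ v) from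
          rfl, ← map_mul, hwp.eq, map_mul, MulAut.mul_apply,
        MulAut.apply_inv_self] at h
      conv_lhs => rw [h]
      rw [MulAut.apply_inv_self]
    have h1 : ∀ v : d.W, v = 1 := fun v => r.fpf v (by
      show d.actH d.p v = v
      conv_rhs => rw [← MulAut.one_apply (d.W) v, ← map_one d.actH, ← d.p3, pow_three', map_mul,
        map_mul, MulAut.mul_apply, MulAut.mul_apply, hsub])
    have := r.card
    rw [show Nat.card d.W = 1 from Nat.card_eq_one_iff_unique.2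
      ⟨⟨fun a b => (h1 a).trans (h1 b).symm⟩, ⟨1⟩⟩] at this
    norm_num at this
  obtain ⟨Y, hY, hYπ⟩ := d.exists_rep hwI
  set m := r.proj Y
  have hY2 : Y * Y = 1 := d.rep_eq fun v => by
    rw [r.act_mul, hY, hY, ← MulAut.mul_apply, ← map_mul, hw2, map_one, r.act_one]; rfl
  -- reduction to the kernel of the projection
  have hred : ∀ k ∈ ⁅K, K⁆, d.π k = d.π w → w ∈ ⁅K, K⁆ := by
    intro k hk hπ
    have hkK : k ∈ K := Subgroup.commutator_le_self K hk
    set n := w * k⁻¹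
    have hn : n ∈ d.π.ker := by rw [MonoidHom.mem_ker, map_mul, map_inv, hπ, mul_inv_cancel]
    obtain ⟨i, hi⟩ := d.ker_decomp hn
    set e := n * d.p ^ i
    set y := (d.p ^ i)⁻¹
    have hne : n = e * y := by simp only [e, y]; group
    have hy3 : y ^ 3 = 1 := by
      simp only [y]
      rw [inv_pow, ← zpow_natCast, ← zpow_mul, mul_comm, zpow_mul, zpow_natCast, d.p3, one_zpow,
        inv_one]
    have hE : n ^ 3 ∈ d.E := by
      rw [hne, show (e * y) ^ 3 = e * (y * e * y⁻¹) * (y ^ 2 * e * (y ^ 2)⁻¹) * y ^ 3 by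
        simp [pow_succ, mul_assoc], hy3, mul_one]
      exact mul_mem (mul_mem hi (d.normalE _ _ hi)) (d.normalE _ _ hi)
    have hn3 : n ^ 3 ∈ ⁅K, K⁆ := hD ⟨hE, pow_mem (mul_mem hwx (inv_mem hkK)) 3⟩
    have hweq : w = n ^ 3 * k ^ 3 := by
      have hc : Commute w k⁻¹ := (hcen k hkK).inv_right
      rw [hc.mul_pow, inv_pow, inv_mul_cancel_right, pow_succ, pow_two, hw2, one_mul]
    rw [hweq]
    exact mul_mem hn3 (pow_mem hk 3)
  by_cases hm1 : m = 1
  · exact hred 1 (one_mem _) (by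
      rw [map_one, ← hYπ, show MulAut.conj m = 1 by rw [hm1, map_one]])
  -- the two-subgroup
  obtain ⟨T₀, hT₀⟩ := Sylow.exists_subgroup_card_pow_prime 2 h8
  set T₁ := T₀.map K.subtype
  have hT₁c : Nat.card T₁ = 2 ^ 8 := by
    rw [← hT₀]; exact Subgroup.card_map_of_injective (Subgroup.subtype_injective _)
  have hT₁K : T₁ ≤ K := Subgroup.map_subtype_le _
  -- adjoin `w`
  set Wz := Subgroup.zpowers w
  have hWp : IsPGroup 2 Wz := by
    rintro ⟨_, i, rfl⟩
    refine ⟨1, Subtype.ext ?_⟩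
    rw [pow_one, SubmonoidClass.coe_pow, OneMemClass.coe_one, ← zpow_natCast, ← zpow_mul, mul_comm,
      zpow_mul, zpow_natCast, pow_two, hw2, one_zpow]
  have hnorm : T₁ ≤ Subgroup.normalizer (Wz : Set H) := fun t ht =>
    Subgroup.centralizer_le_normalizer _ (Subgroup.mem_centralizer_iff.2 (by
      rintro _ ⟨i, rfl⟩
      exact ((hcen t (hT₁K ht)).zpow_left i).eq))
  set T := T₁ ⊔ Wz
  have hTK : T ≤ K := sup_le hT₁K (Subgroup.zpowers_le.2 hwx)
  have hTp : IsPGroup 2 T := IsPGroup.to_sup_of_normal_right' (IsPGroup.of_card hT₁c) hWp hnorm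
  obtain ⟨hQ4, hTb, hTall, hQa⟩ := d.two_group_bound hx hx3 hs hTp hTK
  have hT256 : 256 ≤ Nat.card T := by
    have := Subgroup.card_le_of_le (le_sup_left : T₁ ≤ T)
    rw [hT₁c] at this
    omega
  set Q := d.innPre T
  have hQcard : Nat.card Q = 4 := by omega
  obtain ⟨s, hsT, hsI⟩ : ∃ s ∈ T, d.π s ∉ (MulAut.conj : M →* MulAut M).range := by
    by_contra hno
    push Not at hno
    have := hTall hno
    omega
  have hmQ : m ∈ Q := d.mem_innPre.2 ⟨w, Subgroup.mem_sup_right (Subgroup.mem_zpowers w), hYπ.symm⟩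
  -- lifts of inner elements of `K` commute with `x`
  have hcX : ∀ {k : H} {Kk : d.X}, k ∈ K → (∀ v, r.act Kk v = d.actH k v) → Commute Kk xb := by
    intro k Kk hk hact
    refine d.rep_eq fun v => ?_
    have e : ∀ t, r.act xb t = d.actH x t := fun t => rfl
    rw [r.act_mul, r.act_mul, hact, hact, e, e, ← MulAut.mul_apply, ← MulAut.mul_apply, ← map_mul,
      ← map_mul, Subgroup.mem_centralizer_singleton_iff.1 hk]
  have hYx : Commute Y xb := hcX hwx hY
  have hF0 : r.fixed {xb} ≤ r.fixed {Y} := by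
    intro v hv
    obtain ⟨e, he, rfl⟩ := d.q_surj v
    refine r.mem_fixed_single.2 ?_
    rw [hY, d.conj_mem_Z he]
    have heD : e ∈ d.E ⊓ K := by
      rw [d.centE_eq hx hx3]
      exact d.mem_pre.2 ⟨he, hv⟩
    rw [(hcen e heD.2).eq, mul_inv_cancel_right, mul_inv_cancel]
    exact one_mem _
  -- the conjugate involution
  obtain ⟨c, hc, hcx⟩ := d.exists_shift_C hx hx3 hs
  set R : d.X := QuotientGroup.mk ⟨c, hc⟩
  have hRx : R * xb * R⁻¹ = xb * r.p := by
    show (QuotientGroup.mk (⟨c, hc⟩ * ⟨x, hx⟩ * ⟨c, hc⟩⁻¹ : d.C) : d.X) =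
      QuotientGroup.mk (⟨x, hx⟩ * ⟨d.p, d.mem_C.2 (Commute.refl _)⟩ : d.C)
    exact congrArg _ (Subtype.ext hcx)
  set V := R * Y * R⁻¹
  have hV2 : V * V = 1 := by
    simp only [V]; rw [show R * Y * R⁻¹ * (R * Y * R⁻¹) = R * (Y * Y) * R⁻¹ by group, hY2]; group
  have hVx : Commute V xb := by
    have h1 : Commute V (xb * r.p) := by
      rw [← hRx]; exact hYx.map (MulAut.conj R).toMonoidHom
    have h2 := h1.mul_right ((r.central V).symm.inv_right)
    rwa [mul_inv_cancel_right] at h2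
  have hF1 : r.fixed {xb * r.p} ≤ r.fixed {V} := by
    intro v hv
    have h := r.mem_fixed_conj (y := R⁻¹) hv
    rw [show R⁻¹ * (xb * r.p) * R⁻¹⁻¹ = xb by rw [← hRx]; group] at h
    have h2 := r.mem_fixed_conj (y := R) (hF0 h)
    rwa [r.act_act_inv] at h2
  set v := r.proj V
  have hv1 : v ≠ 1 := fun h => hm1 (by
    have h' : r.proj R * m * (r.proj R)⁻¹ = 1 := by rw [← map_inv, ← map_mul, ← map_mul]; exact h
    exact conj_eq_one_iff.1 h')
  have hxs : r.proj xb ≠ 1 := hs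
  have hvm : v ≠ m := fun h => by
    have e : V = Y := r.lift_two_unique h hV2 hY2
    exact r.not_fix_two hxb3 hxs hY2 hm1 hYx hF0 (e ▸ hF1)
  -- a lift in `K`
  obtain ⟨⟨cv, hcv⟩, hcvV⟩ := QuotientGroup.mk_surjective V
  have hcvK : cv ∈ K := by
    refine Subgroup.mem_centralizer_singleton_iff.2 (d.commute_of_cube hx3 ?_).eq
    have h1 : (QuotientGroup.mk (⟨cv, hcv⟩ * ⟨x, hx⟩ * ⟨cv, hcv⟩⁻¹ * ⟨x, hx⟩⁻¹ : d.C) : d.X) = 1 := by
      rw [QuotientGroup.mk_mul, QuotientGroup.mk_mul, QuotientGroup.mk_mul, QuotientGroup.mk_inv,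
        QuotientGroup.mk_inv, hcvV]
      show V * xb * V⁻¹ * xb⁻¹ = 1
      rw [hVx.eq, mul_inv_cancel_right, mul_inv_cancel]
    have h2 := (QuotientGroup.eq_one_iff _).1 h1
    exact h2
  have hπcv : d.π cv = MulAut.conj v := by
    show d.π cv = MulAut.conj (r.proj V)
    rw [← hcvV]
    exact (d.conj_sigma ⟨cv, hcv⟩).symm
  have hactV : ∀ t, r.act V t = d.actH cv t := fun t => by rw [← hcvV]; rfl
  set φ := d.π s
  have hsK := hTK hsT
  have hk : s * cv * s⁻¹ * cv⁻¹ ∈ ⁅K, K⁆ := Subgroup.commutator_mem_commutator hsK hcvK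
  have hπconj : d.π (s * cv * s⁻¹) = MulAut.conj (φ v) := by
    rw [map_mul, map_mul, map_inv, hπcv]
    ext t : 1
    simp [φ]
  obtain ⟨V', hV', hV'π⟩ := d.exists_rep (k := s * cv * s⁻¹) (hπconj ▸ ⟨φ v, rfl⟩)
  have hv'p : r.proj V' = φ v := conj_injective_M (hV'π.trans hπconj)
  have hV'2 : V' * V' = 1 := d.rep_eq fun t => by
    rw [r.act_mul, hV', hV', ← MulAut.mul_apply, ← map_mul,
      show s * cv * s⁻¹ * (s * cv * s⁻¹) = s * (cv * cv) * s⁻¹ by group, map_mul, map_mul,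
      map_mul, show d.actH cv * d.actH cv = 1 from MulEquiv.ext fun t => by
        rw [MulAut.mul_apply, ← hactV, ← hactV, ← r.act_mul, hV2, r.act_one]; rfl,
      mul_one, ← map_mul, mul_inv_cancel, map_one, r.act_one]
    rfl
  have hV'x : Commute V' xb := hcX (mul_mem (mul_mem hsK hcvK) (inv_mem hsK)) hV'
  have hφm : φ m = m := by
    apply conj_injective_M
    have h : MulAut.conj (φ m) = φ * MulAut.conj m * φ⁻¹ := by ext t : 1; simp
    rw [h, hYπ, ← map_mul, (hcen s hsK).symm.eq, map_mul, mul_inv_cancel_right]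
  have hv'v : φ v ≠ v := fun h => by
    have e : V' = V := r.lift_two_unique (hv'p.trans h) hV'2 hV2
    have hsx : Commute s x := Subgroup.mem_centralizer_singleton_iff.1 hsK
    have hxp2 : r.fixed {xb * (r.p * r.p)} ≤ r.fixed {V} := by
      intro t ht
      have ht' : d.actH x (d.actH d.p (d.actH d.p t)) = t := by
        have := r.mem_fixed_single.1 ht
        rw [r.act_mul, r.act_mul] at this
        exact this
      obtain ⟨t₀, rfl⟩ : ∃ t₀, d.actH s t₀ = t := ⟨(d.actH s)⁻¹ t, MulAut.apply_inv_self _ _ _⟩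
      have hpp : ∀ u, d.actH d.p (d.actH d.p u) = (d.actH d.p)⁻¹ u := fun u => by
        apply (d.actH d.p).injective
        rw [MulAut.apply_inv_self, ← MulAut.mul_apply, ← MulAut.mul_apply, ← map_mul, ← map_mul,
          ← pow_three', d.p3, map_one, MulAut.one_apply]
      rw [hpp, ← d.outer_inverts hsI] at ht'
      rw [show d.actH x (d.actH s (d.actH d.p t₀)) = (d.actH x * d.actH s) (d.actH d.p t₀) from rfl,
        ← map_mul, hsx.symm.eq, map_mul, MulAut.mul_apply] at ht'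
      have h0 : t₀ ∈ r.fixed {xb * r.p} := r.mem_fixed_single.2 (by
        rw [r.act_mul]
        exact (d.actH s).injective ht')
      have h1 : d.actH cv t₀ = t₀ := by rw [← hactV]; exact r.mem_fixed_single.1 (hF1 h0)
      refine r.mem_fixed_single.2 ?_
      rw [← e, hV', map_mul, map_mul, map_inv, MulAut.mul_apply, MulAut.mul_apply,
        MulAut.inv_apply_self, h1]
    exact r.not_fix_two (x := xb * r.p) (y := V)
      (by rw [((r.central xb).symm).mul_pow, hxb3, r.cube, one_mul])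
      (by rw [map_mul, r.proj_p, mul_one]; exact hxs) hV2 hv1
      (hVx.mul_right (r.central V).symm) hF1 (by rwa [mul_assoc])
  -- all involutions of the inner part lie in `Q`
  set a := r.proj xb
  have ha3 : a ^ 3 = 1 := by rw [← map_pow, hxb3, map_one]
  haveI : Fact (Nat.Prime 3) := ⟨Nat.prime_three⟩
  have hao : orderOf a = 3 := orderOf_eq_prime ha3 hxs
  set M₀ := (Subgroup.centralizer ({xb} : Set d.X)).map r.proj
  have hM₀ := d.card_M0 hx hx3 hs M₀ rfl
  have hQM : Q ≤ M₀ := by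
    intro q hq
    obtain ⟨t, ht, htq⟩ := d.mem_innPre.1 hq
    obtain ⟨Tt, hTt, hTtπ⟩ := d.exists_rep (k := t) (htq ▸ ⟨q, rfl⟩)
    exact ⟨Tt, Subgroup.mem_centralizer_singleton_iff.2 (hcX (hTK ht) hTt).eq,
      conj_injective_M (hTtπ.trans htq)⟩
  have haM : a ∈ M₀ := ⟨xb, Subgroup.mem_centralizer_singleton_iff.2 rfl, rfl⟩
  have hQsq : ∀ j ∈ M₀, j * j = 1 → j ∈ Q := by
    intro j hj hj2
    let ψ : Q × Subgroup.zpowers a → M₀ := fun t =>
      ⟨t.1.1 * t.2.1, mul_mem (hQM t.1.2) ((Subgroup.zpowers_le.2 haM) t.2.2)⟩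
    have hψi : Function.Injective ψ := by
      rintro ⟨q, b⟩ ⟨q', b'⟩ e
      have e' : q.1 * b.1 = q'.1 * b'.1 := congrArg Subtype.val e
      have hmem : q'.1⁻¹ * q.1 = b'.1 * b.1⁻¹ := by
        rw [inv_mul_eq_iff_eq_mul, ← mul_assoc, ← e', mul_inv_cancel_right]
      have h1 : orderOf (q'.1⁻¹ * q.1) ∣ 4 := by
        rw [← hQcard]
        simpa [Subgroup.orderOf_coe] using
          (orderOf_dvd_natCard (⟨q'.1⁻¹ * q.1, mul_mem (inv_mem q'.2) q.2⟩ : Q))
      have h2 : orderOf (q'.1⁻¹ * q.1) ∣ 3 := by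
        rw [hmem, ← hao, ← Nat.card_zpowers a]
        simpa [Subgroup.orderOf_coe] using
          (orderOf_dvd_natCard (⟨b'.1 * b.1⁻¹, mul_mem b'.2 (inv_mem b.2)⟩ : Subgroup.zpowers a))
      have h3 : q'.1⁻¹ * q.1 = 1 := orderOf_eq_one_iff.1
        (Nat.eq_one_of_dvd_coprimes (by norm_num : Nat.Coprime 4 3) h1 h2)
      have hq : q = q' := Subtype.ext (inv_mul_eq_one.1 h3).symm
      rw [h3] at hmem
      exact Prod.ext hq (Subtype.ext (mul_inv_eq_one.1 hmem.symm).symm)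
    have hψ : Function.Bijective ψ := (Nat.bijective_iff_injective_and_card ψ).2 ⟨hψi, by
      rw [Nat.card_prod, hQcard, Nat.card_zpowers, hao, hM₀]⟩
    obtain ⟨⟨q, ⟨b, i, rfl⟩⟩, e⟩ := hψ.2 ⟨j, hj⟩
    have e' : q.1 * a ^ i = j := congrArg Subtype.val e
    have hc : Commute q.1 (a ^ i) := (hQa q.1 q.2).zpow_right i
    have hq2 : q.1 * q.1 * (a ^ i * a ^ i) = 1 := by
      rw [← hc.symm.mul_mul_mul_comm, e', hj2]
    have hq4 : q.1 ^ 4 = 1 := by
      have := orderOf_dvd_natCard q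
      rw [hQcard] at this
      exact congrArg Subtype.val (orderOf_dvd_iff_pow_eq_one.1 this)
    have hz : a ^ i = 1 := by
      have h3 : (a ^ i) ^ 3 = 1 := by
        rw [← zpow_natCast, ← zpow_mul, mul_comm, zpow_mul, zpow_natCast, ha3, one_zpow]
      have hpp : (q.1 * q.1 * (a ^ i * a ^ i)) ^ 2 = q.1 ^ 4 * (a ^ i) ^ 4 := by
        rw [((hc.mul_left hc).mul_right (hc.mul_left hc)).mul_pow]
        simp only [pow_succ, pow_zero, one_mul, mul_assoc]
      rw [hq2, one_pow, hq4, one_mul, pow_succ, h3, one_mul] at hpp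
      exact hpp.symm
    rw [← e', hz, mul_one]
    exact q.2
  have hvM : v ∈ M₀ := ⟨V, Subgroup.mem_centralizer_singleton_iff.2 hVx.eq, rfl⟩
  have hv'M : φ v ∈ M₀ := hv'p ▸ ⟨V', Subgroup.mem_centralizer_singleton_iff.2 hV'x.eq, rfl⟩
  have hvv : v * v = 1 := by rw [← map_mul, hV2, map_one]
  have hm2 : m * m = 1 := by rw [← map_mul, hY2, map_one]
  have hvQ := hQsq v hvM hvv
  have hv'Q := hQsq _ hv'M (by rw [← map_mul, hvv, map_one])
  have key : φ v = m * v := by
    by_contra hne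
    let g : Fin 5 → Q := ![1, ⟨m, hmQ⟩, ⟨v, hvQ⟩, ⟨m * v, mul_mem hmQ hvQ⟩, ⟨φ v, hv'Q⟩]
    have hg : Function.Injective g := by
      have e1 : φ v ≠ 1 := fun h => hv1 (φ.injective (h.trans (map_one φ).symm))
      have e2 : φ v ≠ m := fun h => hvm (φ.injective (h.trans hφm.symm))
      have e3 : m * v ≠ 1 := fun h => hvm ((eq_inv_of_mul_eq_one_right h).trans
        (inv_eq_of_mul_eq_one_right hm2))
      have e4 : m * v ≠ m := fun h => hv1 (mul_eq_left.1 h)
      have e5 : m * v ≠ v := fun h => hm1 (mul_eq_right.1 h)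
      intro i j hij
      have h := congrArg Subtype.val hij
      fin_cases i <;> fin_cases j <;> first
        | rfl
        | (exfalso; simp [g] at h; first
            | exact hm1 h | exact hm1 h.symm | exact hv1 h | exact hv1 h.symm | exact hvm h
            | exact hvm h.symm | exact e1 h | exact e1 h.symm | exact e2 h | exact e2 h.symm
            | exact e3 h | exact e3 h.symm | exact e4 h | exact e4 h.symm | exact e5 h
            | exact e5 h.symm | exact hne h | exact hne h.symm | exact hv'v h | exact hv'v h.symm)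
    have := Nat.card_le_card_of_injective g hg
    rw [hQcard, Nat.card_fin] at this
    omega
  refine hred _ hk ?_
  rw [map_mul, hπconj, map_inv, hπcv, ← map_inv, ← map_mul, key, mul_inv_cancel_right, hYπ]

end Three

end CfsgLib.J4Type67.Setup

namespace CfsgLib.Jf18.Ctx

open CfsgLib.J4Type67

universe u

variable {G : Type u} [Group G] [Finite G] (c : Ctx G)

theorem three_hyp {x : G} (hx : x ∈ c.C) (hx3 : orderOf x = 3) (hxp : x ∉ Subgroup.zpowers c.p) :
    (⟨x, hx.1⟩ : c.H) ^ 3 = 1 ∧ c.setup.sigma (c.toC hx) ≠ 1 := by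
  have h3 : x ^ 3 = 1 := hx3 ▸ pow_orderOf_eq_one x
  refine ⟨Subtype.ext h3, fun h => hxp ?_⟩
  have h' : c.sig ⟨x, hx⟩ = 1 := h
  obtain ⟨i, hi⟩ : ∃ i, x * c.p ^ i ∈ c.E := c.ker_pi_E (x := ⟨x, hx.1⟩) (by
    rw [MonoidHom.mem_ker, ← c.conj_sig ⟨x, hx⟩, h', map_one])
  have hC : x * c.p ^ i ∈ c.C := mul_mem hx (zpow_mem c.p_mem_C i)
  have hc : Commute x (c.p ^ i) := (c.mem_C.1 hx).2.zpow_right i
  have hp3 : (c.p ^ i) ^ 3 = 1 := by
    rw [← zpow_natCast, ← zpow_mul, mul_comm, zpow_mul, zpow_natCast, c.p_cube, one_zpow]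
  have h1 := c.eq_one_of_cube (by rw [hc.mul_pow, h3, hp3, one_mul]) (c.eq_of_mem_E_C hi hC)
  rw [eq_inv_of_mul_eq_one_left h1]
  exact inv_mem (zpow_mem (Subgroup.mem_zpowers _) i)

theorem map_centralizer_three {x : G} (hx : x ∈ c.H) :
    (Subgroup.centralizer ({⟨x, hx⟩} : Set c.H)).map c.H.subtype =
      c.H ⊓ Subgroup.centralizer ({x} : Set G) := by
  ext y
  constructor
  · rintro ⟨y, hy, rfl⟩
    exact ⟨y.2, Subgroup.mem_centralizer_singleton_iff.2
      (congrArg Subtype.val (Subgroup.mem_centralizer_singleton_iff.1 hy))⟩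
  · rintro ⟨h1, h2⟩
    exact ⟨⟨y, h1⟩, Subgroup.mem_centralizer_singleton_iff.2
      (Subtype.ext (Subgroup.mem_centralizer_singleton_iff.1 h2)), rfl⟩

theorem card_centralizer_three {x : G} (hx : x ∈ c.H) :
    Nat.card (Subgroup.centralizer ({⟨x, hx⟩} : Set c.H)) =
      Nat.card ↥(c.H ⊓ Subgroup.centralizer ({x} : Set G)) := by
  rw [← c.map_centralizer_three hx, Subgroup.card_map_of_injective c.H.subtype_injective]

theorem card_E_cent_three {x : G} (hx : x ∈ c.C) (hx3 : orderOf x = 3)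
    (hxp : x ∉ Subgroup.zpowers c.p) :
    Nat.card ↥(c.E ⊓ Subgroup.centralizer ({x} : Set G)) = 32 := by
  obtain ⟨h3, hs⟩ := c.three_hyp hx hx3 hxp
  have h := c.setup.card_centE (c.mem_setup_C hx) h3 hs
  have e : (c.E.subgroupOf c.H ⊓ Subgroup.centralizer ({⟨x, hx.1⟩} : Set c.H)).map c.H.subtype =
      c.E ⊓ Subgroup.centralizer ({x} : Set G) := by
    rw [Subgroup.map_inf _ _ _ c.H.subtype_injective, c.map_centralizer_three hx.1,
      Subgroup.map_subgroupOf_eq_of_le c.E_le, ← inf_assoc, inf_eq_left.2 c.E_le]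
  rw [← e, Subgroup.card_map_of_injective c.H.subtype_injective]
  exact h

theorem conj_mul_p {x : G} (hx : x ∈ c.C) (hx3 : orderOf x = 3)
    (hxp : x ∉ Subgroup.zpowers c.p) : ∃ r ∈ c.C, r * x * r⁻¹ = x * c.p := by
  obtain ⟨h3, hs⟩ := c.three_hyp hx hx3 hxp
  obtain ⟨r, hr, he⟩ := c.setup.exists_shift_C (c.mem_setup_C hx) h3 hs
  exact ⟨(r : G), c.mem_C.2 ⟨mem_cz.1 r.2, congrArg Subtype.val (c.setup.mem_C.1 hr).eq⟩,
    congrArg Subtype.val he⟩

theorem two_dvd_bound {x : G} (hx : x ∈ c.C) (hx3 : orderOf x = 3)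
    (hxp : x ∉ Subgroup.zpowers c.p) :
    ¬ 2 ^ 9 ∣ Nat.card ↥(c.H ⊓ Subgroup.centralizer ({x} : Set G)) := by
  obtain ⟨h3, hs⟩ := c.three_hyp hx hx3 hxp
  rw [← c.card_centralizer_three hx.1]
  exact c.setup.two_bound (c.mem_setup_C hx) h3 hs

/-- A central involution of the centraliser in `H` of an element of order three outside `⟨p⟩`
lies in the derived subgroup of that centraliser. -/
theorem central_mem_commutator {x : G} (hx : x ∈ c.C) (hx3 : orderOf x = 3)
    (hxp : x ∉ Subgroup.zpowers c.p)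
    (h8 : 2 ^ 8 ∣ Nat.card ↥(c.H ⊓ Subgroup.centralizer ({x} : Set G))) {w : G}
    (hw : w ∈ c.H ⊓ Subgroup.centralizer ({x} : Set G)) (hw2 : w * w = 1)
    (hcen : ∀ k ∈ c.H ⊓ Subgroup.centralizer ({x} : Set G), Commute w k) :
    w ∈ ⁅c.H ⊓ Subgroup.centralizer ({x} : Set G), c.H ⊓ Subgroup.centralizer ({x} : Set G)⁆ := by
  obtain ⟨h3, hs⟩ := c.three_hyp hx hx3 hxp
  rw [← c.card_centralizer_three hx.1] at h8
  have h := c.setup.central_mem_commutator (c.mem_setup_C hx) h3 hs h8 (w := ⟨w, hw.1⟩)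
    (Subgroup.mem_centralizer_singleton_iff.2
      (Subtype.ext (Subgroup.mem_centralizer_singleton_iff.1 hw.2)))
    (Subtype.ext hw2)
    (fun k hk => Subtype.ext (hcen k ⟨k.2, Subgroup.mem_centralizer_singleton_iff.2
      (congrArg Subtype.val (Subgroup.mem_centralizer_singleton_iff.1 hk))⟩).eq)
  rw [← c.map_centralizer_three hx.1, ← Subgroup.map_commutator]
  exact ⟨_, h, rfl⟩

end CfsgLib.Jf18.Ctx
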