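import Cfsg.Agent.Jf18.Invol
import Cfsg.Agent.Jf18.ThreeInvol
import Cfsg.Agent.Jf18.M22
import Cfsg.Agent.Jf18.SylowThree
import Cfsg.Agent.PGroup.Extraspecial

/-!
Janko-four type: the elements of order three of the centraliser of the involution, and the odd
normal subgroups of their centralisers in it.
-/

set_option autoImplicit false
set_option linter.unusedSectionVars false
set_option linter.style.haveILetI false

namespace CfsgLib.Jf18.Ctx

open CfsgLib.J4Type67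
open scoped Pointwise

universe u

variable {G : Type u} [Group G] [Finite G] (c : Ctx G)

theorem three_cube {x : G} (h : orderOf x = 3) : x ^ 3 = 1 := h ▸ pow_orderOf_eq_one x

theorem three_ne_one {x : G} (h : orderOf x = 3) : x ≠ 1 := fun e => by
  rw [e, orderOf_one] at h; omega

/-- An element of the kernel with trivial cube is a power of `p`. -/
theorem mem_zpowers_p_of_sig {y : G} (hy : y ∈ c.C) (h : c.sig ⟨y, hy⟩ = 1) {k : ℕ}
    (hk : Odd k) (h3 : y ^ k = 1) : y ∈ Subgroup.zpowers c.p := by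
  obtain ⟨i, hi⟩ := c.setup.rep.exists_pow ((c.proj_toX hy).trans h)
  have hpi : c.p ^ i ∈ c.C := zpow_mem c.p_mem_C i
  have e : c.toX hpi = c.setup.rep.p ^ i := by
    rw [show c.setup.rep.p = c.toX c.p_mem_C from rfl]
    exact map_zpow
      ({ toFun := fun x : c.C => c.toX x.2, map_one' := (c.toX_eq_one _).2 (Or.inl rfl),
         map_mul' := fun a b => c.toX_mul a.2 b.2 } : c.C →* c.setup.X) ⟨c.p, c.p_mem_C⟩ i
  have h1 : c.toX (mul_mem hy (inv_mem hpi)) = 1 := by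
    have : c.toX (inv_mem hpi) * c.toX hpi = 1 := by
      rw [← c.toX_mul (inv_mem hpi) hpi, c.toX_eq_one]; exact Or.inl (inv_mul_cancel _)
    rw [c.toX_mul hy (inv_mem hpi), hi, ← e, eq_inv_of_mul_eq_one_left this, mul_inv_cancel]
  rcases (c.toX_eq_one _).1 h1 with h' | h'
  · exact ⟨i, (mul_inv_eq_one.1 h').symm⟩
  · exfalso
    have hy' : y = c.z * c.p ^ i := mul_inv_eq_iff_eq_mul.1 h'
    have hc : Commute c.z (c.p ^ i) := (c.commute_z (zpow_mem c.p_mem_H i)).symm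
    rw [hy', hc.mul_pow] at h3
    obtain ⟨m, rfl⟩ := hk
    rw [pow_succ c.z, pow_mul, pow_two c.z, c.z_mul_self, one_pow, one_mul] at h3
    refine c.z_ne_one (c.eq_one_of_cube ?_ (Or.inr rfl))
    rw [eq_inv_of_mul_eq_one_left h3, inv_pow, ← pow_mul, ← zpow_natCast, ← zpow_mul,
      show i * (((2 * m + 1) * 3 : ℕ) : ℤ) = ((3 : ℕ) : ℤ) * (i * (2 * m + 1 : ℕ)) by
        push_cast; ring,
      zpow_mul, zpow_natCast, c.p_cube, one_zpow, inv_one]

/-- A 3-subgroup of `C` lies in a Sylow subgroup with its properties. -/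
theorem exists_three_sylow {K : Subgroup G} (hK : K ≤ c.C) (h3 : IsPGroup 3 K) :
    ∃ R : Subgroup G, K ≤ R ∧ R ≤ c.C ∧ c.p ∈ R ∧ Nat.card R = 27 ∧ (∀ r ∈ R, r ^ 3 = 1) ∧
      ∀ a ∈ R, a ∉ Subgroup.zpowers c.p → ∃ r ∈ R, ¬ Commute r a := by
  haveI : Fact (Nat.Prime 3) := ⟨Nat.prime_three⟩
  have hKp : K ≤ Subgroup.normalizer (Subgroup.zpowers c.p : Set G) := fun k hk =>
    Subgroup.centralizer_le_normalizer _ (hK hk).2
  have hP3 : IsPGroup 3 ↥(Subgroup.zpowers c.p) :=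
    IsPGroup.of_card (n := 1) (by rw [Nat.card_zpowers, c.orderOf_p, pow_one])
  have hsup : IsPGroup 3 ↥(K ⊔ Subgroup.zpowers c.p) := IsPGroup.to_sup_of_normal_right' h3 hP3 hKp
  have hsupC : K ⊔ Subgroup.zpowers c.p ≤ c.C := sup_le hK (Subgroup.zpowers_le.2 c.p_mem_C)
  obtain ⟨P0, hP0⟩ := (hsup.of_equiv (Subgroup.subgroupOfEquivOfLe hsupC).symm).exists_le_sylow
  set R : Subgroup G := (P0 : Subgroup c.C).map c.C.subtype
  have hRC : R ≤ c.C := Subgroup.map_subtype_le _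
  have hRH : R ≤ c.H := hRC.trans inf_le_left
  have hle : K ⊔ Subgroup.zpowers c.p ≤ R := fun y hy => ⟨⟨y, hsupC hy⟩, hP0 hy, rfl⟩
  have hcC : Nat.card c.C = 3 ^ 3 * 98560 := by
    rw [← sylowThree_card_C c.setup]
    refine Nat.card_congr
      { toFun := fun x => ⟨⟨x, x.2.1⟩, c.mem_setup_C x.2⟩
        invFun := fun x => ⟨x.1, c.mem_C.2 ⟨mem_cz.1 x.1.2,
          congrArg Subtype.val (c.setup.mem_C.1 x.2).eq⟩⟩
        left_inv := fun _ => rfl
        right_inv := fun _ => rfl }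
  have hR27 : Nat.card R = 27 := by
    rw [Subgroup.card_map_of_injective c.C.subtype_injective, Sylow.card_eq_multiplicity, hcC,
      fact_three (by norm_num)]
    norm_num
  let RH : Sylow 3 c.H := Sylow.ofCard (R.subgroupOf c.H) (by
    rw [Nat.card_congr (Subgroup.subgroupOfEquivOfLe hRH).toEquiv, hR27,
      sylowThree_card_H c.setup, fact_three (by norm_num)]
    norm_num)
  obtain ⟨hE, -, hexp, -, -⟩ := c.sylow_H RH
  rw [show (RH : Subgroup c.H).map c.H.subtype = R from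
    Subgroup.map_subgroupOf_eq_of_le hRH] at hE hexp
  have hpR : c.p ∈ R := hle (Subgroup.mem_sup_right (Subgroup.mem_zpowers _))
  refine ⟨R, le_sup_left.trans hle, hRC, hpR, hR27, fun r hr => ?_, fun a ha hap => ?_⟩
  · have := Monoid.pow_exponent_eq_one (⟨r, hr⟩ : R)
    rw [hexp] at this
    exact congrArg Subtype.val this
  · by_contra hno
    push Not at hno
    have hcen : Subgroup.zpowers (⟨c.p, hpR⟩ : R) = Subgroup.center R := by
      refine Subgroup.eq_of_le_of_card_ge (Subgroup.zpowers_le.2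
        (Subgroup.mem_center_iff.2 fun r => Subtype.ext (c.mem_C.1 (hRC r.2)).2.eq)) ?_
      rw [hE.2, Nat.card_zpowers, ← Subgroup.orderOf_coe, c.orderOf_p]
    have : (⟨a, ha⟩ : R) ∈ Subgroup.zpowers (⟨c.p, hpR⟩ : R) := by
      rw [hcen]
      exact Subgroup.mem_center_iff.2 fun r => Subtype.ext (hno r r.2).eq
    obtain ⟨i, hi⟩ := this
    exact hap ⟨i, congrArg Subtype.val hi⟩

theorem exists_xtype : ∃ x ∈ c.C, orderOf x = 3 ∧ x ∉ Subgroup.zpowers c.p := by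
  haveI : Fact (Nat.Prime 3) := ⟨Nat.prime_three⟩
  obtain ⟨R, -, hRC, hpR, hR27, hexp, -⟩ := c.exists_three_sylow bot_le IsPGroup.of_bot
  obtain ⟨x, hx, hxp⟩ : ∃ x ∈ R, x ∉ Subgroup.zpowers c.p := by
    by_contra hno
    push Not at hno
    have := Subgroup.card_le_of_le (fun y hy => hno y hy : R ≤ Subgroup.zpowers c.p)
    rw [hR27, Nat.card_zpowers, c.orderOf_p] at this
    omega
  exact ⟨x, hRC hx, orderOf_eq_prime (hexp x hx) (fun e => hxp (e ▸ one_mem _)), hxp⟩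

/-- An element of order three is conjugate into the centraliser of `p`. -/
theorem exists_conj_C {e : G} (he : e ∈ c.H) (h3 : orderOf e = 3) :
    ∃ h ∈ c.H, h * e * h⁻¹ ∈ c.C := by
  haveI : Fact (Nat.Prime 3) := ⟨Nat.prime_three⟩
  obtain ⟨R, -, hRC, -, hR27, -, -⟩ := c.exists_three_sylow bot_le IsPGroup.of_bot
  let RH : Sylow 3 c.H := Sylow.ofCard (R.subgroupOf c.H) (by
    rw [Nat.card_congr (Subgroup.subgroupOfEquivOfLe (hRC.trans inf_le_left)).toEquiv, hR27,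
      sylowThree_card_H c.setup, fact_three (by norm_num)]
    norm_num)
  have hp : IsPGroup 3 ↥(Subgroup.zpowers (⟨e, he⟩ : c.H)) :=
    IsPGroup.of_card (n := 1) (by rw [Nat.card_zpowers, ← Subgroup.orderOf_coe, h3, pow_one])
  obtain ⟨T, hT⟩ := hp.exists_le_sylow
  obtain ⟨g, hg⟩ := MulAction.exists_smul_eq c.H T RH
  refine ⟨g, g.2, hRC ?_⟩
  have hm : g * (⟨e, he⟩ : c.H) * g⁻¹ ∈ (RH : Subgroup c.H) := by
    rw [← hg, Sylow.coe_subgroup_smul, Subgroup.mem_pointwise_smul_iff_inv_smul_mem]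
    simpa [mul_assoc] using hT (Subgroup.mem_zpowers _)
  exact hm

theorem exists_conj_or_xtype {e : G} (he : e ∈ c.H) (h3 : orderOf e = 3) {x : G} (hx : x ∈ c.C)
    (hx3 : orderOf x = 3) (hxp : x ∉ Subgroup.zpowers c.p) :
    ∃ h ∈ c.H, h * e * h⁻¹ = c.p ∨ h * e * h⁻¹ = x := by
  classical
  haveI : Fact (Nat.Prime 3) := ⟨Nat.prime_three⟩
  obtain ⟨h, hh, hC⟩ := c.exists_conj_C he h3
  set e' := h * e * h⁻¹ with he'
  have he3 : orderOf e' = 3 := by
    rw [he', show h * e * h⁻¹ = MulAut.conj h e from rfl, MulEquiv.orderOf_eq, h3]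
  have hcomp : ∀ {g t : G}, g ∈ c.H → g * e' * g⁻¹ = t → g * h ∈ c.H ∧ g * h * e * (g * h)⁻¹ = t :=
    fun {g t} hg e1 => ⟨mul_mem hg hh, by rw [← e1, he']; group⟩
  by_cases hp : e' ∈ Subgroup.zpowers c.p
  · rw [mem_zpowers_iff_mem_range_orderOf, c.orderOf_p] at hp
    obtain ⟨i, hi, hie⟩ := Finset.mem_image.1 hp
    rw [Finset.mem_range] at hi
    interval_cases i
    · exact absurd (hie.symm.trans (pow_zero _)) (three_ne_one he3)
    · exact ⟨h, hh, Or.inl (hie.symm.trans (pow_one _))⟩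
    · obtain ⟨g, hg⟩ := c.exists_inverter
      have hg' : (g : G) * c.p * (g : G)⁻¹ = c.p⁻¹ := congrArg Subtype.val hg
      obtain ⟨h1, h2⟩ := hcomp (t := c.p) g.2 (by
        rw [← hie, ← conj_pow, hg', inv_pow]
        exact inv_eq_of_mul_eq_one_right (by rw [← pow_succ]; exact c.p_cube))
      exact ⟨_, h1, Or.inl h2⟩
  · have hs : ∀ {y : G} (hy : y ∈ c.C), orderOf y = 3 → y ∉ Subgroup.zpowers c.p →
        orderOf (c.sig ⟨y, hy⟩) = 3 := fun {y} hy hy3 hyp =>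
      orderOf_eq_prime (by
        rw [← map_pow, show (⟨y, hy⟩ : c.C) ^ 3 = 1 from Subtype.ext (three_cube hy3), map_one])
        fun e1 => hyp (c.mem_zpowers_p_of_sig hy e1 (by decide) (three_cube hy3))
    obtain ⟨m, hm⟩ := M22.exists_conj_three (hs hC he3 hp) (hs hx hx3 hxp)
    obtain ⟨g, rfl⟩ := c.sig_surjective m
    have hx' : (g : G) * e' * (g : G)⁻¹ ∈ c.C := mul_mem (mul_mem g.2 hC) (inv_mem g.2)
    set x' := (g : G) * e' * (g : G)⁻¹
    have hk : x⁻¹ * x' ∈ c.C := mul_mem (inv_mem hx) hx'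
    have hsk : c.sig ⟨x⁻¹ * x', hk⟩ = 1 := by
      rw [show (⟨x⁻¹ * x', hk⟩ : c.C) = ⟨x, hx⟩⁻¹ * (g * ⟨e', hC⟩ * g⁻¹) from rfl, map_mul,
        map_inv, map_mul, map_mul, map_inv, hm, inv_mul_cancel]
    have hkc : Commute (x⁻¹ * x') x := mem_cz.1 <| (sup_le
      (Subgroup.zpowers_le.2 (mem_cz.2 (c.commute_z hx.1).symm))
      (Subgroup.zpowers_le.2 (mem_cz.2 (c.mem_C.1 hx).2.symm)) :
        Subgroup.zpowers c.z ⊔ Subgroup.zpowers c.p ≤ Subgroup.centralizer ({x} : Set G))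
      (c.sig_eq_one.1 hsk)
    have hk3 : (x⁻¹ * x') ^ 3 = 1 := by
      have e1 : x'  = x * (x⁻¹ * x') := (mul_inv_cancel_left _ _).symm
      have e2 : x' ^ 3 = 1 := by simp only [x', conj_pow, three_cube he3, mul_one, mul_inv_cancel]
      rwa [e1, hkc.symm.mul_pow, three_cube hx3, one_mul] at e2
    have hkp := c.mem_zpowers_p_of_sig hk hsk (by decide) hk3
    rw [mem_zpowers_iff_mem_range_orderOf, c.orderOf_p] at hkp
    obtain ⟨i, hi, hie⟩ := Finset.mem_image.1 hkp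
    rw [Finset.mem_range] at hi
    have hx'i : x' = x * c.p ^ i := by rw [hie, mul_inv_cancel_left]
    obtain ⟨r, hr, hrx⟩ := c.conj_mul_p hx hx3 hxp
    have hrp : r * c.p * r⁻¹ = c.p := mul_inv_eq_iff_eq_mul.2 (c.mem_C.1 hr).2.eq
    interval_cases i
    · obtain ⟨h1, h2⟩ := hcomp (t := x) g.2.1 (by rw [pow_zero, mul_one] at hx'i; exact hx'i)
      exact ⟨_, h1, Or.inr h2⟩
    · obtain ⟨h1, h2⟩ := hcomp (t := x) (mul_mem (inv_mem hr.1) g.2.1) (by
        calc r⁻¹ * (g : G) * e' * (r⁻¹ * (g : G))⁻¹ = r⁻¹ * x' * r := by simp only [x']; group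
          _ = r⁻¹ * (r * x * r⁻¹) * r := by rw [hx'i, pow_one, hrx]
          _ = x := by group)
      exact ⟨_, h1, Or.inr h2⟩
    · obtain ⟨h1, h2⟩ := hcomp (t := x) (mul_mem hr.1 g.2.1) (by
        calc r * (g : G) * e' * (r * (g : G))⁻¹ = r * x' * r⁻¹ := by simp only [x']; group
          _ = r * x * r⁻¹ * (r * c.p * r⁻¹) ^ 2 := by rw [hx'i, conj_pow]; group
          _ = x * c.p ^ 3 := by rw [hrx, hrp]; group
          _ = x := by rw [c.p_cube, mul_one])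
      exact ⟨_, h1, Or.inr h2⟩

theorem exists_conj_p (hA : c.FactA) {x : G} (hx : x ∈ c.C) (hx3 : orderOf x = 3)
    (hxp : x ∉ Subgroup.zpowers c.p) : ∃ g : G, g * x * g⁻¹ = c.p := by
  obtain ⟨a, ha, hne, hcj⟩ := hA
  obtain ⟨g, hg⟩ := isConj_iff.1 hcj
  set y := g⁻¹ * c.p * g with hy'
  have hy : y ∈ c.H := by
    rw [mem_cz]
    have h : a * c.p = c.p * a := (c.mem_C.1 ha).2.eq
    rw [← hg] at h
    calc y * c.z = g⁻¹ * (c.p * (g * c.z * g⁻¹)) * g := by simp only [y]; group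
      _ = g⁻¹ * (g * c.z * g⁻¹ * c.p) * g := by rw [h]
      _ = c.z * y := by simp only [y]; group
  have hy3 : orderOf y = 3 := by
    have : y = MulAut.conj g⁻¹ c.p := by simp [y]
    rw [this, MulEquiv.orderOf_eq, c.orderOf_p]
  obtain ⟨h, hh, hor⟩ := c.exists_conj_or_xtype hy hy3 hx hx3 hxp
  rcases hor with e | e
  · exfalso
    have hgz : g * h⁻¹ * c.z * (g * h⁻¹)⁻¹ = a := by
      have hc : h⁻¹ * c.z = c.z * h⁻¹ := (mem_cz.1 (inv_mem hh)).eq
      rw [mul_assoc g, hc, ← hg]; group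
    have hp : g * h⁻¹ * c.p * (g * h⁻¹)⁻¹ = c.p := by
      calc g * h⁻¹ * c.p * (g * h⁻¹)⁻¹ = g * h⁻¹ * (h * y * h⁻¹) * (g * h⁻¹)⁻¹ := by rw [e]
        _ = c.p := by simp only [y]; group
    refine hne ?_
    rw [← hgz]
    exact c.weak_closed (g := g * h⁻¹) (hgz.symm ▸ ha) (hp.symm ▸ Subgroup.mem_zpowers _)
  · exact ⟨g * h⁻¹, by rw [← e, hy']; group⟩

/-- The element of `C` with trivial odd power has image of odd order. -/
theorem odd_normal_le_p {N : Subgroup G} (hN : N ≤ c.C) (ho : Odd (Nat.card N))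
    (hn : ∀ y ∈ c.C, ∀ a ∈ N, y * a * y⁻¹ ∈ N) : N ≤ Subgroup.zpowers c.p := by
  haveI := CfsgLib.Mathieu.isSimpleGroup_M22
  haveI hNn : (N.subgroupOf c.C).Normal := ⟨fun a ha y => hn y y.2 a ha⟩
  have hpow : ∀ {a : G}, a ∈ N → a ^ Nat.card N = 1 := fun {a} ha =>
    congrArg Subtype.val (pow_card_eq_one' (x := (⟨a, ha⟩ : N)))
  rcases IsSimpleGroup.eq_bot_or_eq_top_of_normal _
      (Subgroup.Normal.map hNn c.sig c.sig_surjective) with h | h
  · intro a ha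
    refine c.mem_zpowers_p_of_sig (hN ha) ?_ ho (hpow ha)
    have hm : c.sig ⟨a, hN ha⟩ ∈ (N.subgroupOf c.C).map c.sig := ⟨⟨a, hN ha⟩, ha, rfl⟩
    rwa [h, Subgroup.mem_bot] at hm
  · exfalso
    have hd := Subgroup.card_map_dvd (N.subgroupOf c.C) c.sig
    rw [h, Subgroup.card_top, CfsgLib.Mathieu.card_M22,
      Nat.card_congr (Subgroup.subgroupOfEquivOfLe hN).toEquiv] at hd
    exact Nat.not_even_iff_odd.2 ho (even_iff_two_dvd.2 ((by norm_num : 2 ∣ 443520).trans hd))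

/-- The elements of a Sylow subgroup commuting with a non-central element. -/
theorem mem_sup_of_commute {x u : G} (hx : x ∈ c.C) (hx3 : orderOf x = 3)
    (hxp : x ∉ Subgroup.zpowers c.p) (hu : u ∈ c.C) {k : ℕ} (hu3 : u ^ 3 ^ k = 1)
    (hux : Commute u x) : ∃ i j : ℤ, u = x ^ i * c.p ^ j := by
  haveI : Fact (Nat.Prime 3) := ⟨Nat.prime_three⟩
  have h1 : IsPGroup 3 ↥(Subgroup.zpowers u) := by
    obtain ⟨m, -, hm⟩ := (Nat.dvd_prime_pow Nat.prime_three).1 (orderOf_dvd_of_pow_eq_one hu3)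
    exact IsPGroup.of_card (n := m) (by rw [Nat.card_zpowers, hm])
  have h2 : IsPGroup 3 ↥(Subgroup.zpowers x) :=
    IsPGroup.of_card (n := 1) (by rw [Nat.card_zpowers, hx3, pow_one])
  have hnorm : Subgroup.zpowers u ≤ Subgroup.normalizer (Subgroup.zpowers x : Set G) := by
    refine Subgroup.zpowers_le.2 (Subgroup.centralizer_le_normalizer _ ?_)
    refine Subgroup.mem_centralizer_iff.2 fun y hy => ?_
    obtain ⟨i, rfl⟩ := hy
    exact ((hux.zpow_right i).symm).eq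
  obtain ⟨R, hR, hRC, hpR, hR27, -, hmove⟩ := c.exists_three_sylow
    (sup_le (Subgroup.zpowers_le.2 hu) (Subgroup.zpowers_le.2 hx))
    (IsPGroup.to_sup_of_normal_right' h1 h2 hnorm)
  have hxR : x ∈ R := hR (Subgroup.mem_sup_right (Subgroup.mem_zpowers _))
  have huR : u ∈ R := hR (Subgroup.mem_sup_left (Subgroup.mem_zpowers _))
  have hcomm : ∀ (a : Multiplicative ℤ) (b : Multiplicative ℤ),
      Commute (zpowersHom G x a) (zpowersHom G c.p b) := fun a b => by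
    rw [zpowersHom_apply, zpowersHom_apply]
    exact ((c.mem_C.1 hx).2.zpow_left _).zpow_right _
  set A : Subgroup G := ((zpowersHom G x).noncommCoprod (zpowersHom G c.p) hcomm).range
  have hA : ∀ {i j : ℤ}, x ^ i * c.p ^ j ∈ A := fun {i j} =>
    ⟨(Multiplicative.ofAdd i, Multiplicative.ofAdd j), by simp⟩
  set S := R ⊓ Subgroup.centralizer ({x} : Set G)
  have hAS : A ≤ S := by
    rintro _ ⟨⟨a, b⟩, rfl⟩
    rw [MonoidHom.noncommCoprod_apply, zpowersHom_apply, zpowersHom_apply]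
    have hxS : x ∈ S := ⟨hxR, mem_cz.2 (Commute.refl x)⟩
    have hpS : c.p ∈ S := ⟨hpR, mem_cz.2 (c.mem_C.1 hx).2.symm⟩
    exact mul_mem (zpow_mem hxS _) (zpow_mem hpS _)
  have hS : Nat.card S ∣ 3 ^ 3 := by
    have := Subgroup.card_dvd_of_le (inf_le_left : S ≤ R)
    rw [hR27] at this
    exact this
  have hS27 : Nat.card S ≠ 3 ^ 3 := fun e => by
    obtain ⟨r, hr, hrx⟩ := hmove x hxR hxp
    have : S = R := Subgroup.eq_of_le_of_card_ge inf_le_left (by rw [e, hR27]; norm_num)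
    exact hrx (mem_cz.1 ((this.symm ▸ hr : r ∈ S).2))
  obtain ⟨n, hn3, hn⟩ := (Nat.dvd_prime_pow Nat.prime_three).1 hS
  have hn2 : n ≤ 2 := by
    by_contra h
    exact hS27 (by rw [hn, show n = 3 by omega])
  obtain ⟨a, ha3, ha⟩ := (Nat.dvd_prime_pow Nat.prime_three).1
    ((Subgroup.card_dvd_of_le hAS).trans hS)
  have ha2 : 2 ≤ a := by
    by_contra h
    have hle : Subgroup.zpowers c.p ≤ A :=
      Subgroup.zpowers_le.2 (by simpa using hA (i := 0) (j := 1))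
    have heq : Subgroup.zpowers c.p = A := Subgroup.eq_of_le_of_card_ge hle (by
      rw [ha, Nat.card_zpowers, c.orderOf_p]
      exact (Nat.pow_le_pow_right (by norm_num) (by omega : a ≤ 1)).trans (by norm_num))
    exact hxp (heq.symm ▸ (by simpa using hA (i := 1) (j := 0)))
  have hAeq : A = S := Subgroup.eq_of_le_of_card_ge hAS (by
    rw [hn, ha]; exact Nat.pow_le_pow_right (by norm_num) (hn2.trans ha2))
  obtain ⟨⟨i, j⟩, hij⟩ := (hAeq.symm ▸ ⟨huR, mem_cz.2 hux⟩ : u ∈ A)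
  refine ⟨i.toAdd, j.toAdd, hij.symm.trans ?_⟩
  simp

/-- A power of `p` fixing a nontrivial vector of the module is trivial. -/
theorem zpow_p_eq_one_of_fix {e : G} (he : e ∈ c.E) (h1 : e ≠ 1) (hz : e ≠ c.z) {j : ℤ}
    (hfix : c.p ^ j * e * (c.p ^ j)⁻¹ * e⁻¹ ∈ Subgroup.zpowers c.z) : c.p ^ j = 1 := by
  classical
  have hj : c.p ^ j ∈ Subgroup.zpowers c.p := ⟨j, rfl⟩
  rw [mem_zpowers_iff_mem_range_orderOf, c.orderOf_p] at hj
  obtain ⟨i, hi, hie⟩ := Finset.mem_image.1 hj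
  rw [Finset.mem_range] at hi
  have hqi : ∀ k : ℕ, c.qE (c.normal_E (pow_mem c.p_mem_H k) he) =
      c.setup.rep.act (c.setup.rep.p ^ k) (c.qE he) := by
    intro k
    induction k with
    | zero =>
      rw [pow_zero c.setup.rep.p, map_one]
      exact congrArg (fun t : ↥c.E => c.qE t.2) (Subtype.ext (by simp) :
        (⟨c.p ^ 0 * e * (c.p ^ 0)⁻¹, c.normal_E (pow_mem c.p_mem_H 0) he⟩ : c.E) = ⟨e, he⟩)
    | succ k ih =>
      rw [pow_succ' c.setup.rep.p, map_mul, MulAut.mul_apply, ← ih, show c.setup.rep.p = c.toX c.p_mem_C from rfl,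
        c.act_qE]
      exact congrArg (fun t : ↥c.E => c.qE t.2) (Subtype.ext (by group) :
        (⟨_, c.normal_E (pow_mem c.p_mem_H (k + 1)) he⟩ : c.E) =
          ⟨c.p * (c.p ^ k * e * (c.p ^ k)⁻¹) * c.p⁻¹,
            c.normal_E c.p_mem_H (c.normal_E (pow_mem c.p_mem_H k) he)⟩)
  have hfix' : c.setup.rep.act (c.setup.rep.p ^ i) (c.qE he) = c.qE he := by
    rw [← hqi]
    have h := c.normal_E (pow_mem c.p_mem_H i) he
    rw [← hie] at hfix
    have e1 : c.qE (mul_mem h (inv_mem he)) = 1 :=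
      (c.qE_eq_one _).2 (c.mem_zpowers_z.1 hfix)
    rwa [c.qE_mul h (inv_mem he), c.qE_inv he, mul_inv_eq_one] at e1
  have hne : c.qE he ≠ 1 := fun h => ((c.qE_eq_one he).1 h).elim h1 hz
  interval_cases i
  · rw [← hie, pow_zero]
  · exact absurd (c.setup.rep.fpf _ (by rwa [pow_one] at hfix')) hne
  · refine absurd (c.setup.rep.fpf _ ?_) hne
    conv_lhs => rw [← hfix']
    rw [← MulAut.mul_apply, ← map_mul, ← pow_succ', c.setup.rep.cube, map_one, MulAut.one_apply]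

theorem odd_normal_le_x {x : G} (hx : x ∈ c.C) (hx3 : orderOf x = 3)
    (hxp : x ∉ Subgroup.zpowers c.p) {N : Subgroup G}
    (hN : N ≤ c.H ⊓ Subgroup.centralizer ({x} : Set G)) (ho : Odd (Nat.card N))
    (hn : ∀ y ∈ c.H, Commute y x → ∀ a ∈ N, y * a * y⁻¹ ∈ N) : N ≤ Subgroup.zpowers x := by
  intro n hnN
  have hnH : n ∈ c.H := (hN hnN).1
  have hnx : Commute n x := mem_cz.1 (hN hnN).2
  have hnpow : n ^ Nat.card N = 1 :=
    congrArg Subtype.val (pow_card_eq_one' (x := (⟨n, hnN⟩ : N)))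
  set D := c.E ⊓ Subgroup.centralizer ({x} : Set G)
  have hD : ∀ d ∈ D, Commute d n := by
    intro d hd
    set q := d * n * d⁻¹ * n⁻¹
    have hdx : Commute d x := mem_cz.1 hd.2
    have hqN : q ∈ N := mul_mem (hn d (c.E_le hd.1) hdx n hnN) (inv_mem hnN)
    have hqE : q ∈ c.E := c.commutator_mem_E hnH hd.1
    have hco : (Nat.card c.E).Coprime (Nat.card N) := by
      rw [c.card_E]; exact Nat.Coprime.pow_left 13 (Nat.coprime_two_left.2 ho)
    have h1 : q ^ Nat.card c.E = 1 :=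
      congrArg Subtype.val (pow_card_eq_one' (x := (⟨q, hqE⟩ : c.E)))
    have h2 : q ^ Nat.card N = 1 :=
      congrArg Subtype.val (pow_card_eq_one' (x := (⟨q, hqN⟩ : N)))
    have : q = 1 := by
      have := pow_gcd_eq_one.2 (⟨h1, h2⟩ : q ^ Nat.card c.E = 1 ∧ q ^ Nat.card N = 1)
      rwa [hco.gcd_eq_one, pow_one] at this
    exact mul_inv_eq_iff_eq_mul.1 (mul_inv_eq_one.1 this)
  -- the image is inner
  have hinn : c.pi ⟨n, hnH⟩ ∈ (MulAut.conj : M →* MulAut M).range := by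
    obtain ⟨m, hm⟩ := ho
    have e : c.pi ⟨n, hnH⟩ = c.pi ⟨n, hnH⟩ ^ (2 * (m + 1)) := by
      have h1 : c.pi ⟨n, hnH⟩ ^ Nat.card N = 1 := by
        rw [← map_pow, show (⟨n, hnH⟩ : c.H) ^ Nat.card N = 1 from Subtype.ext hnpow, map_one]
      rw [show 2 * (m + 1) = Nat.card N + 1 by omega, pow_succ, h1, one_mul]
    rw [e, pow_mul]
    exact pow_mem (Subgroup.sq_mem_of_index_two inn_index _) _
  obtain ⟨m, hm⟩ := hinn
  obtain ⟨⟨y, hy⟩, hym⟩ := c.sig_surjective m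
  have hk : (⟨y, hy.1⟩ : c.H)⁻¹ * ⟨n, hnH⟩ ∈ c.pi.ker := by
    rw [MonoidHom.mem_ker, map_mul, map_inv, ← hm, ← hym, c.conj_sig ⟨y, hy⟩, inv_mul_cancel]
  obtain ⟨i, hi⟩ := c.ker_pi_E hk
  have hi' : y⁻¹ * n * c.p ^ i ∈ c.E := hi
  set y' := y * (c.p ^ i)⁻¹
  have hy' : y' ∈ c.C := mul_mem hy (inv_mem (zpow_mem c.p_mem_C i))
  set e := c.p ^ i * (y⁻¹ * n * c.p ^ i) * (c.p ^ i)⁻¹
  have he : e ∈ c.E := c.normal_E (zpow_mem c.p_mem_H i) hi'
  have hne : n = y' * e := by simp only [y', e]; group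
  -- both factors commute with `x`
  set q := y'⁻¹ * x * y' * x⁻¹
  have hqC : q ∈ c.C := mul_mem (mul_mem (mul_mem (inv_mem hy') hx) hy') (inv_mem hx)
  have hex : e * x * e⁻¹ * x⁻¹ = q := by
    have h : n * x * n⁻¹ = x := mul_inv_eq_iff_eq_mul.2 hnx.eq
    rw [hne] at h
    calc e * x * e⁻¹ * x⁻¹ = y'⁻¹ * (y' * e * x * (y' * e)⁻¹) * y' * x⁻¹ := by group
      _ = q := by rw [h]
  have hq1 : q = 1 := by
    have hz := c.eq_of_mem_E_C (hex ▸ c.commutator_mem_E hx.1 he) hqC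
    refine c.eq_one_of_cube ?_ hz
    have hqx : Commute q x := by
      rcases hz with h | h <;> rw [h]
      · exact Commute.one_left x
      · exact (c.commute_z hx.1).symm
    have h3 : (q * x) ^ 3 = 1 := by
      rw [show q * x = y'⁻¹ * x * y'⁻¹⁻¹ by simp only [q]; group, conj_pow, three_cube hx3]
      group
    rwa [hqx.mul_pow, three_cube hx3, mul_one] at h3
  have hey : Commute e x := mul_inv_eq_iff_eq_mul.1 (mul_inv_eq_one.1 (hex.trans hq1))
  have hyx : Commute y' x := by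
    have : y'⁻¹ * x * y' = x := mul_inv_eq_one.1 hq1
    show y' * x = x * y'
    conv_rhs => rw [← mul_inv_cancel_left y' (x * y')]
    rw [← mul_assoc y'⁻¹, this]
  have heD : e ∈ D := ⟨he, mem_cz.2 hey⟩
  -- the inner factor
  have hypow : c.sig ⟨y', hy'⟩ ^ Nat.card N = 1 := by
    refine conj_injective_M ?_
    rw [map_pow, map_one, c.conj_sig, ← map_pow]
    have : c.pi ⟨n, hnH⟩ = c.pi ⟨y', hy'.1⟩ := by
      rw [show (⟨n, hnH⟩ : c.H) = ⟨y', hy'.1⟩ * ⟨e, c.E_le he⟩ from Subtype.ext hne, map_mul,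
        c.pi_of_mem_E he, mul_one]
    rw [map_pow, ← this, ← map_pow, show (⟨n, hnH⟩ : c.H) ^ Nat.card N = 1 from
      Subtype.ext hnpow, map_one]
  have hsx : orderOf (c.sig ⟨x, hx⟩) = 3 := orderOf_eq_prime (by
      rw [← map_pow, show (⟨x, hx⟩ : c.C) ^ 3 = 1 from Subtype.ext (three_cube hx3), map_one])
    fun e1 => hxp (c.mem_zpowers_p_of_sig hx e1 (by decide) (three_cube hx3))
  have hord : c.sig ⟨y', hy'⟩ ^ 9 = 1 := by
    have hc : c.sig ⟨y', hy'⟩ ∈ Subgroup.centralizer ({c.sig ⟨x, hx⟩} : Set M) :=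
      Subgroup.mem_centralizer_singleton_iff.2 (by
        rw [← map_mul, ← map_mul]
        exact congrArg c.sig (Subtype.ext hyx.eq))
    have h36 : orderOf (c.sig ⟨y', hy'⟩) ∣ 4 * 9 := by
      have := Subgroup.orderOf_dvd_natCard _ hc
      rwa [M22.card_cent_three hsx] at this
    have hodd : Odd (orderOf (c.sig ⟨y', hy'⟩)) :=
      ho.of_dvd_nat (orderOf_dvd_of_pow_eq_one hypow)
    exact orderOf_dvd_iff_pow_eq_one.1 (((Nat.coprime_two_left.2 hodd).symm.pow_right 2 :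
      Nat.Coprime _ 4).dvd_of_dvd_mul_left h36)
  -- up to the kernel, a 3-element
  set u := y' ^ 28
  have hu : u ∈ c.C := pow_mem hy' 28
  have hu27 : u ^ 3 ^ 3 = 1 := by
    have hy9 : c.sig ⟨y' ^ 9, pow_mem hy' 9⟩ = 1 := by
      rw [show (⟨y' ^ 9, pow_mem hy' 9⟩ : c.C) = ⟨y', hy'⟩ ^ 9 from rfl, map_pow, hord]
    obtain ⟨k, hk⟩ := c.setup.rep.exists_pow ((c.proj_toX (pow_mem hy' 9)).trans hy9)
    have h3 : c.toX (pow_mem (pow_mem hy' 9) 3) = 1 := by
      rw [show c.toX (pow_mem (pow_mem hy' 9) 3) = c.toX (pow_mem hy' 9) ^ 3 from rfl, hk,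
        ← zpow_natCast, ← zpow_mul, mul_comm, zpow_mul, zpow_natCast, c.setup.rep.cube, one_zpow]
    have h54 : y' ^ 54 = 1 := by
      rcases (c.toX_eq_one _).1 h3 with h | h
      · rw [show 54 = 9 * 3 * 2 by rfl, pow_mul, pow_mul, h, one_pow]
      · rw [show 54 = 9 * 3 * 2 by rfl, pow_mul, pow_mul, h, pow_two, c.z_mul_self]
    rw [← pow_mul, show 28 * 3 ^ 3 = 54 * 14 by rfl, pow_mul, h54, one_pow]
  obtain ⟨a, b, hab⟩ := c.mem_sup_of_commute hx hx3 hxp hu hu27 (hyx.pow_left 28)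
  have hxa : x ^ a ∈ c.C := zpow_mem hx a
  have hsig : c.sig ⟨y', hy'⟩ = c.sig ⟨x ^ a, hxa⟩ := by
    have h1 : c.sig ⟨u, hu⟩ = c.sig ⟨y', hy'⟩ := by
      rw [show (⟨u, hu⟩ : c.C) = ⟨y', hy'⟩ ^ 28 from rfl, map_pow,
        show 28 = 9 * 3 + 1 by rfl, pow_succ, pow_mul, hord, one_pow, one_mul]
    have hp1 : c.sig ⟨c.p ^ b, zpow_mem c.p_mem_C b⟩ = 1 :=
      c.sig_eq_one.2 (Subgroup.mem_sup_right ⟨b, rfl⟩)
    rw [← h1, show (⟨u, hu⟩ : c.C) = ⟨x ^ a, hxa⟩ * ⟨c.p ^ b, zpow_mem c.p_mem_C b⟩ from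
      Subtype.ext hab, map_mul, hp1, mul_one]
  set k := (x ^ a)⁻¹ * y'
  have hk : k ∈ c.C := mul_mem (inv_mem hxa) hy'
  have hks : c.sig ⟨k, hk⟩ = 1 := by
    rw [show (⟨k, hk⟩ : c.C) = ⟨x ^ a, hxa⟩⁻¹ * ⟨y', hy'⟩ from rfl, map_mul, map_inv, hsig,
      inv_mul_cancel]
  obtain ⟨j, hj⟩ := c.setup.rep.exists_pow ((c.proj_toX hk).trans hks)
  have hpj : c.p ^ j ∈ c.C := zpow_mem c.p_mem_C j
  have hkz : k * (c.p ^ j)⁻¹ ∈ Subgroup.zpowers c.z := by
    let φ : c.C →* c.setup.X :=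
      { toFun := fun x => c.toX x.2, map_one' := (c.toX_eq_one _).2 (Or.inl rfl),
        map_mul' := fun a b => c.toX_mul a.2 b.2 }
    have h1 : φ (⟨k, hk⟩ * (⟨c.p, c.p_mem_C⟩ ^ j)⁻¹) = 1 := by
      rw [map_mul, map_inv, map_zpow]
      show c.toX hk * (c.setup.rep.p ^ j)⁻¹ = 1
      rw [hj, mul_inv_cancel]
    exact c.mem_zpowers_z.2 ((c.toX_eq_one _).1 h1)
  -- the power of `p` is trivial
  obtain ⟨d, hdD, hd1, hdz⟩ : ∃ d ∈ D, d ≠ 1 ∧ d ≠ c.z := by
    by_contra hno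
    push Not at hno
    have hsub : (D : Set G) ⊆ ({1, c.z} : Set G) := fun d hd => by
      by_cases h : d = 1
      · exact Or.inl h
      · exact Or.inr (hno d hd h)
    have h2 := Set.ncard_le_ncard hsub (Set.toFinite _)
    rw [← Nat.card_coe_set_eq] at h2
    have h3 : ({1, c.z} : Set G).ncard ≤ 2 :=
      (Set.ncard_insert_le _ _).trans (by rw [Set.ncard_singleton])
    have h32 : Nat.card D = 32 := c.card_E_cent_three hx hx3 hxp
    change Nat.card D ≤ _ at h2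
    omega
  obtain ⟨w, hw, hwdef⟩ : ∃ w, w ∈ Subgroup.zpowers c.z ∧ n = x ^ a * w * c.p ^ j * e := by
    refine ⟨k * (c.p ^ j)⁻¹, hkz, ?_⟩
    rw [hne]; simp only [k]; group
  have hwc : ∀ g ∈ c.H, Commute w g := fun g hg => by
    rcases c.mem_zpowers_z.1 hw with h | h <;> rw [h]
    · exact Commute.one_left g
    · exact (c.commute_z hg).symm
  have hpj1 : c.p ^ j = 1 := by
    refine c.zpow_p_eq_one_of_fix hdD.1 hd1 hdz ?_
    have hpe : Commute (x ^ a * w) (c.p ^ j * d * (c.p ^ j)⁻¹) := by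
      have hmem : c.p ^ j * d * (c.p ^ j)⁻¹ ∈ c.H := c.E_le (c.normal_E (zpow_mem c.p_mem_H j) hdD.1)
      refine Commute.mul_left ?_ (hwc _ hmem)
      have hxp' : Commute x (c.p ^ j) := (c.mem_C.1 hx).2.zpow_right j
      exact (((hxp'.mul_right (mem_cz.1 hdD.2).symm).mul_right hxp'.inv_right)).zpow_left a
    -- conjugating `d` by `n`
    have h1 : n * d * n⁻¹ = d := mul_inv_eq_iff_eq_mul.2 (hD d hdD).symm.eq
    have hde : e * d * e⁻¹ = (e * d * e⁻¹ * d⁻¹) * d := (inv_mul_cancel_right _ _).symm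
    have hcz : e * d * e⁻¹ * d⁻¹ ∈ Subgroup.zpowers c.z :=
      c.mem_zpowers_z.2 (c.commE he hdD.1)
    set t := e * d * e⁻¹ * d⁻¹
    have htc : ∀ g ∈ c.H, Commute t g := fun g hg => by
      rcases c.mem_zpowers_z.1 hcz with h | h <;> rw [h]
      · exact Commute.one_left g
      · exact (c.commute_z hg).symm
    have h2 : n * d * n⁻¹ = t * (c.p ^ j * d * (c.p ^ j)⁻¹) := by
      rw [hwdef]
      calc x ^ a * w * c.p ^ j * e * d * (x ^ a * w * c.p ^ j * e)⁻¹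
          = x ^ a * w * (c.p ^ j * (e * d * e⁻¹) * (c.p ^ j)⁻¹) * (x ^ a * w)⁻¹ := by group
        _ = x ^ a * w * (t * (c.p ^ j * d * (c.p ^ j)⁻¹)) * (x ^ a * w)⁻¹ := by
            rw [hde, ← mul_assoc (c.p ^ j) t d,
              ← (htc _ (zpow_mem c.p_mem_H j)).eq]
            group
        _ = t * (c.p ^ j * d * (c.p ^ j)⁻¹) := by
            have hxw : x ^ a * w ∈ c.H :=
              Subgroup.mul_mem _ (Subgroup.zpow_mem _ hx.1 a) (Subgroup.zpowers_le.2 c.z_mem_H hw)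
            rw [((htc _ hxw).symm.mul_right hpe).eq, mul_inv_cancel_right]
    rw [h1] at h2
    have : c.p ^ j * d * (c.p ^ j)⁻¹ * d⁻¹ = t⁻¹ := by
      conv_lhs => rw [show c.p ^ j * d * (c.p ^ j)⁻¹ = t⁻¹ * d from eq_inv_mul_iff_mul_eq.2 h2.symm]
      rw [mul_inv_cancel_right]
    rw [this]; exact inv_mem hcz
  -- the remaining factor is trivial
  rw [hpj1, mul_one, mul_assoc] at hwdef
  have hwe : w * e ∈ c.E := mul_mem (Subgroup.zpowers_le.2 c.z_mem_E hw) he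
  have hcxe : Commute (x ^ a) (w * e) :=
    (((hwc x hx.1).symm).mul_right hey.symm).zpow_left a
  have h2 : (w * e) ^ (Nat.card N * 3) = 1 := by
    have h1 : n ^ (Nat.card N * 3) = 1 := by rw [pow_mul, hnpow, one_pow]
    rw [hwdef, hcxe.mul_pow, ← zpow_natCast (x ^ a), ← zpow_mul,
      show a * ((Nat.card N * 3 : ℕ) : ℤ) = ((3 : ℕ) : ℤ) * (a * Nat.card N) by push_cast; ring,
      zpow_mul, zpow_natCast, three_cube hx3, one_zpow, one_mul] at h1
    exact h1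
  have h3 : (w * e) ^ Nat.card c.E = 1 :=
    congrArg Subtype.val (pow_card_eq_one' (x := (⟨w * e, hwe⟩ : c.E)))
  have h4 := pow_gcd_eq_one.2 (⟨h3, h2⟩ : (w * e) ^ Nat.card c.E = 1 ∧ (w * e) ^ (Nat.card N * 3) = 1)
  have hco : (Nat.card c.E).Coprime (Nat.card N * 3) := by
    rw [c.card_E]
    exact Nat.Coprime.pow_left 13 ((Nat.coprime_two_left.2 ho).mul_right (by norm_num))
  rw [hco.gcd_eq_one, pow_one] at h4
  exact ⟨a, by rw [hwdef, h4, mul_one]⟩

theorem odd_normal_le {x : G} (hx : x ∈ c.H) (hx3 : orderOf x = 3) {N : Subgroup G}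
    (hN : N ≤ c.H ⊓ Subgroup.centralizer ({x} : Set G)) (ho : Odd (Nat.card N))
    (hn : ∀ y ∈ c.H, Commute y x → ∀ a ∈ N, y * a * y⁻¹ ∈ N) : N ≤ Subgroup.zpowers x := by
  obtain ⟨x₀, hx₀, hx₀3, hx₀p⟩ := c.exists_xtype
  obtain ⟨h, hh, hor⟩ := c.exists_conj_or_xtype hx hx3 hx₀ hx₀3 hx₀p
  have back : ∀ {t : G}, h * x * h⁻¹ = t →
      (∀ N' : Subgroup G, N' ≤ c.H ⊓ Subgroup.centralizer ({t} : Set G) → Odd (Nat.card N') →
        (∀ y ∈ c.H, Commute y t → ∀ a ∈ N', y * a * y⁻¹ ∈ N') → N' ≤ Subgroup.zpowers t) →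
      N ≤ Subgroup.zpowers x := by
    intro t ht hcase a ha
    have key := hcase (conjS h N) (fun y hy => ?_) (by rwa [card_conjS])
      (fun y hy hyt a ha => ?_) (x := h * a * h⁻¹) (by rw [mem_conjS]; simpa [mul_assoc] using ha)
    · obtain ⟨i, hi⟩ := key
      refine ⟨i, ?_⟩
      have hi' : t ^ i = h * a * h⁻¹ := hi
      rw [← ht, conj_zpow] at hi'
      exact mul_left_cancel (mul_right_cancel hi')
    · rw [mem_conjS] at hy
      have e : y = h * (h⁻¹ * y * h) * h⁻¹ := by group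
      rw [e]
      refine Subgroup.mem_inf.2 ⟨mul_mem (mul_mem hh (hN hy).1) (inv_mem hh), mem_cz.2 ?_⟩
      rw [← ht]
      exact (Commute.conj_iff h).2 (mem_cz.1 (hN hy).2)
    · rw [mem_conjS] at ha ⊢
      rw [show h⁻¹ * (y * a * y⁻¹) * h = h⁻¹ * y * h * (h⁻¹ * a * h) * (h⁻¹ * y * h)⁻¹ by group]
      refine hn _ (mul_mem (mul_mem (inv_mem hh) hy) hh) ?_ _ ha
      refine (Commute.conj_iff h).1 ?_
      rw [ht, show h * (h⁻¹ * y * h) * h⁻¹ = y by group]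
      exact hyt
  rcases hor with e | e
  · refine back e fun N' h1 h2 h3 => c.odd_normal_le_p (fun y hy => c.mem_C.2
      ⟨mem_cz.1 (h1 hy).1, mem_cz.1 (h1 hy).2⟩) h2 fun y hy => h3 y hy.1 (c.mem_C.1 hy).2
  · exact back e fun N' h1 h2 h3 => c.odd_normal_le_x hx₀ hx₀3 hx₀p h1 h2 h3

end CfsgLib.Jf18.Ctx
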