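import Cfsg.Agent.Jf18.M22
import Cfsg.Agent.Jf18.Invol
import Cfsg.Agent.Jf18.Three
import Cfsg.Agent.Jf18.ThreeInvol
import Cfsg.Agent.ZStar.Theorem
import Cfsg.Agent.Signalizer.Hyperplane
import Cfsg.Agent.PLength.One
import Cfsg.Prelude.Def_Spor_Mathieu

/-!
The centraliser of the element of order three is the perfect sixfold cover of `M22`, and its
normaliser lies in the centraliser of the involution.
-/

set_option autoImplicit false

namespace CfsgLib.Jf18

open CfsgLib.J4Type67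
open scoped commutatorElement

universe u

variable {G : Type u} [Group G] [Finite G]

namespace Ctx

variable (c : Ctx G)

theorem z_mem_C : c.z ∈ c.C :=
  c.mem_C.2 ⟨Commute.refl _, (mem_cz.1 c.p_mem_H).symm⟩

theorem z_commute {x : G} (hx : x ∈ c.C) : Commute x c.z := (c.mem_C.1 hx).1

theorem p_commute {x : G} (hx : x ∈ c.C) : Commute x c.p := (c.mem_C.1 hx).2

theorem ker_sig : c.sig.ker = (Subgroup.zpowers c.z ⊔ Subgroup.zpowers c.p).subgroupOf c.C := by
  ext x
  rw [MonoidHom.mem_ker, c.sig_eq_one, Subgroup.mem_subgroupOf]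

theorem kernel_le : Subgroup.zpowers c.z ⊔ Subgroup.zpowers c.p ≤ c.C :=
  sup_le (Subgroup.zpowers_le.2 c.z_mem_C) (Subgroup.zpowers_le.2 c.p_mem_C)

theorem kernel_eq : Subgroup.zpowers c.z ⊔ Subgroup.zpowers c.p = Subgroup.zpowers (c.z * c.p) := by
  have hc : Commute c.z c.p := (c.z_commute c.p_mem_C).symm
  refine le_antisymm (sup_le (Subgroup.zpowers_le.2 ⟨3, ?_⟩) (Subgroup.zpowers_le.2 ⟨4, ?_⟩))
    (Subgroup.zpowers_le.2 (mul_mem (Subgroup.mem_sup_left (Subgroup.mem_zpowers _))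
      (Subgroup.mem_sup_right (Subgroup.mem_zpowers _))))
  · show (c.z * c.p) ^ (3 : ℤ) = c.z
    rw [show (3 : ℤ) = ((3 : ℕ) : ℤ) from rfl, zpow_natCast, hc.mul_pow, c.p_cube, mul_one,
      pow_succ, pow_two, c.z_mul_self, one_mul]
  · show (c.z * c.p) ^ (4 : ℤ) = c.p
    rw [show (4 : ℤ) = ((4 : ℕ) : ℤ) from rfl, zpow_natCast, hc.mul_pow,
      show (4 : ℕ) = 2 * 2 from rfl, pow_mul, pow_two c.z, c.z_mul_self, one_pow, one_mul,
      show 2 * 2 = 3 + 1 from rfl, pow_succ, c.p_cube, one_mul]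

theorem kernel_card : Nat.card ↥(Subgroup.zpowers c.z ⊔ Subgroup.zpowers c.p) = 6 := by
  have hc : Commute c.z c.p := (c.z_commute c.p_mem_C).symm
  rw [c.kernel_eq, Nat.card_zpowers, hc.orderOf_mul_eq_mul_orderOf_of_coprime
    (by rw [c.orderOf_z, c.orderOf_p]; norm_num), c.orderOf_z, c.orderOf_p]

/-- An involution of the kernel is the marked one. -/
theorem eq_z_of_kernel {k : G} (hk : k ∈ Subgroup.zpowers c.z ⊔ Subgroup.zpowers c.p)
    (h2 : k * k = 1) : k = 1 ∨ k = c.z := by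
  rw [c.kernel_eq] at hk
  classical
  have ho : orderOf (c.z * c.p) = 6 := by
    rw [← Nat.card_zpowers, ← c.kernel_eq, c.kernel_card]
  rw [mem_zpowers_iff_mem_range_orderOf, ho] at hk
  obtain ⟨i, hi, rfl⟩ := Finset.mem_image.1 hk
  rw [Finset.mem_range] at hi
  rw [← pow_add] at h2
  have h6 := orderOf_dvd_of_pow_eq_one h2
  rw [ho] at h6
  have hc : Commute c.z c.p := (c.z_commute c.p_mem_C).symm
  obtain rfl | rfl : i = 0 ∨ i = 3 := by omega
  · exact Or.inl (pow_zero _)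
  · right
    rw [hc.mul_pow, c.p_cube, mul_one, pow_succ, pow_two, c.z_mul_self, one_mul]

theorem center_eq : Subgroup.center ↥c.C = c.sig.ker := by
  apply le_antisymm
  · intro x hx
    haveI := CfsgLib.Mathieu.isSimpleGroup_M22
    rw [MonoidHom.mem_ker]
    refine conj_injective_M ?_
    rw [map_one]
    ext m : 1
    obtain ⟨y, rfl⟩ := c.sig_surjective m
    rw [MulAut.conj_apply, MulAut.one_apply, ← map_mul, ← map_inv, ← map_mul,
      ← Subgroup.mem_center_iff.1 hx y, mul_inv_cancel_right]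
  · intro x hx
    rw [c.ker_sig, Subgroup.mem_subgroupOf] at hx
    refine Subgroup.mem_center_iff.2 fun y => Subtype.ext ?_
    rw [c.kernel_eq] at hx
    obtain ⟨i, hi⟩ := hx
    show (y : G) * x = x * y
    rw [← hi]
    exact ((c.z_commute y.2).mul_right (c.p_commute y.2)).zpow_right i

theorem center_map : (Subgroup.center ↥c.C).map c.C.subtype =
    Subgroup.zpowers c.z ⊔ Subgroup.zpowers c.p := by
  rw [c.center_eq, c.ker_sig, Subgroup.map_subgroupOf_eq_of_le c.kernel_le]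

/-- A fused involution comes with an element of order three of the other type. -/
theorem exists_xtype_conj {a : G} (ha : a ∈ c.C) (hne : a ≠ c.z) (hcj : IsConj c.z a) :
    ∃ g x : G, g * c.z * g⁻¹ = a ∧ g * x * g⁻¹ = c.p ∧ x ∈ c.C ∧ orderOf x = 3 ∧
      x ∉ Subgroup.zpowers c.p := by
  obtain ⟨g, hg⟩ := isConj_iff.1 hcj
  obtain ⟨x, hx, hx3, hxp⟩ := c.exists_xtype
  set y := g⁻¹ * c.p * g
  have hy : y ∈ c.H := by
    rw [mem_cz]
    have h : a * c.p = c.p * a := (c.p_commute ha).eq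
    rw [← hg] at h
    calc y * c.z = g⁻¹ * (c.p * (g * c.z * g⁻¹)) * g := by simp only [y]; group
      _ = g⁻¹ * (g * c.z * g⁻¹ * c.p) * g := by rw [h]
      _ = c.z * y := by simp only [y]; group
  have hy3 : orderOf y = 3 := by
    have : y = MulAut.conj g⁻¹ c.p := by simp [y]
    rw [this, MulEquiv.orderOf_eq, c.orderOf_p]
  obtain ⟨h, hh, hor⟩ := c.exists_conj_or_xtype hy hy3 hx hx3 hxp
  have hgz : g * h⁻¹ * c.z * (g * h⁻¹)⁻¹ = a := by
    have hc : h⁻¹ * c.z = c.z * h⁻¹ := (mem_cz.1 (inv_mem hh)).eq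
    rw [mul_assoc g, hc, ← hg]; group
  rcases hor with e | e
  · exfalso
    refine hne ?_
    have hp : g * h⁻¹ * c.p * (g * h⁻¹)⁻¹ = c.p := by
      calc g * h⁻¹ * c.p * (g * h⁻¹)⁻¹ = g * h⁻¹ * (h * y * h⁻¹) * (g * h⁻¹)⁻¹ := by rw [e]
        _ = c.p := by simp only [y]; group
    rw [← hgz]
    exact c.weak_closed (g := g * h⁻¹) (hgz.symm ▸ ha) (hp.symm ▸ Subgroup.mem_zpowers _)
  · refine ⟨g * h⁻¹, x, hgz, ?_, hx, hx3, hxp⟩
    rw [← e]; simp only [y]; group

/-- Without a conjugation of `a` to `a * z`, the full preimage of the centraliser commutes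
with `a`. -/
theorem dvd_cent {a : G} (ha : a ∈ c.C) (hne : a ≠ c.z) (hcj : IsConj c.z a)
    (hno : ∀ d ∈ c.C, d * a * d⁻¹ ≠ a * c.z) :
    2 ^ 8 ∣ Nat.card ↥(c.C ⊓ Subgroup.centralizer ({a} : Set G)) := by
  have ha2 : a * a = 1 := by
    obtain ⟨g, hg⟩ := isConj_iff.1 hcj
    rw [← hg]
    calc g * c.z * g⁻¹ * (g * c.z * g⁻¹) = g * (c.z * c.z) * g⁻¹ := by group
      _ = 1 := by rw [c.z_mul_self]; group
  have ha1 : a ≠ 1 := fun e => by
    obtain ⟨g, hg⟩ := isConj_iff.1 hcj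
    rw [e] at hg
    exact c.z_ne_one (conj_eq_one_iff.1 hg)
  set s := c.sig ⟨a, ha⟩ with hs
  have hso : orderOf s = 2 := c.sig_lift ha ha2 ha1 hne
  set T := (Subgroup.centralizer ({s} : Set M)).comap c.sig
  have hcomm : ∀ d ∈ T, Commute (d : G) a := by
    intro d hd
    have hsd : Commute (c.sig d) s := mem_cz.1 hd
    have hk : (⁅d, (⟨a, ha⟩ : c.C)⁆ : c.C) ∈ c.sig.ker := by
      rw [MonoidHom.mem_ker, map_commutatorElement, commutatorElement_eq_one_iff_mul_comm]
      exact hsd.eq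
    rw [c.ker_sig, Subgroup.mem_subgroupOf] at hk
    set k : G := (d : G) * a * (d : G)⁻¹ * a⁻¹
    have hk' : k ∈ Subgroup.zpowers c.z ⊔ Subgroup.zpowers c.p := hk
    have hkc : Commute k a := by
      rw [c.kernel_eq] at hk'
      obtain ⟨i, hi⟩ := hk'
      rw [← hi]
      exact (((c.z_commute ha).mul_right (c.p_commute ha)).zpow_right i).symm
    have hda : (d : G) * a * (d : G)⁻¹ = k * a := by simp only [k]; group
    have hk2 : k * k = 1 := by
      have e : (k * a) * (k * a) = 1 := by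
        rw [← hda]
        calc (d : G) * a * (d : G)⁻¹ * ((d : G) * a * (d : G)⁻¹)
            = (d : G) * (a * a) * (d : G)⁻¹ := by group
          _ = 1 := by rw [ha2]; group
      rwa [hkc.symm.mul_mul_mul_comm k a, ha2, mul_one] at e
    rcases c.eq_z_of_kernel hk' hk2 with e | e
    · rw [e, one_mul] at hda
      exact mul_inv_eq_iff_eq_mul.1 hda
    · exfalso
      rw [e, ← (c.z_commute ha).eq] at hda
      exact hno _ d.2 hda
  haveI : Fact (Nat.Prime 2) := ⟨Nat.prime_two⟩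
  have h128 : 128 ∣ Nat.card (Subgroup.centralizer ({s} : Set M)) := by
    obtain ⟨S⟩ := (inferInstance : Nonempty (Sylow 2 M))
    have hScard : Nat.card (S : Subgroup M) = 128 := by
      have h2 : (443520 : ℕ) = 2 ^ 7 * 3465 := by norm_num
      rw [Sylow.card_eq_multiplicity, CfsgLib.Mathieu.card_M22, h2,
        Nat.factorization_mul (by norm_num) (by norm_num), Nat.Prime.factorization_pow Nat.prime_two]
      simp [Nat.factorization_eq_zero_of_not_dvd (by norm_num : ¬(2 ∣ 3465))]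
    haveI : Nontrivial (S : Subgroup M) :=
      Finite.one_lt_card_iff_nontrivial.1 (by rw [hScard]; norm_num)
    haveI := S.isPGroup'.center_nontrivial
    obtain ⟨⟨t, ht⟩, ht1⟩ := exists_ne (1 : Subgroup.center (S : Subgroup M))
    have hpc : IsPGroup 2 (Subgroup.center (S : Subgroup M)) := S.isPGroup'.to_subgroup _
    obtain ⟨t₀, ht0⟩ := exists_prime_orderOf_dvd_card' (G := Subgroup.center (S : Subgroup M)) 2 (by
      obtain ⟨n, hn⟩ := IsPGroup.iff_card.1 hpc
      rw [hn]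
      refine dvd_pow_self 2 fun h0 => ?_
      have := Finite.one_lt_card (α := Subgroup.center (S : Subgroup M))
      rw [hn, h0] at this; simp at this)
    obtain ⟨g, hg⟩ := M22.exists_conj_invol (a := ((t₀ : (S : Subgroup M)) : M)) (b := s)
      (by rw [Subgroup.orderOf_coe, Subgroup.orderOf_coe, ht0]) hso
    rw [← hScard, ← card_conjS g]
    refine Subgroup.card_dvd_of_le fun y hy => mem_cz.2 ?_
    rw [mem_conjS] at hy
    have := congrArg Subtype.val (Subgroup.mem_center_iff.1 t₀.2 ⟨_, hy⟩)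
    simp only [Subgroup.coe_mul] at this
    rw [← hg]
    show y * _ = _ * y
    calc y * (g * ((t₀ : (S : Subgroup M)) : M) * g⁻¹)
        = g * (g⁻¹ * y * g * ((t₀ : (S : Subgroup M)) : M)) * g⁻¹ := by group
      _ = g * (((t₀ : (S : Subgroup M)) : M) * (g⁻¹ * y * g)) * g⁻¹ := by rw [this]
      _ = g * ((t₀ : (S : Subgroup M)) : M) * g⁻¹ * y := by group
  have hT : 2 ^ 8 ∣ Nat.card T := by
    let f : T →* Subgroup.centralizer ({s} : Set M) :=
      { toFun := fun d => ⟨c.sig d.1, d.2⟩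
        map_one' := Subtype.ext (map_one c.sig)
        map_mul' := fun x y => Subtype.ext (map_mul c.sig x.1 y.1) }
    have hf : Function.Surjective f := fun m => by
      obtain ⟨d, hd⟩ := c.sig_surjective m
      exact ⟨⟨d, show c.sig d ∈ Subgroup.centralizer ({s} : Set M) from hd ▸ m.2⟩, Subtype.ext hd⟩
    have hk : Nat.card f.ker = 6 := by
      rw [← c.kernel_card]
      exact Nat.card_congr
        { toFun := fun d => ⟨(d.1.1 : G), c.sig_eq_one.1 (congrArg Subtype.val d.2)⟩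
          invFun := fun k => ⟨⟨⟨k, c.kernel_le k.2⟩, by
            show c.sig _ ∈ Subgroup.centralizer ({s} : Set M)
            rw [c.sig_eq_one.2 k.2]; exact one_mem _⟩, Subtype.ext (c.sig_eq_one.2 k.2)⟩
          left_inv := fun _ => rfl
          right_inv := fun _ => rfl }
    rw [Subgroup.card_eq_card_quotient_mul_card_subgroup f.ker, hk,
      Nat.card_congr (QuotientGroup.quotientKerEquivOfSurjective f hf).toEquiv]
    exact dvd_trans (by norm_num : 2 ^ 8 ∣ 128 * 2) (Nat.mul_dvd_mul h128 (by norm_num : 2 ∣ 6))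
  refine hT.trans ?_
  rw [← Subgroup.card_map_of_injective (K := T) c.C.subtype_injective]
  exact Subgroup.card_dvd_of_le (by
    rintro _ ⟨d, hd, rfl⟩
    exact ⟨d.2, mem_cz.2 (hcomm d hd)⟩)

/-- The odd core of the centraliser of `p`, mapped into the group. -/
abbrev coreP : Subgroup G :=
  (Cfsg.pPrimeCore 2 ↥(Subgroup.centralizer ({c.p} : Set G))).map
    (Subgroup.centralizer ({c.p} : Set G)).subtype

theorem coreP_le : c.coreP ≤ Subgroup.centralizer ({c.p} : Set G) := Subgroup.map_subtype_le _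

theorem coreP_odd : Odd (Nat.card c.coreP) := by
  rw [Subgroup.card_map_of_injective (Subgroup.subtype_injective _)]
  exact Nat.coprime_two_right.1 (CfsgLib.PLength.pPrimeCore_card_coprime 2 _)

theorem coreP_normal {k : G} (hk : k ∈ Subgroup.centralizer ({c.p} : Set G)) {o : G}
    (ho : o ∈ c.coreP) : k * o * k⁻¹ ∈ c.coreP := by
  obtain ⟨o, ho, rfl⟩ := ho
  haveI := Cfsg.pPrimeCore_normal 2 ↥(Subgroup.centralizer ({c.p} : Set G))
  exact ⟨⟨k, hk⟩ * o * ⟨k, hk⟩⁻¹,
    (inferInstance : (Cfsg.pPrimeCore 2 ↥(Subgroup.centralizer ({c.p} : Set G))).Normal).conj_mem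
      o ho ⟨k, hk⟩, rfl⟩

/-- The marked involution is central modulo the core. -/
theorem comm_z_mem_coreP {k : G} (hk : k ∈ Subgroup.centralizer ({c.p} : Set G)) :
    k * c.z * k⁻¹ * c.z⁻¹ ∈ c.coreP := by
  set K := Subgroup.centralizer ({c.p} : Set G)
  have hzK : c.z ∈ K := mem_cz.2 (c.p_commute c.z_mem_C)
  have hiso : Cfsg.IsIsolated (⟨c.z, hzK⟩ : K) := by
    intro k hk
    refine Subtype.ext ?_
    show (k : G) * c.z * (k : G)⁻¹ = c.z
    have h1 : Commute c.z ((k : G) * c.z * (k : G)⁻¹) := congrArg Subtype.val hk.eq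
    have hkp : (k : G) * c.p * (k : G)⁻¹ = c.p := mul_inv_eq_iff_eq_mul.2 (mem_cz.1 k.2).eq
    refine c.weak_closed (c.mem_C.2 ⟨h1.symm, mem_cz.1 ?_⟩) (hkp.symm ▸ Subgroup.mem_zpowers _)
    exact mul_mem (mul_mem k.2 hzK) (inv_mem k.2)
  have hzo : orderOf (⟨c.z, hzK⟩ : K) = 2 := by rw [Subgroup.orderOf_mk, c.orderOf_z]
  exact ⟨_, CfsgLib.ZStar.inZStar_of_isolated hzo hiso ⟨k, hk⟩, rfl⟩

theorem coreP_inf_z : c.coreP ⊓ Subgroup.centralizer ({c.z} : Set G) ≤ Subgroup.zpowers c.p := by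
  refine c.odd_normal_le c.p_mem_H c.orderOf_p (fun t ht => ⟨ht.2, c.coreP_le ht.1⟩)
    (c.coreP_odd.of_dvd_nat (Subgroup.card_dvd_of_le inf_le_left)) ?_
  intro y hy hyp t ht
  exact ⟨c.coreP_normal (mem_cz.2 hyp) ht.1,
    Subgroup.mul_mem _ (Subgroup.mul_mem _ hy ht.2) (Subgroup.inv_mem _ hy)⟩

theorem coreP_inf_fused {v : G} (hv : v ∈ c.C) (hvne : v ≠ c.z) (hvc : IsConj c.z v) :
    c.coreP ⊓ Subgroup.centralizer ({v} : Set G) ≤ Subgroup.zpowers c.p := by
  obtain ⟨g, x, hgv, hgx, hx, hx3, -⟩ := c.exists_xtype_conj hv hvne hvc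
  intro t ht
  have key := c.odd_normal_le hx.1 hx3
    (N := conjS g⁻¹ (c.coreP ⊓ Subgroup.centralizer ({v} : Set G)))
    ?_ ?_ ?_ (x := x) (show g⁻¹ * t * g ∈ _ by rw [mem_conjS]; simpa [mul_assoc] using ht)
  · obtain ⟨i, hi⟩ := key
    refine ⟨i, ?_⟩
    show c.p ^ i = t
    have hi' : x ^ i = g⁻¹ * t * g := hi
    rw [← hgx, conj_zpow, hi']; group
  · intro s hs
    rw [mem_conjS, inv_inv] at hs
    refine ⟨mem_cz.2 ?_, mem_cz.2 ?_⟩
    · have h := (mem_cz.1 hs.2).map (MulAut.conj g⁻¹).toMonoidHom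
      rw [← hgv] at h
      simpa [mul_assoc] using h
    · have h := (mem_cz.1 (c.coreP_le hs.1)).map (MulAut.conj g⁻¹).toMonoidHom
      rw [← hgx] at h
      simpa [mul_assoc] using h
  · rw [card_conjS]
    exact c.coreP_odd.of_dvd_nat (Subgroup.card_dvd_of_le inf_le_left)
  · intro y hy hyx s hs
    rw [mem_conjS, inv_inv] at hs ⊢
    have e : g * (y * s * y⁻¹) * g⁻¹ = (g * y * g⁻¹) * (g * s * g⁻¹) * (g * y * g⁻¹)⁻¹ := by group
    rw [e]
    have h1 : g * y * g⁻¹ ∈ Subgroup.centralizer ({c.p} : Set G) := mem_cz.2 (by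
      have := hyx.map (MulAut.conj g).toMonoidHom
      simpa [hgx] using this)
    have h2 : g * y * g⁻¹ ∈ Subgroup.centralizer ({v} : Set G) := mem_cz.2 (by
      have := (mem_cz.1 hy).map (MulAut.conj g).toMonoidHom
      simpa [hgv] using this)
    exact ⟨c.coreP_normal h1 hs.1,
      Subgroup.mul_mem _ (Subgroup.mul_mem _ h2 hs.2) (Subgroup.inv_mem _ h2)⟩

/-- A conjugate equal to a power of `p` times `z` is `z`. -/
theorem eq_z_of_conj {k : G} (h : k * c.z * k⁻¹ * c.z⁻¹ ∈ Subgroup.zpowers c.p) :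
    k * c.z * k⁻¹ = c.z := by
  obtain ⟨i, hi⟩ := h
  have hi' : k * c.z * k⁻¹ = c.p ^ i * c.z := by rw [show c.p ^ i = _ from hi]; group
  have hcz : Commute (c.p ^ i) c.z := (mem_cz.1 c.p_mem_H).zpow_left i
  have h2 : (c.p ^ i) ^ 2 = 1 := by
    have e : k * c.z * k⁻¹ * (k * c.z * k⁻¹) = 1 := by
      calc k * c.z * k⁻¹ * (k * c.z * k⁻¹) = k * (c.z * c.z) * k⁻¹ := by group
        _ = 1 := by rw [c.z_mul_self]; group
    rw [hi', hcz.symm.mul_mul_mul_comm (c.p ^ i) c.z, c.z_mul_self, mul_one] at e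
    rw [pow_two]; exact e
  have h3 : (c.p ^ i) ^ 3 = 1 := by
    rw [← zpow_natCast, ← zpow_mul, mul_comm, zpow_mul, zpow_natCast, c.p_cube, one_zpow]
  rw [pow_succ, h2, one_mul] at h3
  rwa [h3, one_mul] at hi'

/-- An element centralising `p` and a fused involution centralises `z`. -/
theorem cent_inter_le {a : G} (ha : a ∈ c.C) (hne : a ≠ c.z) (hcj : IsConj c.z a) :
    Subgroup.centralizer ({c.p} : Set G) ⊓ Subgroup.centralizer ({a} : Set G) ≤ c.H := by
  intro k hk
  have hka : Commute k a := mem_cz.1 hk.2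
  have hza : Commute c.z a := (c.z_commute ha).symm
  refine mem_cz.2 (mul_inv_eq_iff_eq_mul.1 (c.eq_z_of_conj (c.coreP_inf_fused ha hne hcj
    ⟨c.comm_z_mem_coreP hk.1, mem_cz.2 ?_⟩)))
  exact (((hka.mul_left hza).mul_left hka.inv_left).mul_left hza.inv_left)

/-- The marked involution is a product of commutators of `C`. -/
theorem z_mem_derived {a : G} (ha : a ∈ c.C) (hne : a ≠ c.z) (hcj : IsConj c.z a) :
    c.z ∈ ⁅c.C, c.C⁆ := by
  by_cases hd : ∃ d ∈ c.C, d * a * d⁻¹ = a * c.z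
  · obtain ⟨d, hd, hda⟩ := hd
    have h := Subgroup.commutator_mem_commutator hd ha
    rwa [commutatorElement_def, hda, (c.z_commute ha).eq, mul_inv_cancel_right] at h
  push Not at hd
  obtain ⟨g, x, hga, hgx, hx, hx3, hxp⟩ := c.exists_xtype_conj ha hne hcj
  set K := c.H ⊓ Subgroup.centralizer ({x} : Set G)
  have hK : conjS g K = c.C ⊓ Subgroup.centralizer ({a} : Set G) := by
    ext t
    rw [mem_conjS]
    have key : ∀ {r : G}, Commute (g⁻¹ * t * g) r ↔ Commute t (g * r * g⁻¹) := by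
      intro r
      rw [← Commute.conj_iff g, show g * (g⁻¹ * t * g) * g⁻¹ = t by group]
    constructor
    · rintro ⟨h1, h2⟩
      have hta : Commute t a := hga ▸ key.1 (mem_cz.1 h1)
      have htp : Commute t c.p := hgx ▸ key.1 (mem_cz.1 h2)
      exact ⟨c.mem_C.2 ⟨mem_cz.1 (c.cent_inter_le ha hne hcj ⟨mem_cz.2 htp, mem_cz.2 hta⟩), htp⟩,
        mem_cz.2 hta⟩
    · rintro ⟨h1, h2⟩
      exact ⟨mem_cz.2 (key.2 (hga.symm ▸ mem_cz.1 h2)), mem_cz.2 (key.2 (hgx.symm ▸ c.p_commute h1))⟩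
  set w := g⁻¹ * c.z * g with hw
  have hgw : g * w * g⁻¹ = c.z := by rw [hw]; group
  have hwK : w ∈ K := by
    have h : g * w * g⁻¹ ∈ c.C ⊓ Subgroup.centralizer ({a} : Set G) :=
      hgw.symm ▸ ⟨c.z_mem_C, mem_cz.2 (c.z_commute ha).symm⟩
    rw [← hK, mem_conjS] at h
    simpa [mul_assoc] using h
  have hw2 : w * w = 1 := by
    calc w * w = g⁻¹ * (c.z * c.z) * g := by simp only [w]; group
      _ = 1 := by rw [c.z_mul_self]; group
  have hcen : ∀ k ∈ K, Commute w k := fun k hk => by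
    refine (Commute.conj_iff g).1 ?_
    rw [hgw]
    refine (c.z_commute ?_).symm
    have h : g * k * g⁻¹ ∈ conjS g K := by rw [mem_conjS]; simpa [mul_assoc] using hk
    rw [hK] at h
    exact h.1
  have h8 : 2 ^ 8 ∣ Nat.card K := by
    rw [← card_conjS g, hK]; exact c.dvd_cent ha hne hcj hd
  obtain hmem := c.central_mem_commutator hx hx3 hxp h8 hwK hw2 hcen
  have h2 := Subgroup.mem_map_of_mem (MulAut.conj g).toMonoidHom hmem
  rw [Subgroup.map_commutator, show (MulAut.conj g).toMonoidHom w = c.z from hgw] at h2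
  exact Subgroup.commutator_mono (hK.le.trans inf_le_left) (hK.le.trans inf_le_left) h2

theorem commutator_C (hA : c.FactA) : ⁅c.C, c.C⁆ = c.C := by
  obtain ⟨a, ha, hne, hcj⟩ := hA
  have hz : c.z ∈ ⁅c.C, c.C⁆ := c.z_mem_derived ha hne hcj
  have hp : c.p ∈ ⁅c.C, c.C⁆ := c.hJ.2.2.2.2.2.2.2.2 (Subgroup.mem_zpowers _)
  have hker : Subgroup.zpowers c.z ⊔ Subgroup.zpowers c.p ≤ ⁅c.C, c.C⁆ :=
    sup_le (Subgroup.zpowers_le.2 hz) (Subgroup.zpowers_le.2 hp)
  refine le_antisymm (Subgroup.commutator_le_self _) fun y hy => ?_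
  haveI := CfsgLib.Mathieu.isSimpleGroup_M22
  have hperf : commutator M = ⊤ := by
    refine (IsSimpleGroup.eq_bot_or_eq_top_of_normal _ inferInstance).resolve_left fun h => ?_
    have hc : Subgroup.center M = ⊤ := eq_top_iff.2 fun x _ => Subgroup.mem_center_iff.2 fun y => by
      have := h.le (Subgroup.commutator_mem_commutator (Subgroup.mem_top y) (Subgroup.mem_top x))
      rwa [Subgroup.mem_bot, commutatorElement_eq_one_iff_mul_comm] at this
    have hall : ∀ x : M, x = 1 := fun x => conj_injective_M (by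
      rw [map_one]; ext m : 1
      rw [MulAut.conj_apply, MulAut.one_apply,
        ← Subgroup.mem_center_iff.1 (hc ▸ Subgroup.mem_top x) m, mul_inv_cancel_right])
    obtain ⟨x, hx⟩ := exists_ne (1 : M)
    exact hx (hall x)
  have hmem : c.sig ⟨y, hy⟩ ∈ (commutator ↥c.C).map c.sig := by
    rw [commutator_def, Subgroup.map_commutator, Subgroup.map_top_of_surjective _ c.sig_surjective,
      ← commutator_def, hperf]
    exact Subgroup.mem_top _
  obtain ⟨y', hy', e⟩ := hmem
  have h1 : (y' : G) ∈ ⁅c.C, c.C⁆ := by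
    rw [← Subgroup.map_subtype_commutator]
    exact ⟨y', hy', rfl⟩
  have h2 : (y' : G)⁻¹ * y ∈ Subgroup.zpowers c.z ⊔ Subgroup.zpowers c.p :=
    c.sig_eq_one.1 (show c.sig (y'⁻¹ * ⟨y, hy⟩) = 1 by rw [map_mul, map_inv, e, inv_mul_cancel])
  have := mul_mem h1 (hker h2)
  rwa [mul_inv_cancel_left] at this

theorem cover (hA : c.FactA) : ⁅c.C, c.C⁆ = c.C ∧ IsCyclic ↥(Subgroup.center ↥c.C) ∧
    Nat.card ↥(Subgroup.center ↥c.C) = 6 ∧
    Cfsg.Spor.IsoM22 (↥c.C ⧸ Subgroup.center ↥c.C) := by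
  have e := ((Subgroup.center ↥c.C).equivMapOfInjective c.C.subtype c.C.subtype_injective).trans
    (MulEquiv.subgroupCongr (c.center_map.trans c.kernel_eq))
  refine ⟨c.commutator_C hA, ?_, ?_, ?_⟩
  · exact isCyclic_of_surjective e.symm.toMonoidHom e.symm.surjective
  · rw [Nat.card_congr e.toEquiv, ← c.kernel_eq, c.kernel_card]
  · exact ⟨(QuotientGroup.quotientMulEquivOfEq c.center_eq).trans
      (QuotientGroup.quotientKerEquivOfSurjective c.sig c.sig_surjective)⟩

theorem cent_p_le (hA : c.FactA) : Subgroup.centralizer ({c.p} : Set G) ≤ c.H := by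
  obtain ⟨a, ha, hne, hcj⟩ := hA
  have hinv : a * a = 1 := by
    obtain ⟨g, hg⟩ := isConj_iff.1 hcj
    rw [← hg]
    calc g * c.z * g⁻¹ * (g * c.z * g⁻¹) = g * (c.z * c.z) * g⁻¹ := by group
      _ = 1 := by rw [c.z_mul_self]; group
  have ha1 : a ≠ 1 := fun e => by
    obtain ⟨g, hg⟩ := isConj_iff.1 hcj
    rw [e] at hg
    exact c.z_ne_one (conj_eq_one_iff.1 hg)
  have hcA : Commute c.z a := (c.z_commute ha).symm
  have hzK : c.z ∈ Subgroup.centralizer ({c.p} : Set G) := mem_cz.2 (c.p_commute c.z_mem_C)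
  have hCK : c.C ≤ Subgroup.centralizer ({c.p} : Set G) := fun x hx => mem_cz.2 (c.p_commute hx)
  -- the product centralises the core
  have haz : c.coreP ≤ Subgroup.centralizer ({a * c.z} : Set G) := by
    set A := Subgroup.closure ({c.z, a} : Set G)
    have hinv' : a * c.z * (a * c.z) = 1 := by
      rw [hcA.mul_mul_mul_comm a c.z, hinv, c.z_mul_self, one_mul]
    have hA_form : ∀ t ∈ A, t = 1 ∨ t = c.z ∨ t = a ∨ t = a * c.z := by
      intro t ht
      induction ht using Subgroup.closure_induction with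
      | mem t ht => rcases ht with rfl | rfl <;> simp
      | one => simp
      | mul s t _ _ hs ht =>
        have e1 : c.z * a = a * c.z := hcA.eq
        have e2 : c.z * (a * c.z) = a := by rw [← mul_assoc, e1, mul_assoc, c.z_mul_self, mul_one]
        have e3 : a * (a * c.z) = c.z := by rw [← mul_assoc, hinv, one_mul]
        have e4 : a * c.z * c.z = a := by rw [mul_assoc, c.z_mul_self, mul_one]
        have e5 : a * c.z * a = c.z := by rw [mul_assoc, e1, e3]
        rcases hs with e | e | e | e <;> rcases ht with e' | e' | e' | e' <;> rw [e, e'] <;>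
          simp only [one_mul, mul_one, c.z_mul_self, hinv, hinv', e1, e2, e3, e4, e5,
            true_or, or_true]
      | inv t _ ht =>
        rcases ht with rfl | rfl | rfl | rfl
        · simp
        · right; left; exact inv_eq_of_mul_eq_one_right c.z_mul_self
        · right; right; left; exact inv_eq_of_mul_eq_one_right hinv
        · right; right; right; exact inv_eq_of_mul_eq_one_right hinv'
    have hAelem : Cfsg.IsElementaryAbelian 2 A := by
      have hsq : ∀ t ∈ A, t * t = 1 := fun t ht => by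
        rcases hA_form t ht with rfl | rfl | rfl | rfl
        exacts [one_mul 1, c.z_mul_self, hinv, hinv']
      refine ⟨⟨⟨fun s t => Subtype.ext ?_⟩⟩, fun t ht => by rw [pow_two]; exact hsq t ht⟩
      exact comm_of_sq hsq s.2 t.2
    have hAK : A ≤ Subgroup.centralizer ({c.p} : Set G) := (Subgroup.closure_le _).2 (by
      rintro t (rfl | rfl)
      exacts [hzK, hCK ha])
    have hAN : A ≤ Subgroup.normalizer (c.coreP : Set G) := fun t ht =>
      Subgroup.mem_normalizer_iff.2 fun o => ⟨fun ho => c.coreP_normal (hAK ht) ho, fun ho => by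
        have := c.coreP_normal (inv_mem (hAK ht)) ho
        simpa [mul_assoc] using this⟩
    have hP : Subgroup.zpowers c.p ≤ Subgroup.centralizer ({a * c.z} : Set G) :=
      Subgroup.zpowers_le.2 (mem_cz.2 (((c.p_commute ha).symm).mul_right
        (c.z_commute c.p_mem_C)))
    haveI : Fact (Nat.Prime 2) := ⟨Nat.prime_two⟩
    refine (CfsgLib.Hyperplane.le_iSup_centralizer hAelem (fun h => ?_) hAN).trans
      (iSup_le fun U => ?_)
    · exact (Nat.not_even_iff_odd.2 c.coreP_odd) (even_iff_two_dvd.2 h)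
    obtain ⟨hUA, hUidx⟩ := U.2
    obtain ⟨t, htU, ht1⟩ : ∃ t ∈ (U : Subgroup G), t ≠ 1 := by
      refine (Subgroup.bot_or_exists_ne_one _).resolve_left fun hb => ?_
      rw [hb, Subgroup.relIndex_bot_left] at hUidx
      have h4 : 3 ≤ Nat.card A := by
        let f : Fin 3 → A := ![1, ⟨c.z, Subgroup.subset_closure (by simp)⟩,
          ⟨a, Subgroup.subset_closure (by simp)⟩]
        have hf : Function.Injective f := by
          intro i j hij
          have h := congrArg Subtype.val hij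
          fin_cases i <;> fin_cases j <;> first | rfl |
            (exfalso; simp [f] at h; first
              | exact c.z_ne_one h | exact c.z_ne_one h.symm | exact ha1 h | exact ha1 h.symm
              | exact hne h | exact hne h.symm)
        simpa using Nat.card_le_card_of_injective f hf
      have := Nat.le_of_dvd (by norm_num) hUidx
      omega
    refine le_trans (inf_le_inf_left c.coreP (Subgroup.centralizer_le
      (Set.singleton_subset_iff.2 htU))) ?_
    rcases hA_form t (hUA htU) with rfl | rfl | rfl | rfl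
    · exact absurd rfl ht1
    · exact c.coreP_inf_z.trans hP
    · exact (c.coreP_inf_fused ha hne hcj).trans hP
    · exact inf_le_right
  -- so the derived group of the centraliser centralises the core
  set L := c.C ⊓ Subgroup.centralizer (c.coreP : Set G)
  haveI hLn : (L.subgroupOf c.C).Normal := ⟨fun l hl y => by
    refine ⟨((y * l * y⁻¹ : c.C)).2, Subgroup.mem_centralizer_iff.2 fun o ho => ?_⟩
    have h' : (y : G)⁻¹ * o * y ∈ c.coreP := by
      simpa using c.coreP_normal (inv_mem (hCK y.2)) ho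
    have h : (y : G)⁻¹ * o * y * (l : G) = (l : G) * ((y : G)⁻¹ * o * y) :=
      Subgroup.mem_centralizer_iff.1 hl.2 _ h'
    show o * ((y : G) * l * (y : G)⁻¹) = (y : G) * l * (y : G)⁻¹ * o
    calc o * ((y : G) * l * (y : G)⁻¹) = y * ((y : G)⁻¹ * o * y * l) * (y : G)⁻¹ := by group
      _ = y * ((l : G) * ((y : G)⁻¹ * o * y)) * (y : G)⁻¹ := by rw [h]
      _ = _ := by group⟩
  haveI := CfsgLib.Mathieu.isSimpleGroup_M22
  have htop : (L.subgroupOf c.C).map c.sig = ⊤ := by
    refine (IsSimpleGroup.eq_bot_or_eq_top_of_normal _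
      (Subgroup.Normal.map hLn c.sig c.sig_surjective)).resolve_left fun h => ?_
    have hazC : a * c.z ∈ c.C := mul_mem ha c.z_mem_C
    have hmem : c.sig ⟨a * c.z, hazC⟩ ∈ (L.subgroupOf c.C).map c.sig :=
      ⟨⟨a * c.z, hazC⟩, ⟨hazC, Subgroup.mem_centralizer_iff.2 fun o ho =>
        (mem_cz.1 (haz ho)).eq⟩, rfl⟩
    rw [h, Subgroup.mem_bot, show (⟨a * c.z, hazC⟩ : c.C) = ⟨a, ha⟩ * ⟨c.z, c.z_mem_C⟩ from rfl,
      map_mul, c.sig_eq_one.2 (Subgroup.mem_sup_left (Subgroup.mem_zpowers _) :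
        ((⟨c.z, c.z_mem_C⟩ : c.C) : G) ∈ _), mul_one] at hmem
    have := c.sig_lift ha hinv ha1 hne
    rw [hmem, orderOf_one] at this
    omega
  have hsplit : ∀ u ∈ c.C, ∃ l ∈ L, ∀ y ∈ c.C, Commute (l⁻¹ * u) y := by
    intro u hu
    obtain ⟨l, hl, hlu⟩ := (htop.symm ▸ Subgroup.mem_top _ : c.sig ⟨u, hu⟩ ∈ (L.subgroupOf c.C).map c.sig)
    refine ⟨l, hl, fun y hy => ?_⟩
    have hk : (l : G)⁻¹ * u ∈ Subgroup.zpowers c.z ⊔ Subgroup.zpowers c.p :=
      c.sig_eq_one.1 (show c.sig (l⁻¹ * ⟨u, hu⟩) = 1 by rw [map_mul, map_inv, hlu, inv_mul_cancel])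
    rw [c.kernel_eq] at hk
    obtain ⟨i, hi⟩ := hk
    rw [← hi]
    exact (((c.z_commute hy).mul_right (c.p_commute hy)).zpow_right i).symm
  have hder : ⁅c.C, c.C⁆ ≤ L := by
    rw [Subgroup.commutator_le]
    intro u hu v hv
    obtain ⟨l, hl, hlc⟩ := hsplit u hu
    obtain ⟨m, hm, hmc⟩ := hsplit v hv
    have h1 : ⁅u, v⁆ = ⁅l, v⁆ := by
      rw [commutatorElement_def, commutatorElement_def]
      calc u * v * u⁻¹ * v⁻¹ = l * ((l⁻¹ * u) * v * (l⁻¹ * u)⁻¹) * l⁻¹ * v⁻¹ := by group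
        _ = l * v * l⁻¹ * v⁻¹ := by rw [(hlc v hv).eq, mul_inv_cancel_right]
    have h2 : ⁅l, v⁆ = ⁅l, m⁆ := by
      rw [commutatorElement_def, commutatorElement_def]
      have h := (hmc _ (inv_mem hl.1)).eq
      calc l * v * l⁻¹ * v⁻¹ = l * m * (m⁻¹ * v * l⁻¹) * (m⁻¹ * v)⁻¹ * m⁻¹ := by group
        _ = l * m * l⁻¹ * m⁻¹ := by rw [h]; group
    rw [h1, h2]
    exact Subgroup.commutator_le_self L (Subgroup.commutator_mem_commutator hl hm)
  have hOp : c.coreP ≤ Subgroup.zpowers c.p := fun o ho => c.coreP_inf_z ⟨ho, mem_cz.2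
    (Subgroup.mem_centralizer_iff.1 (hder (c.z_mem_derived ha hne hcj)).2 o ho)⟩
  exact fun k hk => mem_cz.2
    (mul_inv_eq_iff_eq_mul.1 (c.eq_z_of_conj (hOp (c.comm_z_mem_coreP hk))))

theorem normalizer_le (hA : c.FactA) :
    Subgroup.normalizer (Subgroup.zpowers c.p : Set G) ≤ c.H := by
  intro n hn
  have hK := c.cent_p_le hA
  have hzK : c.z ∈ Subgroup.centralizer ({c.p} : Set G) := mem_cz.2 (c.z_commute c.p_mem_C).symm
  have hnp : n * c.p * n⁻¹ ∈ Subgroup.zpowers c.p :=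
    (Subgroup.mem_normalizer_iff.1 hn c.p).1 (Subgroup.mem_zpowers _)
  have hconj : ∀ {m : G}, m ∈ Subgroup.normalizer (Subgroup.zpowers c.p : Set G) →
      ∀ {y : G}, Commute y c.p → Commute (m * y * m⁻¹) c.p := by
    intro m hm y hy
    obtain ⟨j, hj⟩ := (Subgroup.mem_normalizer_iff.1 (inv_mem hm) c.p).1 (Subgroup.mem_zpowers _)
    have hj' : m⁻¹ * c.p * m = c.p ^ j := by rw [show c.p ^ j = _ from hj, inv_inv]
    have h := (hy.zpow_right j).map (MulAut.conj m).toMonoidHom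
    rw [← hj'] at h
    simpa [mul_assoc] using h
  set v := n * c.z * n⁻¹
  have hv : v ∈ c.C := by
    have h := hconj hn (mem_cz.1 hzK)
    exact c.mem_C.2 ⟨mem_cz.1 (hK (mem_cz.2 h)), h⟩
  have hvcen : (⟨v, hv⟩ : c.C) ∈ Subgroup.center ↥c.C := by
    refine Subgroup.mem_center_iff.2 fun y => Subtype.ext ?_
    have h := hconj (inv_mem hn) (c.p_commute y.2)
    rw [inv_inv] at h
    have h2 := (mem_cz.1 (hK (mem_cz.2 h))).map (MulAut.conj n).toMonoidHom
    have h3 : Commute (y : G) v := by simpa [v, mul_assoc] using h2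
    exact h3.eq
  rw [c.center_eq, MonoidHom.mem_ker, c.sig_eq_one] at hvcen
  have hv2 : v * v = 1 := by
    calc v * v = n * (c.z * c.z) * n⁻¹ := by simp only [v]; group
      _ = 1 := by rw [c.z_mul_self]; group
  rcases c.eq_z_of_kernel hvcen hv2 with e | e
  · exact absurd (conj_eq_one_iff.1 e) c.z_ne_one
  · exact mem_cz.2 (mul_inv_eq_iff_eq_mul.1 e)

end Ctx

end CfsgLib.Jf18
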