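import Cfsg.Agent.Jf18.Fact
import Cfsg.Agent.Jf18.Cover
import Cfsg.Agent.Jf18.SylowThree


/-!
Janko-four type: the Sylow 3-subgroups and the class of elements of order three.
-/

set_option autoImplicit false

namespace CfsgLib.Jf18.Ctx

open CfsgLib.J4Type67

universe u

variable {G : Type u} [Group G] [Finite G] (c : Ctx G)

include c in
theorem three_subgroup_of_sylow [IsSimpleGroup G] : ∃ R : Sylow 3 G, (R : Subgroup G) ≤ c.H := by
  haveI : Fact (Nat.Prime 3) := ⟨Nat.prime_three⟩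
  obtain ⟨R0⟩ : Nonempty (Sylow 3 c.H) := inferInstance
  obtain ⟨-, -, -, ⟨h, hh, hN⟩, -⟩ := c.sylow_H R0
  set R := (R0 : Subgroup c.H).map c.H.subtype with hR
  have hNH : Subgroup.normalizer (R : Set G) ≤ c.H := fun g hg => by
    have := c.normalizer_le c.factA (hN g hg)
    simpa [mul_assoc] using mul_mem (mul_mem (inv_mem hh) this) hh
  obtain ⟨S, hS⟩ := (R0.2.map c.H.subtype).exists_le_sylow
  refine ⟨S, fun x hx => ?_⟩
  by_contra hxH
  haveI := S.2.isNilpotent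
  have hne : (R.subgroupOf (S : Subgroup G)) ≠ ⊤ := fun ht => by
    rw [Subgroup.subgroupOf_eq_top] at ht
    obtain ⟨y, -, rfl⟩ := ht hx
    exact hxH y.2
  obtain ⟨n, hn, hnR⟩ := SetLike.exists_of_lt
    ((Group.normalizerCondition_of_isNilpotent) _ (lt_top_iff_ne_top.2 hne))
  have hnH : (n : G) ∈ c.H := hNH (by
    rw [Subgroup.mem_normalizer_iff]
    intro y
    have h1 := Subgroup.mem_normalizer_iff.1 hn
    constructor
    · intro hy
      exact (h1 ⟨y, hS hy⟩).1 hy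
    · intro hy
      have hy' : y ∈ (S : Subgroup G) := by
        have := mul_mem (mul_mem (inv_mem n.2) (hS hy)) n.2
        simpa [mul_assoc] using this
      exact (h1 ⟨y, hy'⟩).2 hy)
  -- the subgroup generated by `R` and `n` is a 3-subgroup of `H`
  have hle : (S : Subgroup G) ⊓ c.H ≤ R := by
    intro y hy
    have hp : IsPGroup 3 (((S : Subgroup G) ⊓ c.H).subgroupOf c.H) :=
      (S.2.to_le inf_le_left).of_equiv (Subgroup.subgroupOfEquivOfLe inf_le_right).symm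
    have he := R0.3 hp (fun a ha => ⟨hS ⟨a, ha, rfl⟩, a.2⟩)
    exact ⟨⟨y, hy.2⟩, he ▸ (show (⟨y, hy.2⟩ : c.H) ∈ ((S : Subgroup G) ⊓ c.H).subgroupOf c.H from hy), rfl⟩
  exact hnR (hle ⟨n.2, hnH⟩)

include c in
theorem one_class [IsSimpleGroup G] {x y : G} (hx : orderOf x = 3) (hy : orderOf y = 3) : IsConj x y := by
  haveI : Fact (Nat.Prime 3) := ⟨Nat.prime_three⟩
  obtain ⟨R, hR⟩ := c.three_subgroup_of_sylow
  suffices key : ∀ e : G, orderOf e = 3 → IsConj e c.p from (key x hx).trans (key y hy).symm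
  intro e he
  have hp : IsPGroup 3 (Subgroup.zpowers e) := IsPGroup.of_card (n := 1) (by rw [Nat.card_zpowers, he, pow_one])
  obtain ⟨S, hS⟩ := hp.exists_le_sylow
  obtain ⟨g, hg⟩ := MulAction.exists_smul_eq G S R
  have heR : g * e * g⁻¹ ∈ c.H := hR (by
    rw [← hg, Sylow.coe_subgroup_smul]
    exact Subgroup.smul_mem_pointwise_smul e (MulAut.conj g) _ (hS (Subgroup.mem_zpowers e)))
  have h3 : orderOf (g * e * g⁻¹) = 3 := by
    rw [← he]; exact (MulEquiv.orderOf_eq (MulAut.conj g) e)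
  obtain ⟨x₀, hx₀, hx₀3, hx₀p⟩ := c.exists_xtype
  refine (isConj_iff.2 ⟨g, rfl⟩ : IsConj e (g * e * g⁻¹)).trans ?_
  obtain ⟨h, -, h1 | h1⟩ := c.exists_conj_or_xtype heR h3 hx₀ hx₀3 hx₀p
  · exact isConj_iff.2 ⟨h, h1⟩
  · obtain ⟨k, hk⟩ := c.exists_conj_p c.factA hx₀ hx₀3 hx₀p
    exact (isConj_iff.2 ⟨h, h1⟩).trans (isConj_iff.2 ⟨k, hk⟩)

end CfsgLib.Jf18.Ctx
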