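import Cfsg.Agent.J4Type67.Module
import Cfsg.Agent.Jf18.M22

/-!
Every vector fixed by a duad group is fixed by a hexad group.
-/

set_option autoImplicit false

namespace CfsgLib.Jf18

open CfsgLib.J4Type67

universe u v

/-- A hexad group in the given Sylow subgroup normalises the duad group there. -/
theorem conjS_duad_of_mem_hex {X : Type u} {W : Type v} [Group X] [Group W] (r : Rep X W) {a : M}
    (ha : a ∈ hex) : conjS a duad = duad := by
  have hle : conjS a duad ≤ syl := fun x hx => by
    rw [mem_conjS] at hx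
    have h := syl.mul_mem (syl.mul_mem (M22.hex_le_syl ha) (M22.duad_le_syl hx))
      (syl.inv_mem (M22.hex_le_syl ha))
    rwa [show a * (a⁻¹ * x * a) * a⁻¹ = x by group] at h
  rcases elem_in_syl (A := conjS a duad) (by
      rintro _ ⟨b, hb, rfl⟩
      rw [← map_mul, sq_duad b hb, map_one]) (by rw [card_conjS, card_duad]) hle with h | h
  · exfalso
    have := r.card_F_conj a duad
    rw [h, r.card_F_hex] at this
    exact r.card_F_duad this.symm
  · exact h

theorem exists_hex_of_mem_duad_one {X : Type u} {W : Type v} [Group X] [Group W] (r : Rep X W)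
    {w : W} (hw : w ∈ r.F duad) : ∃ b : M, w ∈ r.F (conjS b hex) := by
  classical
  have := r.finite_W
  have := r.finite_X
  haveI : Fact (Nat.Prime 2) := ⟨Nat.prime_two⟩
  set S := r.F duad
  have hPI : r.PInv S := r.pinv_fixed _
  have hinv : ∀ {x : X}, conjS (r.proj x) duad = duad → ∀ u ∈ S, r.act x u ∈ S ∧ r.act x⁻¹ u ∈ S :=
    fun {x} hx u hu => ⟨r.F_invariant hx hu, by
      have hiff := r.mem_F_conj (A := duad) (x := x) (w := u)
      rw [hx] at hiff
      exact hiff.1 hu⟩
  have hfp : ∀ (j : ℤ) (u : W), u ≠ 1 → r.act (r.p ^ j) u = u → r.p ^ j = 1 := by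
    intro j u hu hj
    by_contra hne
    have h3 : orderOf (r.p ^ j) = 3 := by
      haveI : Fact (Nat.Prime 3) := ⟨Nat.prime_three⟩
      refine orderOf_eq_prime ?_ hne
      rw [← zpow_natCast, ← zpow_mul, mul_comm, zpow_mul, zpow_natCast, r.cube, one_zpow]
    have heq : Subgroup.zpowers (r.p ^ j) = Subgroup.zpowers r.p :=
      Subgroup.eq_of_le_of_card_ge (Subgroup.zpowers_le.2 (zpow_mem (Subgroup.mem_zpowers _) _))
        (by rw [Nat.card_zpowers, Nat.card_zpowers, h3, r.order_p])
    let St : Subgroup X :=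
      { carrier := {x | r.act x u = u}
        one_mem' := r.act_one u
        mul_mem' := fun {a b} ha hb => by
          show r.act (a * b) u = u
          rw [Set.mem_setOf_eq] at ha hb
          rw [r.act_mul, hb, ha]
        inv_mem' := fun {a} ha => by
          show r.act a⁻¹ u = u
          rw [Set.mem_setOf_eq] at ha
          conv_lhs => rw [← ha]
          exact r.act_inv_act a u }
    have hp : r.p ∈ St := by
      refine (Subgroup.zpowers_le.2 (show r.p ^ j ∈ St from hj)) ?_
      rw [heq]; exact Subgroup.mem_zpowers _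
    exact hu (r.fpf u hp)
  -- a vector fixed by both
  obtain ⟨w₀, hw₀S, hw₀1, hw₀h⟩ : ∃ w₀ ∈ S, w₀ ≠ 1 ∧ w₀ ∈ r.F hex := by
    let L := r.liftSub sq_hex
    have hLS : ∀ x : L, ∀ u ∈ S, r.act x.1 u ∈ S := fun x u hu =>
      (hinv (conjS_duad_of_mem_hex r x.2.1) u hu).1
    let _ : MulAction L S :=
      { smul := fun x u => ⟨r.act x.1 u, hLS x u u.2⟩
        one_smul := fun u => Subtype.ext (r.act_one u)
        mul_smul := fun x y u => Subtype.ext (r.act_mul _ _ _) }
    have hL : IsPGroup 2 L := fun x => ⟨1, Subtype.ext (by simpa [pow_two] using x.2.2)⟩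
    have h1 : (1 : S) ∈ MulAction.fixedPoints L S := fun x => Subtype.ext (map_one (r.act x.1))
    have hdvd : 2 ∣ Nat.card S := by
      obtain ⟨j, hj⟩ := r.card_two_pow S
      rw [hj]
      refine dvd_pow_self 2 fun h => r.F_ne_bot sq_duad (Subgroup.card_eq_one.1 ?_)
      rw [hj, h, pow_zero]
    obtain ⟨u, hu, hne⟩ := hL.exists_fixed_point_of_prime_dvd_card_of_fixed_point S hdvd h1
    exact ⟨u, u.2, fun h => hne (Subtype.ext h.symm),
      fun x hx => congrArg Subtype.val (hu ⟨x, hx⟩)⟩
  obtain ⟨k, -, hk⟩ := r.exists_le_six hPI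
  have hk2 : k = 1 ∨ k = 2 := by
    have h64 : Nat.card S ≤ 64 := by
      obtain ⟨g, hg⟩ := duad_gen
      exact r.card_F_le sq_duad hg
    have hne : Nat.card S ≠ 64 := r.card_F_duad
    have hb : S ≠ ⊥ := r.F_ne_bot sq_duad
    rw [hk] at h64 hne
    have : k ≤ 3 := by
      by_contra h
      have := (Nat.pow_le_pow_right (by norm_num : 0 < 4) (show 4 ≤ k by omega)).trans h64
      norm_num at this
    interval_cases k
    · exact absurd (Subgroup.card_eq_one.1 (by rw [hk]; norm_num)) hb
    · exact Or.inl rfl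
    · exact Or.inr rfl
    · exact absurd (by norm_num) hne
  rcases hk2 with rfl | rfl
  · refine ⟨1, ?_⟩
    have hconj : conjS (1 : M) hex = hex := by ext x; rw [mem_conjS]; simp
    rw [hconj]
    obtain ⟨j, -, hj⟩ := r.exists_le_six (r.pinv_inf hPI (r.pinv_fixed (r.liftSet hex)))
    have hne : Nat.card ↥(S ⊓ r.fixed (r.liftSet hex)) ≠ 1 := fun h => hw₀1 (by
      have : w₀ ∈ S ⊓ r.fixed (r.liftSet hex) := ⟨hw₀S, hw₀h⟩
      rwa [Subgroup.card_eq_one.1 h, Subgroup.mem_bot] at this)
    have heq : S ⊓ r.fixed (r.liftSet hex) = S := by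
      refine Subgroup.eq_of_le_of_card_ge inf_le_left ?_
      rw [hj] at hne ⊢
      rw [hk]
      exact Nat.pow_le_pow_right (by norm_num) (Nat.pos_of_ne_zero fun h => hne (by rw [h, pow_zero]))
    rw [← heq] at hw
    exact hw.2
  obtain ⟨f, hf5, hfd, N, hN, g, hg⟩ := M22.hex_le_duad_closure
  obtain ⟨x, hx, hx5⟩ := r.exists_lift_five (m := f) (hf5 ▸ pow_orderOf_eq_one f)
  have hxS : ∀ u ∈ S, r.act x u ∈ S := fun u hu => (hinv (hx.symm ▸ hfd) u hu).1
  by_cases hfix : ∃ u ∈ S, u ≠ 1 ∧ r.act x u = u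
  · -- the five element fixes everything
    have hall : ∀ u ∈ S, r.act x u = u := by
      obtain ⟨u, hu, hu1, huf⟩ := hfix
      obtain ⟨j, -, hj⟩ := r.exists_le_six (r.pinv_inf hPI (r.pinv_fixed {x}))
      have h := r.card_fixed_modEq S x hxS (q := 5) (n := 1) (by norm_num) (by rwa [pow_one])
      have hle := Subgroup.card_le_of_le (inf_le_left : S ⊓ r.fixed {x} ≤ S)
      rw [hk] at h hle
      rw [hj] at h hle
      have hj2 : j ≤ 2 := (Nat.pow_le_pow_iff_right (by norm_num)).1 hle
      have heq : S ⊓ r.fixed {x} = S := by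
        refine Subgroup.eq_of_le_of_card_ge inf_le_left ?_
        rw [hk, hj]
        interval_cases j
        · exfalso
          have hm : u ∈ S ⊓ r.fixed {x} := ⟨hu, r.mem_fixed_single.2 huf⟩
          rw [Subgroup.card_eq_one.1 (hj.trans (pow_zero 4)), Subgroup.mem_bot] at hm
          exact hu1 hm
        · exact absurd h (by decide)
        · rfl
      intro v hv
      rw [← heq] at hv
      exact r.mem_fixed_single.1 hv.2
    let Fx : Subgroup X :=
      { carrier := {y | ∀ u ∈ S, r.act y u = u}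
        one_mem' := fun u _ => r.act_one u
        mul_mem' := fun {a b} ha hb u hu => by rw [r.act_mul, hb u hu, ha u hu]
        inv_mem' := fun {a} ha u hu => by
          conv_lhs => rw [← ha u hu]
          exact r.act_inv_act a u }
    have hK : conjS g hex ≤ Fx.map r.proj := by
      refine hg.trans ((Subgroup.closure_le _).2 ?_)
      rintro m (hm | ⟨n, hn, rfl⟩)
      · obtain ⟨y, hy, hy2⟩ := r.exists_lift_two sq_duad hm
        exact ⟨y, fun u hu => hu y ⟨hy ▸ hm, hy2⟩, hy⟩
      · obtain ⟨z, hz⟩ := r.surj n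
        refine ⟨z * x * z⁻¹, fun u hu => ?_, by rw [map_mul, map_mul, map_inv, hz, hx]⟩
        rw [r.act_mul, r.act_mul, hall _ (hinv (hz.symm ▸ hN n hn) u hu).2, r.act_act_inv]
    refine ⟨g, fun y hy => ?_⟩
    obtain ⟨y', hy', hpy⟩ := hK hy.1
    obtain ⟨i, hi⟩ := r.exists_pow (x := y⁻¹ * y') (by rw [map_mul, map_inv, hpy, inv_mul_cancel])
    rw [inv_mul_eq_iff_eq_mul] at hi
    have hc : Commute y (r.p ^ i) := ((r.central y).zpow_left i).symm
    have h2 : r.p ^ (i + i) = 1 := by
      refine hfp _ w₀ hw₀1 ?_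
      have hsq := Fx.mul_mem hy' hy' w₀ hw₀S
      rwa [hi, hc.symm.mul_mul_mul_comm, hy.2, one_mul, ← zpow_add] at hsq
    have h1 : r.p ^ i = 1 := by
      have h3 : r.p ^ (3 * i) = 1 := by rw [zpow_mul, zpow_ofNat, r.cube, one_zpow]
      rw [show 3 * i = (i + i) + i by ring, zpow_add, h2, one_mul] at h3
      exact h3
    rw [h1, mul_one] at hi
    exact hi ▸ hy' w hw
  · -- the five element is transitive on the five lines
    push Not at hfix
    by_cases hw1 : w = 1
    · exact ⟨1, hw1.symm ▸ one_mem _⟩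
    have hxp : Commute x r.p := (r.central x).symm
    have hpS : ∀ j : ℕ, r.act (r.p ^ j) w₀ ∈ r.F hex := by
      intro j y hy
      rw [← r.act_mul, ← ((r.central y).pow_left j).eq, r.act_mul, hw₀h y hy]
    have hmemS : ∀ (i j : ℕ), r.act (x ^ i * r.p ^ j) w₀ ∈ S := by
      intro i j
      have hp : ∀ j : ℕ, r.act (r.p ^ j) w₀ ∈ S := by
        intro j
        induction j with
        | zero => rw [pow_zero, r.act_one]; exact hw₀S
        | succ j ih => rw [pow_succ', r.act_mul]; exact hPI _ ih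
      induction i with
      | zero => rw [pow_zero, one_mul]; exact hp j
      | succ i ih => rw [pow_succ', mul_assoc, r.act_mul]; exact hxS _ ih
    have hne : ∀ (i j : ℕ), r.act (x ^ i * r.p ^ j) w₀ ≠ 1 := fun i j h => hw₀1 (by
      have := congrArg (r.act (x ^ i * r.p ^ j)⁻¹) h
      rwa [r.act_inv_act, map_one] at this)
    let φ : Fin 5 × Fin 3 → {u : S // u ≠ 1} := fun ij =>
      ⟨⟨r.act (x ^ (ij.1 : ℕ) * r.p ^ (ij.2 : ℕ)) w₀, hmemS _ _⟩,
        fun h => hne _ _ (congrArg Subtype.val h)⟩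
    have hφ : Function.Injective φ := by
      rintro ⟨i, j⟩ ⟨i', j'⟩ h
      have h' : r.act (x ^ (i : ℕ) * r.p ^ (j : ℕ)) w₀ = r.act (x ^ (i' : ℕ) * r.p ^ (j' : ℕ)) w₀ :=
        congrArg (fun u => (u.1 : W)) h
      set d : ℤ := (i : ℤ) - i'
      set e : ℤ := (j : ℤ) - j'
      have ht : r.act (x ^ d * r.p ^ e) w₀ = w₀ := by
        have := congrArg (r.act (x ^ (i' : ℕ) * r.p ^ (j' : ℕ))⁻¹) h'
        rw [r.act_inv_act, ← r.act_mul] at this
        convert this using 3
        rw [mul_inv_rev, ← zpow_natCast x, ← zpow_natCast x, ← zpow_natCast r.p, ← zpow_natCast r.p,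
          show (r.p ^ (j' : ℤ))⁻¹ * (x ^ (i' : ℤ))⁻¹ * (x ^ (i : ℤ) * r.p ^ (j : ℤ)) =
            (r.p ^ (j' : ℤ))⁻¹ * (x ^ d * r.p ^ (j : ℤ)) by
            simp only [d, zpow_sub]; group]
        rw [← mul_assoc, ← ((hxp.zpow_zpow d (j' : ℤ)).inv_right).eq, mul_assoc, ← zpow_neg,
          ← zpow_add]
        congr 2
        simp only [e]; ring
      have hx3 : r.act (x ^ (3 * d)) w₀ = w₀ := by
        have h3 : (x ^ d * r.p ^ e) ^ 3 = x ^ (3 * d) := by
          rw [(hxp.zpow_zpow d e).mul_pow]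
          rw [← zpow_natCast (r.p ^ e), ← zpow_mul, mul_comm e, zpow_mul, zpow_natCast, r.cube,
            one_zpow, mul_one, ← zpow_natCast (x ^ d), ← zpow_mul, mul_comm d]
          rfl
        rw [← h3, pow_three, r.act_mul (x ^ d * r.p ^ e), r.act_mul (x ^ d * r.p ^ e), ht, ht, ht]
      have hd : r.act (x ^ d) w₀ = w₀ := by
        have h5 : x ^ (5 * d) = 1 := by rw [zpow_mul, zpow_ofNat, hx5, one_zpow]
        have : x ^ d = x ^ (3 * d) * x ^ (3 * d) := by
          rw [← zpow_add, show 3 * d + 3 * d = 5 * d + d by ring, zpow_add, h5, one_mul]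
        rw [this, r.act_mul, hx3, hx3]
      have hi : i = i' := by
        by_contra hii
        have hd5 : ¬ (5 : ℤ) ∣ d := by
          intro hdd
          have := i.2; have := i'.2
          apply hii; apply Fin.ext
          simp only [d] at hdd
          omega
        obtain ⟨a, b, hab⟩ : IsCoprime d (5 : ℤ) :=
          ((Int.prime_iff_natAbs_prime.2 (by norm_num)).coprime_iff_not_dvd.2 hd5).symm
        refine hfix w₀ hw₀S hw₀1 ?_
        have hxd : ∀ n : ℕ, r.act ((x ^ d) ^ n) w₀ = w₀ := fun n => by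
          induction n with
          | zero => rw [pow_zero, r.act_one]
          | succ n ih => rw [pow_succ', r.act_mul, ih, hd]
        have hxd' : ∀ n : ℤ, r.act ((x ^ d) ^ n) w₀ = w₀ := fun n => by
          rcases n with n | n
          · rw [Int.ofNat_eq_natCast, zpow_natCast]; exact hxd n
          · rw [zpow_negSucc]
            conv_lhs => rw [← hxd (n + 1)]
            exact r.act_inv_act _ _
        have : x = (x ^ d) ^ a := by
          conv_lhs => rw [← zpow_one x, ← hab, zpow_add, mul_comm b 5, zpow_mul x 5 b,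
            show x ^ (5 : ℤ) = 1 by rw [zpow_ofNat, hx5], one_zpow, mul_one, mul_comm a d, zpow_mul]
        rw [this]
        exact hxd' a
      subst hi
      have he : r.p ^ e = 1 := hfp e w₀ hw₀1 (by simpa [d] using ht)
      rw [← orderOf_dvd_iff_zpow_eq_one, r.order_p] at he
      have := j.2; have := j'.2
      refine Prod.ext rfl (Fin.ext ?_)
      simp only [e] at he
      show (j : ℕ) = (j' : ℕ)
      push_cast at he
      omega
    have hcard : Nat.card {u : S // u ≠ 1} = 15 := by
      haveI := Fintype.ofFinite S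
      have hS : Fintype.card S = 16 := by rw [← Nat.card_eq_fintype_card, hk]; norm_num
      rw [Nat.card_eq_fintype_card, Fintype.card_subtype_compl, hS, Fintype.card_subtype_eq]
    have hsurj := ((Nat.bijective_iff_injective_and_card φ).2 ⟨hφ, by rw [hcard]; simp⟩).2
    obtain ⟨⟨i, j⟩, hij⟩ := hsurj ⟨⟨w, hw⟩, fun h => hw1 (congrArg Subtype.val h)⟩
    have hij' : r.act (x ^ (i : ℕ) * r.p ^ (j : ℕ)) w₀ = w := congrArg (fun u => (u.1 : W)) hij
    refine ⟨r.proj (x ^ (i : ℕ)), r.mem_F_conj.2 ?_⟩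
    rw [← hij', r.act_mul, r.act_inv_act]
    exact hpS j

/-- Every vector fixed by a duad group is fixed by a hexad group. -/
theorem exists_hex_of_mem_duad {X : Type u} {W : Type v} [Group X] [Group W] (r : Rep X W) (a : M)
    {w : W} (hw : w ∈ r.F (conjS a duad)) : ∃ b : M, w ∈ r.F (conjS b hex) := by
  rw [← r.twist_F] at hw
  obtain ⟨b, hb⟩ := exists_hex_of_mem_duad_one (r.twist a) hw
  rw [r.twist_F] at hb
  refine ⟨a * b, ?_⟩
  have e : conjS (a * b) hex = conjS a (conjS b hex) := by
    ext y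
    simp only [mem_conjS, mul_inv_rev, mul_assoc]
  rwa [e]

end CfsgLib.Jf18
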