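import Cfsg.Agent.Jf18.Outer
import Cfsg.Agent.Jf18.Duad

/-!
A conjugate of the involution in the 2-core gives two fused elements of one elementary abelian
subgroup of order `2 ^ 11`.
-/

set_option autoImplicit false

namespace CfsgLib.Jf18.Ctx

open CfsgLib.J4Type67

universe u

variable {G : Type u} [Group G] [Finite G] (c : Ctx G)

theorem commonV_of_caseE (h : c.CaseE) : c.CommonV :=
  c.commonV_of_caseE_of_duad (fun a _ hw => exists_hex_of_mem_duad c.setup.rep a hw) h

end CfsgLib.Jf18.Ctx
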