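import Mathlib

/-!
A transitive group of automorphisms of an elementary abelian group of order `2 ^ 7`: the stabiliser
of a point has an element of order seven or is trivial.
-/

set_option autoImplicit false
set_option linter.style.haveILetI false
set_option linter.deprecated false
set_option linter.unusedSectionVars false
set_option linter.unusedVariables false

namespace CfsgLib.Jf18.Count

open scoped Pointwise

variable {D : Type*} [Group D] [Finite D]

/-- The elements fixed by an automorphism. -/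
def fixSub (σ : MulAut D) : Subgroup D where
  carrier := {x | σ x = x}
  one_mem' := map_one σ
  mul_mem' := fun {a b} ha hb => by
    simp only [Set.mem_setOf_eq] at ha hb ⊢
    rw [map_mul, ha, hb]
  inv_mem' := fun {a} ha => by
    simp only [Set.mem_setOf_eq] at ha ⊢
    rw [map_inv, ha]

omit [Finite D] in
@[simp] theorem mem_fixSub {σ : MulAut D} {x : D} : x ∈ fixSub σ ↔ σ x = x := Iff.rfl

/-- The fixed points of an automorphism of prime order in a 2-group. -/
theorem fix_modEq {r : ℕ} (hr : r.Prime) {m : ℕ} (hD : Nat.card D = 2 ^ m) {σ : MulAut D}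
    (hσ : orderOf σ = r) :
    ∃ k, k < m ∧ Nat.card (fixSub σ) = 2 ^ k ∧ 2 ^ m ≡ 2 ^ k [MOD r] := by
  haveI : Fact r.Prime := ⟨hr⟩
  obtain ⟨k, hkm, hk⟩ := (Nat.dvd_prime_pow Nat.prime_two).1
    (hD ▸ Subgroup.card_subgroup_dvd_card (fixSub σ))
  have hne : fixSub σ ≠ ⊤ := fun h => by
    have h1 : σ = 1 := MulEquiv.ext fun x => mem_fixSub.1 (h ▸ Subgroup.mem_top x)
    rw [h1, orderOf_one] at hσ
    exact hr.one_lt.ne hσ
  refine ⟨k, lt_of_le_of_ne hkm ?_, hk, ?_⟩
  · rintro rfl
    exact hne (Subgroup.eq_top_of_card_eq _ (hk.trans hD.symm))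
  have hP : IsPGroup r ↥(Subgroup.zpowers σ) :=
    IsPGroup.of_card (n := 1) (by rw [Nat.card_zpowers, hσ, pow_one])
  have h := hP.card_modEq_card_fixedPoints D
  have e : Nat.card (MulAction.fixedPoints ↥(Subgroup.zpowers σ) D) = Nat.card (fixSub σ) := by
    refine Nat.card_congr (Equiv.subtypeEquivRight fun x => ?_)
    show x ∈ MulAction.fixedPoints ↥(Subgroup.zpowers σ) D ↔ σ x = x
    rw [MulAction.mem_fixedPoints]
    constructor
    · exact fun h => h ⟨σ, Subgroup.mem_zpowers σ⟩
    · rintro h ⟨τ, i, rfl⟩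
      have hs : σ ∈ MulAction.stabilizer (MulAut D) x := h
      exact Subgroup.zpow_mem _ hs i
  rw [e, hD, hk] at h
  exact h

theorem fix127 (hD : Nat.card D = 2 ^ 7) {σ : MulAut D} (hσ : orderOf σ = 127) {x : D}
    (hx : σ x = x) : x = 1 := by
  obtain ⟨k, hk7, hk, hmod⟩ := fix_modEq (by norm_num) hD hσ
  have h0 : k = 0 := by
    interval_cases k <;> first | rfl | exact absurd hmod (by decide)
  rw [h0, pow_zero, Subgroup.card_eq_one] at hk
  exact Subgroup.mem_bot.1 (hk ▸ mem_fixSub.2 hx)

/-- An automorphism as an additive endomorphism. -/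
def toEnd {D : Type*} [CommGroup D] : MulAut D →* AddMonoid.End (Additive D) where
  toFun σ := MonoidHom.toAdditive σ.toMonoidHom
  map_one' := rfl
  map_mul' _ _ := rfl

theorem toEnd_apply {D : Type*} [CommGroup D] (σ : MulAut D) (x : Additive D) :
    toEnd σ x = Additive.ofMul (σ x.toMul) := rfl

theorem toEnd_inj {D : Type*} [CommGroup D] {σ τ : MulAut D} (h : toEnd σ = toEnd τ) : σ = τ :=
  MulEquiv.ext fun x => congrArg (fun f : AddMonoid.End (Additive D) => (f (Additive.ofMul x)).toMul) h

/-- An automorphism of order 127 is conjugate only to its powers by powers of two. -/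
theorem conj_pow_two {D : Type*} [CommGroup D] [Finite D] (h2 : ∀ x : D, x * x = 1)
    (hD : Nat.card D = 2 ^ 7) {q n : MulAut D} (hq : orderOf q = 127) {i : ℕ}
    (hn : n * q * n⁻¹ = q ^ i) : ∃ k < 7, q ^ i = q ^ 2 ^ k := by
  classical
  by_contra hno
  push Not at hno
  let A := Additive D
  set Qe : AddMonoid.End A := toEnd q with hQe
  let K := Subring.closure ({Qe} : Set (AddMonoid.End A))
  letI : CommRing K := Subring.closureCommRingOfComm (s := ({Qe} : Set (AddMonoid.End A))) (by
    rintro x hx y hy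
    simp only [Set.mem_singleton_iff] at hx hy
    rw [hx, hy])
  let qK : K := ⟨Qe, Subring.subset_closure rfl⟩
  obtain ⟨e, he⟩ : ∃ e : D, e ≠ 1 := by
    haveI : Nontrivial D := Finite.one_lt_card_iff_nontrivial.1 (by rw [hD]; norm_num)
    exact exists_ne 1
  let f : Fin 127 → {x : D // x ≠ 1} := fun j => ⟨(q ^ (j : ℕ)) e, fun h => he (by
    rwa [map_eq_one_iff _ (q ^ (j : ℕ)).injective] at h)⟩
  have hf : Function.Injective f := by
    intro a b h
    have h' : (q ^ (a : ℕ)) e = (q ^ (b : ℕ)) e := congrArg Subtype.val h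
    rcases le_total (a : ℕ) (b : ℕ) with hab | hab
    · obtain ⟨d, hd⟩ := Nat.exists_eq_add_of_le hab
      rw [hd, pow_add, MulAut.mul_apply] at h'
      have h'' : (q ^ d) e = e := ((q ^ (a : ℕ)).injective h').symm
      by_contra hne
      have hd0 : d ≠ 0 := fun h0 => hne (Fin.ext (by omega))
      have hord : orderOf (q ^ d) = 127 := by
        rw [Nat.Coprime.orderOf_pow, hq]
        rw [hq]
        exact ((Nat.Prime.coprime_iff_not_dvd (by norm_num)).2
          (Nat.not_dvd_of_pos_of_lt (Nat.pos_of_ne_zero hd0) (by omega)))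
      exact he (fix127 hD hord h'')
    · obtain ⟨d, hd⟩ := Nat.exists_eq_add_of_le hab
      rw [hd, pow_add, MulAut.mul_apply] at h'
      have h'' : (q ^ d) e = e := (q ^ (b : ℕ)).injective h'
      by_contra hne
      have hd0 : d ≠ 0 := fun h0 => hne (Fin.ext (by omega))
      have hord : orderOf (q ^ d) = 127 := by
        rw [Nat.Coprime.orderOf_pow, hq]
        rw [hq]
        exact ((Nat.Prime.coprime_iff_not_dvd (by norm_num)).2
          (Nat.not_dvd_of_pos_of_lt (Nat.pos_of_ne_zero hd0) (by omega)))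
      exact he (fix127 hD hord h'')
  have hsurj : ∀ x : D, x ≠ 1 → ∃ j : ℕ, (q ^ j) e = x := by
    have hb : Function.Bijective f := by
      refine (Nat.bijective_iff_injective_and_card f).2 ⟨hf, ?_⟩
      haveI := Fintype.ofFinite D
      rw [Nat.card_eq_fintype_card, Nat.card_eq_fintype_card, Fintype.card_subtype_compl,
        Fintype.card_subtype_eq, Fintype.card_fin, ← Nat.card_eq_fintype_card, hD]
      norm_num
    intro x hx
    obtain ⟨j, hj⟩ := hb.2 ⟨x, hx⟩
    exact ⟨j, congrArg Subtype.val hj⟩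
  -- an element of `K` killing a non-zero vector is zero
  have hkill : ∀ a : K, (a : AddMonoid.End A) (Additive.ofMul e) = 0 → a = 0 := by
    intro a ha
    refine Subtype.ext (AddMonoidHom.ext fun x => ?_)
    show (a : AddMonoid.End A) x = 0
    by_cases hx : x.toMul = 1
    · rw [show x = 0 from hx, map_zero]
    obtain ⟨j, hj⟩ := hsurj _ hx
    have e1 : x = ((qK ^ j : K) : AddMonoid.End A) (Additive.ofMul e) := by
      rw [SubmonoidClass.coe_pow, show ((qK : K) : AddMonoid.End A) = toEnd q from rfl, ← map_pow,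
        toEnd_apply]
      exact hj.symm
    rw [e1]
    have e2 : ((a * qK ^ j : K) : AddMonoid.End A) (Additive.ofMul e) =
        ((qK ^ j * a : K) : AddMonoid.End A) (Additive.ofMul e) := by rw [mul_comm]
    simp only [Subring.coe_mul] at e2
    change (a : AddMonoid.End A) (((qK ^ j : K) : AddMonoid.End A) (Additive.ofMul e)) =
      ((qK ^ j : K) : AddMonoid.End A) ((a : AddMonoid.End A) (Additive.ofMul e)) at e2
    rw [e2, ha, map_zero]
  have hinj : ∀ a : K, a ≠ 0 → ∀ x : A, (a : AddMonoid.End A) x = 0 → x = 0 := by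
    intro a ha x hx
    by_contra hx0
    obtain ⟨j, hj⟩ := hsurj x.toMul hx0
    refine ha ?_
    have hzero : (a * qK ^ j : K) = 0 := hkill _ (by
      rw [Subring.coe_mul, SubmonoidClass.coe_pow, show ((qK : K) : AddMonoid.End A) = toEnd q from rfl,
        ← map_pow]
      change (a : AddMonoid.End A) ((toEnd (q ^ j)) (Additive.ofMul e)) = 0
      rw [toEnd_apply]
      show (a : AddMonoid.End A) (Additive.ofMul ((q ^ j) e)) = 0
      rw [hj]
      exact hx)
    have hq1 : qK ^ 127 = 1 := Subtype.ext (by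
      rw [SubmonoidClass.coe_pow, show ((qK : K) : AddMonoid.End A) = toEnd q from rfl, ← map_pow,
        ← hq, pow_orderOf_eq_one, map_one]
      rfl)
    calc a = a * (qK ^ 127) ^ j := by rw [hq1, one_pow, mul_one]
      _ = a * qK ^ j * qK ^ (126 * j) := by rw [← pow_mul, mul_assoc, ← pow_add]; ring_nf
      _ = 0 := by rw [hzero, zero_mul]
  haveI : Nontrivial K := ⟨⟨0, 1, fun h => he (by
    have := congrArg (fun a : K => (a : AddMonoid.End A) (Additive.ofMul e)) h
    exact this.symm)⟩⟩
  haveI : NoZeroDivisors K := ⟨fun {a b} hab => by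
    rw [or_iff_not_imp_left]
    intro ha
    refine Subtype.ext (AddMonoidHom.ext fun x => hinj a ha _ ?_)
    exact congrArg (fun c : K => (c : AddMonoid.End A) x) hab⟩
  haveI : IsDomain K := NoZeroDivisors.to_isDomain K
  haveI : CharP K 2 := CharTwo.of_one_ne_zero_of_two_eq_zero one_ne_zero (by
    refine Subtype.ext (AddMonoidHom.ext fun x => ?_)
    show ((2 : K) : AddMonoid.End A) x = 0
    rw [← one_add_one_eq_two]
    exact h2 x.toMul)
  -- a dependency among the first eight powers
  let g : Finset (Fin 8) → A := fun P => ((∑ j ∈ P, qK ^ (j : ℕ) : K) : AddMonoid.End A)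
    (Additive.ofMul e)
  obtain ⟨P, P', hne, hPP⟩ : ∃ P P', P ≠ P' ∧ g P = g P' := by
    haveI := Fintype.ofFinite A
    refine Fintype.exists_ne_map_eq_of_card_lt g ?_
    rw [Fintype.card_finset, Fintype.card_fin, ← Nat.card_eq_fintype_card]
    change Nat.card D < _
    rw [hD]; norm_num
  have hq0 : (∑ j ∈ P, qK ^ (j : ℕ)) = ∑ j ∈ P', qK ^ (j : ℕ) := by
    refine sub_eq_zero.1 (hkill _ ?_)
    rw [AddSubgroupClass.coe_sub]
    exact sub_eq_zero.2 hPP
  let Φ : K → Prop := fun x => (∑ j ∈ P, x ^ (j : ℕ)) = ∑ j ∈ P', x ^ (j : ℕ)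
  have hsq : ∀ k : ℕ, Φ (qK ^ 2 ^ k) := by
    intro k
    induction k with
    | zero => simpa [Φ] using hq0
    | succ k ih =>
      have := congrArg (fun x : K => x ^ 2) ih
      simp only [sum_pow_char, ← pow_mul] at this
      simp only [Φ, pow_succ 2 k, ← pow_mul]
      convert this using 3 <;> ring
  have hqi : Φ (qK ^ i) := by
    have hni : ∀ j : ℕ, (toEnd n) * toEnd q ^ j * toEnd n⁻¹ = (toEnd q ^ i) ^ j := fun j => by
      rw [← map_pow, ← map_pow, ← map_pow, ← map_mul, ← map_mul, ← hn, conj_pow]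
    show _ = _
    apply Subtype.ext
    have key : ∀ S : Finset (Fin 8), ((∑ j ∈ S, (qK ^ i) ^ (j : ℕ) : K) : AddMonoid.End A) =
        toEnd n * ((∑ j ∈ S, qK ^ (j : ℕ) : K) : AddMonoid.End A) * toEnd n⁻¹ := fun S => by
      simp only [AddSubmonoidClass.coe_finsetSum, SubmonoidClass.coe_pow, Finset.mul_sum,
        Finset.sum_mul]
      exact Finset.sum_congr rfl fun j _ => (hni j).symm
    rw [key, key, hq0]
  -- too many roots
  let p : Polynomial K := (∑ j ∈ P, Polynomial.X ^ (j : ℕ)) - ∑ j ∈ P', Polynomial.X ^ (j : ℕ)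
  have hp0 : p = 0 := by
    let T : Finset ℕ := insert (i % 127) ((Finset.range 7).image (2 ^ ·))
    have hT : T.card = 8 := by
      rw [Finset.card_insert_of_notMem, Finset.card_image_of_injective _
        (Nat.pow_right_injective (le_refl 2)), Finset.card_range]
      rw [Finset.mem_image]
      rintro ⟨k, hk, hk'⟩
      refine hno k (Finset.mem_range.1 hk) ?_
      rw [pow_eq_pow_iff_modEq, hq]
      show i % 127 = 2 ^ k % 127
      rw [hk', Nat.mod_mod]
    have hTlt : ∀ a ∈ T, a < 127 := by
      intro a ha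
      rcases Finset.mem_insert.1 ha with rfl | ha
      · exact Nat.mod_lt _ (by norm_num)
      · obtain ⟨k, hk, rfl⟩ := Finset.mem_image.1 ha
        rw [Finset.mem_range] at hk
        interval_cases k <;> norm_num
    have hR : ∀ a ∈ T, ∀ b ∈ T, qK ^ a = qK ^ b → a = b := by
      intro a ha b hb hab
      have h' : q ^ a = q ^ b := toEnd_inj (by
        rw [map_pow, map_pow]
        exact congrArg Subtype.val hab)
      rw [pow_eq_pow_iff_modEq, hq] at h'
      exact h'.eq_of_lt_of_lt (hTlt a ha) (hTlt b hb)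
    refine Polynomial.eq_zero_of_natDegree_lt_card_of_eval_eq_zero' p (T.image (qK ^ ·)) ?_ ?_
    · intro x hx
      obtain ⟨a, ha, rfl⟩ := Finset.mem_image.1 hx
      have : Φ (qK ^ a) := by
        rcases Finset.mem_insert.1 ha with rfl | ha
        · rwa [show qK ^ (i % 127) = qK ^ i from Subtype.ext (by
            rw [SubmonoidClass.coe_pow, SubmonoidClass.coe_pow,
              show ((qK : K) : AddMonoid.End A) = toEnd q from rfl, ← map_pow, ← map_pow, ← hq,
              pow_mod_orderOf])]
        · obtain ⟨k, -, rfl⟩ := Finset.mem_image.1 ha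
          exact hsq k
      simp only [p, Polynomial.eval_sub, Polynomial.eval_finsetSum, Polynomial.eval_pow,
        Polynomial.eval_X]
      exact sub_eq_zero.2 this
    · rw [Finset.card_image_of_injOn hR, hT]
      refine Nat.lt_succ_of_le ((Polynomial.natDegree_sub_le _ _).trans (max_le ?_ ?_)) <;>
      · refine Polynomial.natDegree_sum_le_of_forall_le _ _ fun j _ => ?_
        rw [Polynomial.natDegree_X_pow]
        have := j.2
        omega
  refine hne (Finset.ext fun j => ?_)
  have := congrArg (fun x : Polynomial K => x.coeff (j : ℕ)) hp0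
  simp only [p, Polynomial.coeff_sub, Polynomial.finsetSum_coeff, Polynomial.coeff_X_pow,
    Polynomial.coeff_zero, Fin.val_inj, Finset.sum_ite_eq, sub_eq_zero] at this
  by_cases h1 : j ∈ P <;> by_cases h1' : j ∈ P' <;> simp_all

/-- No group of automorphisms is transitive with stabiliser as given. -/
theorem no_transitive {D : Type*} [CommGroup D] [Finite D] (h2 : ∀ x : D, x * x = 1)
    (hD : Nat.card D = 2 ^ 7) (L : Subgroup (MulAut D)) {z : D} (hz : z ≠ 1)
    (ht : ∀ x : D, x ≠ 1 → ∃ l ∈ L, l z = x) {ε : MulAut D} (hε : ε ∈ L) (hεz : ε z = z)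
    (hε1 : ε ≠ 1) (h7 : ∀ l ∈ L, l z = z → orderOf l ≠ 7) : False := by
  classical
  haveI : Finite (MulAut D) := Finite.of_injective (fun σ x => σ x) fun _ _ h => MulEquiv.ext (congrFun h)
  haveI : Fact (Nat.Prime 127) := ⟨by norm_num⟩
  haveI : Fact (Nat.Prime 7) := ⟨by norm_num⟩
  set S := MulAction.stabilizer L z with hS
  have hidx : S.index = 127 := by
    rw [hS, MulAction.index_stabilizer]
    have e : MulAction.orbit L z = {x : D | x ≠ 1} := by
      ext x
      constructor
      · rintro ⟨l, rfl⟩ h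
        exact hz ((map_eq_one_iff (l : MulAut D) (l : MulAut D).injective).1 h)
      · intro hx
        obtain ⟨l, hl, hlx⟩ := ht x hx
        exact ⟨⟨l, hl⟩, hlx⟩
    rw [e, show {x : D | x ≠ 1} = ({1} : Set D)ᶜ by ext x; simp, Set.ncard_compl, Set.ncard_singleton,
      hD]
    norm_num
  have hL : Nat.card L = 127 * Nat.card S := by rw [← hidx, mul_comm, Subgroup.card_mul_index]
  have hS127 : ¬ 127 ∣ Nat.card S := fun h => by
    obtain ⟨l, hl⟩ := exists_prime_orderOf_dvd_card' 127 h
    rw [← Subgroup.orderOf_coe, ← Subgroup.orderOf_coe] at hl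
    exact hz (fix127 hD hl l.2)
  have hL7 : ¬ 7 ∣ Nat.card L := fun h => by
    rw [hL] at h
    rcases (Nat.Prime.dvd_mul (by norm_num)).1 h with h | h
    · norm_num at h
    obtain ⟨l, hl⟩ := exists_prime_orderOf_dvd_card' 7 h
    rw [← Subgroup.orderOf_coe, ← Subgroup.orderOf_coe] at hl
    exact h7 _ l.1.2 l.2 hl
  obtain ⟨q, hq⟩ := exists_prime_orderOf_dvd_card' (G := L) 127 ⟨_, hL⟩
  have hfac : (Nat.card L).factorization 127 = 1 := by
    rw [hL, Nat.factorization_mul (by norm_num) (Nat.card_pos.ne'), Finsupp.add_apply,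
      Nat.Prime.factorization_self (by norm_num), Nat.factorization_eq_zero_of_not_dvd hS127]
  let P : Sylow 127 L := Sylow.ofCard (Subgroup.zpowers q) (by
    rw [Nat.card_zpowers, hq, hfac, pow_one])
  have hP : (P : Subgroup L) = Subgroup.zpowers q := rfl
  have hN : Subgroup.normalizer ((P : Subgroup L) : Set L) ≤ Subgroup.centralizer ((P : Subgroup L) : Set L) := by
    intro n hn
    have hnq : n * q * n⁻¹ ∈ Subgroup.zpowers q :=
      hP ▸ (Subgroup.mem_normalizer_iff.1 hn q).1 (hP ▸ Subgroup.mem_zpowers q)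
    rw [mem_zpowers_iff_mem_range_orderOf, hq] at hnq
    obtain ⟨i, -, hi⟩ := Finset.mem_image.1 hnq
    have hi' : (n : MulAut D) * q * (n : MulAut D)⁻¹ = (q : MulAut D) ^ i := by
      rw [← SubmonoidClass.coe_pow, hi]; rfl
    have hq' : orderOf (q : MulAut D) = 127 := by rw [Subgroup.orderOf_coe, hq]
    obtain ⟨k, hk, hqk⟩ := conj_pow_two h2 hD hq' hi'
    have hik : q ^ i = q ^ 2 ^ k := Subtype.ext (by simpa using hqk)
    rw [hik] at hi
    -- iterate
    have hiter : ∀ m : ℕ, n ^ m * q * (n ^ m)⁻¹ = q ^ 2 ^ (k * m) := by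
      intro m
      induction m with
      | zero => simp
      | succ m ih =>
        rw [pow_succ', show n * n ^ m * q * (n * n ^ m)⁻¹ = n * (n ^ m * q * (n ^ m)⁻¹) * n⁻¹ by
          group, ih, ← conj_pow, ← hi, ← pow_mul, ← pow_add]
        ring_nf
    have hk0 : k = 0 := by
      by_contra hk0
      have h := hiter (orderOf n)
      rw [pow_orderOf_eq_one, one_mul, inv_one, mul_one] at h
      have h' : q ^ 1 = q ^ 2 ^ (k * orderOf n) := by rw [pow_one]; exact h
      rw [pow_eq_pow_iff_modEq, hq] at h'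
      refine hL7 (dvd_trans ?_ (orderOf_dvd_natCard n))
      have hred : ∀ a, 2 ^ a % 127 = 2 ^ (a % 7) % 127 := fun a => by
        conv_lhs => rw [← Nat.div_add_mod a 7, pow_add, pow_mul, Nat.mul_mod, Nat.pow_mod,
          show 2 ^ 7 % 127 = 1 by norm_num, one_pow]
        rw [show (1 : ℕ) % 127 = 1 from rfl, one_mul, Nat.mod_mod]
      rw [Nat.ModEq, hred] at h'
      have h0 : (k * orderOf n) % 7 = 0 := by
        have := Nat.mod_lt (k * orderOf n) (show 0 < 7 by norm_num)
        generalize (k * orderOf n) % 7 = r at h' this ⊢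
        interval_cases r <;> first | rfl | exact absurd h' (by decide)
      rcases (Nat.Prime.dvd_mul (by norm_num)).1 (Nat.dvd_of_mod_eq_zero h0) with h | h
      · exact absurd (Nat.le_of_dvd (Nat.pos_of_ne_zero hk0) h) (by omega)
      · exact h
    rw [hk0, pow_zero, pow_one, eq_comm] at hi
    rw [Subgroup.mem_centralizer_iff, hP]
    rintro _ ⟨j, rfl⟩
    exact (Commute.zpow_left (mul_inv_eq_iff_eq_mul.1 hi).symm j).eq
  set K := (MonoidHom.transferSylow P hN).ker with hK
  have hc := MonoidHom.ker_transferSylow_isComplement' P hN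
  have hKi : K.index = 127 := by
    rw [hc.symm.index_eq_card, hP, Nat.card_zpowers, hq]
  have hSK : S ≤ K := by
    intro s hs
    have h1 := Subgroup.pow_index_mem K s
    rw [hKi] at h1
    have h2' : s ^ Nat.card S = 1 := congrArg Subtype.val (pow_card_eq_one' (x := (⟨s, hs⟩ : S)))
    have hg : Nat.Coprime 127 (Nat.card S) := (Nat.Prime.coprime_iff_not_dvd (by norm_num)).2 hS127
    have : orderOf (QuotientGroup.mk s : L ⧸ K) ∣ Nat.gcd 127 (Nat.card S) := Nat.dvd_gcd
      (orderOf_dvd_of_pow_eq_one (by rw [← QuotientGroup.mk_pow, QuotientGroup.eq_one_iff]; exact h1))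
      (orderOf_dvd_of_pow_eq_one (by rw [← QuotientGroup.mk_pow, h2']; rfl))
    rw [hg, Nat.dvd_one, orderOf_eq_one_iff, QuotientGroup.eq_one_iff] at this
    exact this
  have hKS : S = K := by
    refine Subgroup.eq_of_le_of_card_ge hSK ?_
    have h1 := Subgroup.card_mul_index K
    rw [hKi, hL] at h1
    omega
  haveI : S.Normal := hKS ▸ inferInstanceAs (MonoidHom.transferSylow P hN).ker.Normal
  refine hε1 (MulEquiv.ext fun x => ?_)
  show ε x = x
  by_cases hx : x = 1
  · rw [hx, map_one]
  obtain ⟨l, hl, rfl⟩ := ht x hx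
  have hs : (⟨l, hl⟩ : L)⁻¹ * ⟨ε, hε⟩ * (⟨l, hl⟩ : L)⁻¹⁻¹ ∈ S :=
    Subgroup.Normal.conj_mem inferInstance _ (show (⟨ε, hε⟩ : L) ∈ S from hεz) _
  have := congrArg (fun y => l y) (MulAction.mem_stabilizer_iff.1 hs)
  change l (((l⁻¹ * ε * l⁻¹⁻¹ : MulAut D)) z) = l z at this
  simpa using this

end CfsgLib.Jf18.Count
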