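import Cfsg.Agent.J4Type67.Module
import Mathlib.GroupTheory.IndexNormal

/-!
Invariant subsets of the fixed space of the first elementary subgroup of `M22` in the module.
-/

set_option autoImplicit false

namespace CfsgLib.Jf18

open CfsgLib.J4Type67
open scoped Pointwise commutatorElement

universe u v

variable {X : Type u} {W : Type v} [Group X] [Group W] (r : Rep X W)

/-- The products of conjugates of the element of order five normalise the first subgroup. -/
theorem closure_normalizes {u : M} {N : Set M} (hu : conjS u hex = hex)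
    (hN : ∀ n ∈ N, conjS n hex = hex) {b : M}
    (hb : b ∈ Subgroup.closure ((fun n => n * u * n⁻¹) '' N)) : conjS b hex = hex := by
  have key : ∀ g : M, conjS g hex = hex → g ∈ Subgroup.normalizer (hex : Set M) := fun g hg =>
    Subgroup.mem_normalizer_iff.2 fun h => by
      conv_rhs => rw [← hg]
      simp [mul_assoc]
  have hstab : Subgroup.closure ((fun n => n * u * n⁻¹) '' N) ≤
      Subgroup.normalizer (hex : Set M) := by
    rw [Subgroup.closure_le]
    rintro _ ⟨n, hn, rfl⟩
    exact mul_mem (mul_mem (key n (hN n hn)) (key u hu)) (inv_mem (key n (hN n hn)))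
  have h := Subgroup.mem_normalizer_iff.1 (hstab hb)
  ext c
  rw [mem_conjS]
  simpa [mul_assoc] using h (b⁻¹ * c * b)

theorem conj_one_hex : conjS (1 : M) hex = hex := by
  ext x
  simp [mem_conjS]

/-- Nine divides the size of an invariant set of nontrivial vectors of the first fixed space. -/
theorem nine_dvd_card {T : Set W} (h1 : (1 : W) ∉ T)
    (hT : ∀ x, conjS (r.proj x) hex = hex → ∀ w ∈ T, r.act x w ∈ T) : 9 ∣ Nat.card T := by
  classical
  have := r.finite_W
  have := r.finite_X
  have : Fact (Nat.Prime 3) := ⟨Nat.prime_three⟩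
  obtain ⟨R, x, y, -, hR, u, N, hu, -, -, hN, hx, hy⟩ := r.exists_sylow_three
  have hnorm : ∀ a ∈ (R : Subgroup X), conjS (r.proj a) hex = hex := fun a ha =>
    closure_normalizes hu hN ((Subgroup.closure_le _).2
      (by rintro b (rfl | rfl) <;> assumption) (hR a ha))
  let _ : MulAction (R : Subgroup X) T :=
    { smul := fun a w => ⟨r.act a.1 w.1, hT a.1 (hnorm a.1 a.2) w.1 w.2⟩
      one_smul := fun w => Subtype.ext (r.act_one _)
      mul_smul := fun a b w => Subtype.ext (r.act_mul _ _ _) }
  have hp := r.p_mem_commutator R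
  have hpR : r.p ∈ (R : Subgroup X) := Subgroup.commutator_le_self _ hp
  have horb : ∀ w : T, 9 ∣ Nat.card (MulAction.orbit (R : Subgroup X) w) := by
    intro w
    obtain ⟨n, hn⟩ := R.isPGroup'.card_orbit (α := T) w
    have hfix : ¬ (⟨r.p, hpR⟩ : (R : Subgroup X)) • w = w := fun h =>
      h1 (r.fpf _ (congrArg Subtype.val h) ▸ w.2)
    rcases n with _ | _ | n
    · exfalso
      rw [pow_zero, Nat.card_eq_one_iff_unique] at hn
      have := hn.1
      exact hfix (congrArg Subtype.val (Subsingleton.elim
        (⟨(⟨r.p, hpR⟩ : (R : Subgroup X)) • w, MulAction.mem_orbit _ _⟩ :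
          MulAction.orbit (R : Subgroup X) w) ⟨w, MulAction.mem_orbit_self _⟩))
    · exfalso
      have hidx : (MulAction.stabilizer (R : Subgroup X) w).index = 3 := by
        rw [MulAction.index_stabilizer, ← Nat.card_coe_set_eq, hn, pow_one]
      obtain ⟨e, he⟩ := IsPGroup.iff_card.1 R.isPGroup'
      have he0 : e ≠ 0 := fun h => by
        have := (MulAction.stabilizer (R : Subgroup X) w).index_dvd_card
        rw [he, h, hidx] at this
        norm_num at this
      have : (MulAction.stabilizer (R : Subgroup X) w).Normal :=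
        Subgroup.normal_of_index_eq_minFac_card (by
          rw [hidx, he, Nat.pow_minFac he0, Nat.Prime.minFac_eq Nat.prime_three])
      have : IsCyclic ((R : Subgroup X) ⧸ MulAction.stabilizer (R : Subgroup X) w) :=
        isCyclic_of_prime_card (p := 3) hidx
      have hle : commutator (R : Subgroup X) ≤ MulAction.stabilizer (R : Subgroup X) w :=
        Subgroup.Normal.quotient_commutative_iff_commutator_le.1
          ⟨⟨fun a b => (IsCyclic.commGroup (α :=
            (R : Subgroup X) ⧸ MulAction.stabilizer (R : Subgroup X) w)).mul_comm a b⟩⟩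
      rw [← Subgroup.map_subtype_commutator] at hp
      obtain ⟨c, hc, hcp⟩ := hp
      exact hfix ((show c = ⟨r.p, hpR⟩ from Subtype.ext hcp) ▸ hle hc)
    · exact hn ▸ Dvd.intro (3 ^ n) (by rw [pow_succ, pow_succ]; ring)
  have : Fintype (MulAction.orbitRel.Quotient (R : Subgroup X) T) := Fintype.ofFinite _
  rw [Nat.card_congr (MulAction.selfEquivSigmaOrbits (R : Subgroup X) T), Nat.card_sigma]
  exact Finset.dvd_sum fun ω _ => horb _

/-- An invariant set of nontrivial vectors of the first fixed space has 0, 18, 45 or 63 members. -/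
theorem card_invariant {T : Set W} (hTF : T ⊆ (r.F hex : Set W)) (h1 : (1 : W) ∉ T)
    (hT : ∀ x, conjS (r.proj x) hex = hex → ∀ w ∈ T, r.act x w ∈ T) :
    (Nat.card T = 0 ∨ Nat.card T = 18 ∨ Nat.card T = 45 ∨ Nat.card T = 63) ∧
      (Nat.card T = 63 → ∀ w ∈ r.F hex, w ≠ 1 → w ∈ T) := by
  classical
  have := r.finite_W
  set S := r.F hex
  have hS : Nat.card S = 64 := r.card_F_hex
  have hTle : Nat.card T + 1 ≤ 64 := by
    rw [Nat.card_coe_set_eq, ← Set.ncard_insert_of_notMem h1 T.toFinite, ← hS]
    exact Set.ncard_le_ncard (Set.insert_subset (one_mem S) hTF) (S : Set W).toFinite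
  refine ⟨?_, fun h63 w hw hw1 => ?_⟩
  · obtain ⟨u, hu, hu5, hbd⟩ := r.five_bound
    have hun : conjS (r.proj u) hex = hex := by
      rw [hu]; exact conjS_eq basis_ok.1 hex_normal_data.2.1
    have hSu : ∀ w ∈ S, r.act u w ∈ S := fun w hw => r.F_invariant hun hw
    have hC : Nat.card ↥(S ⊓ r.fixed {u}) = 4 := by
      have h := r.card_fixed_modEq S u hSu (q := 5) (n := 1) (by norm_num) (by rwa [pow_one])
      obtain ⟨k, -, hk⟩ := r.exists_le_six (r.pinv_inf (r.pinv_fixed _) (r.pinv_fixed {u}))
      have hle := (Subgroup.card_le_of_le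
        (inf_le_right : S ⊓ r.fixed {u} ≤ r.fixed {u})).trans hbd
      change Nat.card ↥(S ⊓ r.fixed {u}) = _ at hk
      rw [hS] at h
      rw [hk] at h hle ⊢
      have hk3 : k ≤ 2 := by
        by_contra h'
        have := (Nat.pow_le_pow_right (by norm_num : 0 < 4) (by omega : 3 ≤ k)).trans hle
        norm_num at this
      interval_cases k
      · simp [Nat.ModEq] at h
      · rfl
      · simp [Nat.ModEq] at h
    let f : T → T := fun w => ⟨r.act u w, hT u hun w w.2⟩
    have hit : ∀ (k : ℕ) (w : T), ((f^[k] w : T) : W) = r.act (u ^ k) w := by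
      intro k w
      induction k with
      | zero => rw [pow_zero, r.act_one]; rfl
      | succ k ih => rw [Function.iterate_succ_apply', pow_succ', r.act_mul, ← ih]
    have h5 := card_modEq f (q := 5) (n := 1) (by norm_num)
      fun w => Subtype.ext (by rw [hit, pow_one, hu5, r.act_one])
    have hle3 : Nat.card {a : T // f a = a} + 1 ≤ 4 := by
      rw [← hC]
      let g : Option {a : T // f a = a} → ↥(S ⊓ r.fixed {u}) := fun o => o.elim 1 fun a =>
        ⟨a.1.1, hTF a.1.2, r.mem_fixed_single.2 (congrArg Subtype.val a.2)⟩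
      have hg : Function.Injective g := by
        intro a b hab
        have h := congrArg Subtype.val hab
        rcases a with _ | a <;> rcases b with _ | b
        · rfl
        · exact absurd (show (1 : W) ∈ T from (show (1 : W) = b.1.1 from h).symm ▸ b.1.2) h1
        · exact absurd (show (1 : W) ∈ T from (show a.1.1 = (1 : W) from h) ▸ a.1.2) h1
        · exact congrArg some (Subtype.ext (Subtype.ext h))
      simpa [Finite.card_option] using Nat.card_le_card_of_injective g hg
    have hfix : Nat.card {a : T // f a = a} = 0 ∨ Nat.card {a : T // f a = a} = 3 := by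
      rcases isEmpty_or_nonempty {a : T // f a = a} with h | ⟨⟨a, ha⟩⟩
      · exact Or.inl Nat.card_of_isEmpty
      · right
        have hp1 : conjS (r.proj r.p) hex = hex := by rw [r.proj_p]; exact conj_one_hex
        let φ : {a : T // f a = a} → {a : T // f a = a} := fun b =>
          ⟨⟨r.act r.p b.1.1, hT _ hp1 _ b.1.2⟩, Subtype.ext (by
            show r.act u (r.act r.p b.1.1) = _
            rw [r.act_comm]
            exact congrArg (r.act r.p) (congrArg Subtype.val b.2))⟩
        have hne : ∀ b, φ b ≠ b := fun b e =>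
          h1 (r.fpf _ (congrArg (fun c : {a : T // f a = a} => c.1.1) e) ▸ b.1.2)
        have hne2 : ∀ b, φ (φ b) ≠ b := fun b e => by
          have h := congrArg (fun c : {a : T // f a = a} => r.act r.p c.1.1) e
          change r.act r.p (r.act r.p (r.act r.p b.1.1)) = r.act r.p b.1.1 at h
          rw [← r.act_mul, ← r.act_mul, ← pow_three', r.cube, r.act_one] at h
          exact h1 (r.fpf _ h.symm ▸ b.1.2)
        let g : Fin 3 → {a : T // f a = a} := ![⟨a, ha⟩, φ ⟨a, ha⟩, φ (φ ⟨a, ha⟩)]
        have hg : Function.Injective g := by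
          intro i j hij
          fin_cases i <;> fin_cases j <;> first
            | rfl
            | exact absurd hij (hne _).symm
            | exact absurd hij (hne _)
            | exact absurd hij (hne2 _).symm
            | exact absurd hij (hne2 _)
        have h3 := Nat.card_le_card_of_injective g hg
        rw [Nat.card_fin] at h3
        omega
    have h9 := nine_dvd_card r h1 hT
    unfold Nat.ModEq at h5
    omega
  · have he : insert (1 : W) T = (S : Set W) := by
      refine Set.eq_of_subset_of_ncard_le (Set.insert_subset (one_mem S) hTF) ?_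
        (S : Set W).toFinite
      rw [Set.ncard_insert_of_notMem h1 T.toFinite, ← Nat.card_coe_set_eq, ← Nat.card_coe_set_eq,
        h63]
      exact hS.le
    rcases (he.symm ▸ hw : w ∈ insert (1 : W) T) with h | h
    exacts [absurd h hw1, h]

end CfsgLib.Jf18
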