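import Cfsg.Agent.Jf18.Basic
import Cfsg.Agent.Jf18.HexOrbits
import Cfsg.Agent.Jf18.Invol
import Cfsg.Agent.J4Type67.Elementary

/-!
The number of fused involutions in an elementary abelian subgroup of order `2 ^ 11`.
-/

set_option autoImplicit false
set_option linter.unusedSectionVars false

namespace CfsgLib.Jf18

open CfsgLib.J4Type67
open scoped Pointwise

universe u

/-- An elementary abelian subgroup of order `2 ^ 11` with its shape. -/
structure BigElem {H : Type u} [Group H] [Finite H] (d : Setup H) where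
  V : Subgroup H
  sq : ∀ x ∈ V, x * x = 1
  g : M
  card : Nat.card V = 2 ^ 11
  pi_mem : ∀ v ∈ V, d.π v ∈ (conjS g hex).map (MulAut.conj : M →* MulAut M)
  inf_E : V ⊓ d.E = d.pre (d.rep.F (conjS g hex))
  ker_mem : ∀ x ∈ V, x ∈ d.π.ker → x ∈ d.E

variable {H : Type u} [Group H] [Finite H] {d : Setup H}

theorem exists_bigElem (d : Setup H) {V : Subgroup H} (hV : ∀ x ∈ V, x * x = 1)
    (hc : Nat.card V = 2 ^ 11) : ∃ B : BigElem d, B.V = V := by
  have : Fact (Nat.Prime 2) := ⟨Nat.prime_two⟩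
  have hp : IsPGroup 2 V := IsPGroup.iff_card.2 ⟨11, hc⟩
  obtain ⟨T, hT⟩ := hp.exists_le_sylow
  obtain ⟨S, hS⟩ := d.innPre_eq_sylow T
  obtain ⟨g, -, hcases⟩ := elem_in_sylow S
  rw [← hS] at hcases
  obtain ⟨h1, h2⟩ := d.shape T hcases hT (fun a ha b hb => comm_of_sq hV ha hb) hV hc
  exact ⟨⟨V, hV, g, hc, h1, h2, fun x hx hk => d.ker_inf_sylow T (hT hx) hk⟩, rfl⟩

namespace BigElem

variable (B : BigElem d)

/-- The subgroup of `M22` below. -/
abbrev A : Subgroup M := conjS B.g hex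

/-- The part in the extraspecial group. -/
abbrev D : Subgroup H := B.V ⊓ d.E

theorem comm {a b : H} (ha : a ∈ B.V) (hb : b ∈ B.V) : Commute a b := comm_of_sq B.sq ha hb

theorem sq_A {a : M} (ha : a ∈ B.A) : a * a = 1 := by
  obtain ⟨b, hb, rfl⟩ := ha
  rw [← map_mul, sq_hex b hb, map_one]

theorem card_A : Nat.card B.A = 16 := (card_conjS _ _).trans card_hex

theorem card_D : Nat.card B.D = 128 := by
  show Nat.card ↥(B.V ⊓ d.E) = 128
  rw [B.inf_E, d.card_pre, d.rep.card_F_conj, d.rep.card_F_hex]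

theorem z_mem_D : d.z ∈ B.D := by
  show d.z ∈ B.V ⊓ d.E
  rw [B.inf_E]
  exact d.mem_pre.2 ⟨d.zmem, by
    rw [(d.q_one_iff).2 (Subgroup.mem_zpowers _)]; exact one_mem _⟩

theorem cent_D : d.E ⊓ Subgroup.centralizer (B.D : Set H) = B.D := by
  have h := d.card_centralizer_eq (U := B.D) inf_le_right B.z_mem_D
  rw [B.card_D] at h
  have hle : B.D ≤ d.E ⊓ Subgroup.centralizer (B.D : Set H) := fun x hx => ⟨hx.2,
    Subgroup.mem_centralizer_iff.2 fun y hy => (B.comm hy.1 hx.1).eq⟩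
  refine (Subgroup.eq_of_le_of_card_ge hle ?_).symm
  rw [B.card_D]
  omega

theorem exists_over {a : M} (ha : a ∈ B.A) : ∃ v ∈ B.V, d.π v = MulAut.conj a := by
  let f : B.V →* MulAut M := d.π.comp B.V.subtype
  have h := Subgroup.card_mul_index f.ker
  rw [Subgroup.index_ker] at h
  have hk : Nat.card f.ker = Nat.card B.D := Nat.card_congr
    { toFun := fun v => ⟨v.1.1, v.1.2, B.ker_mem _ v.1.2 v.2⟩
      invFun := fun x => ⟨⟨x.1, x.2.1⟩, d.E_le x.2.2⟩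
      left_inv := fun _ => rfl
      right_inv := fun _ => rfl }
  rw [hk, B.card_D, B.card] at h
  have hr : f.range = B.A.map (MulAut.conj : M →* MulAut M) := by
    refine Subgroup.eq_of_le_of_card_ge ?_ ?_
    · rintro _ ⟨v, rfl⟩; exact B.pi_mem v v.2
    · rw [Subgroup.card_map_of_injective conj_injective_M, B.card_A]; omega
  obtain ⟨v, hv⟩ : MulAut.conj a ∈ f.range := hr.ge ⟨a, ha, rfl⟩
  exact ⟨v, v.2, hv⟩

theorem mem_V_of {x : H} (hx : d.π x ∈ B.A.map (MulAut.conj : M →* MulAut M))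
    (hc : ∀ u ∈ B.D, Commute x u) : x ∈ B.V := by
  obtain ⟨a, ha, hxa⟩ := hx
  obtain ⟨v, hv, hva⟩ := B.exists_over ha
  set n := v⁻¹ * x
  have hn : n ∈ d.π.ker := by
    rw [MonoidHom.mem_ker, map_mul, map_inv, hva, hxa, inv_mul_cancel]
  have hnc : ∀ u ∈ B.D, Commute n u := fun u hu => ((B.comm hv hu.1).inv_left).mul_left (hc u hu)
  obtain ⟨i, hi⟩ := d.ker_decomp hn
  have hnE : n ∈ d.E := by
    by_contra hcon
    have hEact : d.actH (n * d.p ^ i) = 1 := MulEquiv.ext fun w => by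
      obtain ⟨b, hb, rfl⟩ := d.q_surj w
      exact (d.conj_mem_Z hb).2 (d.commE' hi hb)
    have hfix : ∀ u ∈ B.D, u ∈ d.Z := by
      intro u hu
      have e1 : d.actH n (d.q u hu.2) = d.q u hu.2 := by
        rw [d.conj_mem_Z hu.2, (hnc u hu).eq, mul_inv_cancel_right, mul_inv_cancel]
        exact one_mem _
      have e2 : d.actH (d.p ^ i) (d.q u hu.2) = d.q u hu.2 := by
        have h := congrArg (fun φ : MulAut d.W => φ (d.q u hu.2)) hEact
        simp only [map_mul, MulAut.mul_apply, MulAut.one_apply] at h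
        have h' := congrArg (d.actH n).symm (h.trans e1.symm)
        simpa only [MulEquiv.symm_apply_apply] using h'
      rw [← d.q_one_iff (ha := hu.2)]
      apply d.rep.fpf
      show d.actH d.p (d.q u hu.2) = d.q u hu.2
      have h3 : i % 3 = 0 ∨ i % 3 = 1 ∨ i % 3 = 2 := by omega
      have hpow : d.p ^ i = d.p ^ (i % 3) := by
        have h3' : d.p ^ (3 : ℤ) = 1 := by exact_mod_cast d.p3
        conv_lhs => rw [← Int.emod_add_ediv_mul i 3, zpow_add, mul_comm (i / 3), zpow_mul,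
          h3', one_zpow, mul_one]
      rcases h3 with h | h | h
      · exact absurd (by rwa [hpow, h, zpow_zero, mul_one] at hi) hcon
      · rwa [hpow, h, zpow_one] at e2
      · rw [hpow, h] at e2
        have e3 : d.actH d.p (d.actH (d.p ^ (2 : ℤ)) (d.q u hu.2)) = d.actH d.p (d.q u hu.2) :=
          congrArg _ e2
        rw [← MulAut.mul_apply, ← map_mul, zpow_two, ← pow_three, d.p3, map_one,
          MulAut.one_apply] at e3
        exact e3.symm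
    have h1 := Subgroup.card_le_of_le (show B.D ≤ d.Z from hfix)
    rw [B.card_D, d.card_Z] at h1
    norm_num at h1
  have hnD : n ∈ B.D := B.cent_D.le ⟨hnE, Subgroup.mem_centralizer_iff.2
    fun u hu => (hnc u hu).eq.symm⟩
  have := mul_mem hv hnD.1
  rwa [mul_inv_cancel_left] at this

theorem conj_mem {h x : H}
    (hA : ∀ a ∈ B.A, d.π h * MulAut.conj a * (d.π h)⁻¹ ∈ B.A.map (MulAut.conj : M →* MulAut M))
    (hD : ∀ u ∈ B.D, h⁻¹ * u * h ∈ B.D) (hx : x ∈ B.V) : h * x * h⁻¹ ∈ B.V := by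
  refine B.mem_V_of ?_ fun u hu => ?_
  · obtain ⟨a, ha, hxa⟩ := B.pi_mem x hx
    rw [map_mul, map_mul, map_inv, ← hxa]
    exact hA a ha
  · have hc := (B.comm hx (hD u hu).1).eq
    calc h * x * h⁻¹ * u = h * (x * (h⁻¹ * u * h)) * h⁻¹ := by group
      _ = h * (h⁻¹ * u * h * x) * h⁻¹ := by rw [hc]
      _ = u * (h * x * h⁻¹) := by group

theorem conj_E {e x : H} (he : e ∈ d.E) (hx : x ∈ B.V) : e * x * e⁻¹ ∈ B.V := by
  refine B.conj_mem (fun a ha => ?_) (fun u hu => ?_) hx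
  · rw [(MonoidHom.mem_ker).1 (d.E_le he), one_mul, inv_one, mul_one]
    exact ⟨a, ha, rfl⟩
  · have h := d.commE' (inv_mem he) hu.2
    rw [inv_inv] at h
    rcases d.mem_Z.1 h with h | h
    · rw [mul_inv_eq_one] at h
      rw [h]; exact hu
    · rw [mul_inv_eq_iff_eq_mul] at h
      rw [h]; exact mul_mem B.z_mem_D hu

theorem conj_C {c x : H} (hc : c ∈ d.C) (hn : conjS (d.sigma ⟨c, hc⟩) B.A = B.A)
    (hx : x ∈ B.V) : c * x * c⁻¹ ∈ B.V := by
  refine B.conj_mem (fun a ha => ?_) (fun u hu => ?_) hx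
  · refine ⟨d.sigma ⟨c, hc⟩ * a * (d.sigma ⟨c, hc⟩)⁻¹, hn.le ⟨a, ha, rfl⟩, ?_⟩
    rw [map_mul, map_mul, map_inv, d.conj_sigma]
  · have hu' : u ∈ d.pre (d.rep.F B.A) := B.inf_E.le hu
    have := d.conj_mem_pre (A := B.A) (inv_mem hc) (by
      rw [show (⟨c⁻¹, inv_mem hc⟩ : d.C) = (⟨c, hc⟩ : d.C)⁻¹ from rfl, map_inv]
      exact Setup.conjS_inv hn) hu'
    rw [← B.inf_E, inv_inv] at this
    exact this

theorem p_mem_C : d.p ∈ d.C := d.mem_C.2 (Commute.refl _)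

theorem sigma_p : conjS (d.sigma ⟨d.p, p_mem_C⟩) B.A = B.A := by
  have h : d.sigma ⟨d.p, p_mem_C⟩ = 1 := d.rep.proj_p
  rw [h]
  ext a; simp

theorem conj_p {x : H} (hx : x ∈ B.V) : d.p * x * d.p⁻¹ ∈ B.V :=
  B.conj_C p_mem_C B.sigma_p hx

/-- The three conjugates multiply to an element centralised by the element of order three. -/
theorem triple_mem {x : H} (hx : x ∈ B.V) :
    x * (d.p * x * d.p⁻¹) * (d.p * (d.p * x * d.p⁻¹) * d.p⁻¹) ∈ B.V ∧
    x * (d.p * x * d.p⁻¹) * (d.p * (d.p * x * d.p⁻¹) * d.p⁻¹) ∈ d.C := by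
  set x₁ := d.p * x * d.p⁻¹
  set x₂ := d.p * x₁ * d.p⁻¹
  have h1 : x₁ ∈ B.V := B.conj_p hx
  have h2 : x₂ ∈ B.V := B.conj_p h1
  refine ⟨mul_mem (mul_mem hx h1) h2, d.mem_C.2 ?_⟩
  have h3 : d.p * x₂ * d.p⁻¹ = x := by
    simp only [x₂, x₁]
    rw [show d.p * (d.p * (d.p * x * d.p⁻¹) * d.p⁻¹) * d.p⁻¹ = d.p ^ 3 * x * (d.p ^ 3)⁻¹ by
      simp only [pow_succ, pow_zero, one_mul, mul_inv_rev, mul_assoc], d.p3]
    simp
  have e : d.p * (x * x₁ * x₂) * d.p⁻¹ = x * x₁ * x₂ := by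
    rw [show d.p * (x * x₁ * x₂) * d.p⁻¹ =
      d.p * x * d.p⁻¹ * (d.p * x₁ * d.p⁻¹) * (d.p * x₂ * d.p⁻¹) by group, h3]
    show x₁ * x₂ * x = x * x₁ * x₂
    rw [← (((B.comm hx h1).mul_right (B.comm hx h2))).eq]
    exact (mul_assoc _ _ _).symm
  exact (mul_inv_eq_iff_eq_mul.1 e).symm

theorem exists_central {a : M} (ha : a ∈ B.A) (ha1 : a ≠ 1) :
    ∃ y ∈ B.V, y ∈ d.C ∧ y ∉ d.E ∧ d.π y = MulAut.conj a := by
  obtain ⟨v, hv, hva⟩ := B.exists_over ha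
  have hπ : d.π (v * (d.p * v * d.p⁻¹) * (d.p * (d.p * v * d.p⁻¹) * d.p⁻¹)) = MulAut.conj a := by
    simp only [map_mul, map_inv, (MonoidHom.mem_ker).1 d.pker, one_mul, inv_one, mul_one, hva]
    rw [← map_mul, B.sq_A ha, map_one, one_mul]
  refine ⟨_, (B.triple_mem hv).1, (B.triple_mem hv).2, fun hE => ha1 ?_, hπ⟩
  refine conj_injective_M ?_
  rw [← hπ, (MonoidHom.mem_ker).1 (d.E_le hE), map_one]

theorem no_flip {y h : H} (hy : y ∈ d.C) (hh : h ∈ d.E) : h * y * h⁻¹ ≠ y * d.z := by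
  intro e
  set h₁ := d.p * h * d.p⁻¹
  set h₂ := d.p * h₁ * d.p⁻¹
  have hpy : d.p * y * d.p⁻¹ = y := mul_inv_eq_iff_eq_mul.2 (d.mem_C.1 hy).eq.symm
  have hpz : d.p * d.z * d.p⁻¹ = d.z := d.z_conj _ (Subgroup.mem_zpowers _)
  have hstep : ∀ k : H, k * y * k⁻¹ = y * d.z →
      d.p * k * d.p⁻¹ * y * (d.p * k * d.p⁻¹)⁻¹ = y * d.z := by
    intro k hk
    conv_lhs => rw [← hpy]
    rw [show d.p * k * d.p⁻¹ * (d.p * y * d.p⁻¹) * (d.p * k * d.p⁻¹)⁻¹ =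
      d.p * (k * y * k⁻¹) * d.p⁻¹ by group, hk,
      show d.p * (y * d.z) * d.p⁻¹ = d.p * y * d.p⁻¹ * (d.p * d.z * d.p⁻¹) by group, hpy, hpz]
  have e1 : h₁ * y * h₁⁻¹ = y * d.z := hstep h e
  have e2 : h₂ * y * h₂⁻¹ = y * d.z := hstep h₁ e1
  have hh1 : h₁ ∈ d.E := d.normalE _ _ hh
  have hh2 : h₂ ∈ d.E := d.normalE _ _ hh1
  have hz : ∀ k : H, k * d.z * k⁻¹ = d.z := fun k => d.z_conj k (Subgroup.mem_zpowers _)
  have ek : h * h₁ * h₂ * y * (h * h₁ * h₂)⁻¹ = y * d.z := by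
    rw [show h * h₁ * h₂ * y * (h * h₁ * h₂)⁻¹ = h * (h₁ * (h₂ * y * h₂⁻¹) * h₁⁻¹) * h⁻¹ by group,
      e2, show h₁ * (y * d.z) * h₁⁻¹ = h₁ * y * h₁⁻¹ * (h₁ * d.z * h₁⁻¹) by group, e1, hz,
      show h * (y * d.z * d.z) * h⁻¹ = h * y * h⁻¹ * (h * (d.z * d.z) * h⁻¹) by group, e, d.zz]
    group
  have h3 : d.p * h₂ * d.p⁻¹ = h := by
    simp only [h₂, h₁]
    rw [show d.p * (d.p * (d.p * h * d.p⁻¹) * d.p⁻¹) * d.p⁻¹ = d.p ^ 3 * h * (d.p ^ 3)⁻¹ by
      simp only [pow_succ, pow_zero, one_mul, mul_inv_rev, mul_assoc], d.p3]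
    simp
  have hk : h * h₁ * h₂ ∈ d.Z := by
    rw [← d.q_one_iff (ha := mul_mem (mul_mem hh hh1) hh2)]
    apply d.rep.fpf
    show d.actH d.p _ = _
    have hpk : d.p * (h * h₁ * h₂) * d.p⁻¹ = h₁ * h₂ * h := by
      rw [show d.p * (h * h₁ * h₂) * d.p⁻¹ =
        d.p * h * d.p⁻¹ * (d.p * h₁ * d.p⁻¹) * (d.p * h₂ * d.p⁻¹) by group, h3]
    rw [d.conj_mem_Z, hpk,
      show h₁ * h₂ * h * (h * h₁ * h₂)⁻¹ = h₁ * h₂ * h * (h₁ * h₂)⁻¹ * h⁻¹ by group]
    exact d.commE' (mul_mem hh1 hh2) hh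
  have hfix : h * h₁ * h₂ * y * (h * h₁ * h₂)⁻¹ = y := by
    rcases d.mem_Z.1 hk with h' | h' <;> rw [h']
    · simp
    · exact mul_inv_eq_iff_eq_mul.2 (d.zc y).eq
  rw [hfix] at ek
  exact d.zne (mul_eq_left.1 ek.symm)

/-- A conjugation invariant property, false on the centraliser of the element of order three. -/
structure Fused (B : BigElem d) where
  P : H → Prop
  conj : ∀ h x, P x → P (h * x * h⁻¹)
  z : P d.z
  avoid : ∀ u ∈ d.C, u ∈ B.V → u ≠ d.z → ¬ P u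
  cent : ∀ u ∈ d.C, u * u = 1 → u ∉ d.E →
    Nat.card ↥(d.E ⊓ Subgroup.centralizer ({u} : Set H)) = 2 ^ 9

variable {B} (Q : Fused B)

theorem Fused.P_iff_conj (h x : H) : Q.P (h * x * h⁻¹) ↔ Q.P x :=
  ⟨fun hP => by simpa [mul_assoc] using Q.conj h⁻¹ _ hP, Q.conj h x⟩

/-- In a coset outside the extraspecial group either none or 96 elements are fused. -/
theorem Fused.fibre {a : M} (ha : a ∈ B.A) (ha1 : a ≠ 1)
    (hex' : ∃ x, (x ∈ B.V ∧ d.π x = MulAut.conj a) ∧ Q.P x) :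
    Nat.card {x : H // (x ∈ B.V ∧ d.π x = MulAut.conj a) ∧ Q.P x} = 96 := by
  classical
  obtain ⟨y, hyV, hyC, hyE, hya⟩ := B.exists_central ha ha1
  set U := d.E ⊓ Subgroup.centralizer ({y} : Set H)
  have hmemU : ∀ {u : H}, u ∈ U ↔ u ∈ d.E ∧ Commute u y := fun {u} => by
    rw [Subgroup.mem_inf, Subgroup.mem_centralizer_singleton_iff]; rfl
  have hU : Nat.card U = 2 ^ 9 := Q.cent y hyC (B.sq y hyV) hyE
  set U₂ := d.E ⊓ Subgroup.centralizer (U : Set H)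
  have hzU : d.z ∈ U := hmemU.2 ⟨d.zmem, d.zc y⟩
  have hU₂ : Nat.card U₂ = 32 := by
    have h := d.card_centralizer_eq (U := U) inf_le_left hzU
    rw [hU] at h
    change 2 ^ 9 * Nat.card U₂ = _ at h
    omega
  have hDU : B.D ≤ U := fun u hu => hmemU.2 ⟨hu.2, B.comm hu.1 hyV⟩
  have hU₂D : U₂ ≤ B.D := by
    rw [← B.cent_D]
    exact inf_le_inf_left _ (Subgroup.centralizer_le hDU)
  have hzU₂ : d.z ∈ U₂ := ⟨d.zmem, Subgroup.mem_centralizer_iff.2 fun u _ => (d.zc u).eq.symm⟩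
  let cm' : H → H := fun e => y⁻¹ * (e * y * e⁻¹)
  have hcm : ∀ e ∈ d.E, cm' e ∈ U₂ := by
    intro e he
    refine ⟨?_, Subgroup.mem_centralizer_iff.2 fun u hu => ?_⟩
    · show y⁻¹ * (e * y * e⁻¹) ∈ d.E
      have := mul_mem (d.normalE y⁻¹ e he) (inv_mem he)
      simpa [mul_assoc] using this
    · obtain ⟨huE, huy⟩ := hmemU.1 hu
      have hz : ∀ k ∈ d.Z, Commute k (e * y * e⁻¹) := fun k hk => by
        rcases d.mem_Z.1 hk with rfl | rfl
        exacts [Commute.one_left _, d.zc _]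
      have hk := hz _ (d.commE' huE he)
      have h1 : u * (e * y * e⁻¹) * u⁻¹ = e * y * e⁻¹ := by
        set k := u * e * u⁻¹ * e⁻¹
        calc u * (e * y * e⁻¹) * u⁻¹ = k * e * (u * y * u⁻¹) * e⁻¹ * k⁻¹ := by simp only [k]; group
          _ = k * (e * y * e⁻¹) * k⁻¹ := by rw [mul_inv_eq_iff_eq_mul.2 huy.eq]; group
          _ = e * y * e⁻¹ := mul_inv_eq_iff_eq_mul.2 hk.eq
      exact ((huy.inv_right).mul_right (mul_inv_eq_iff_eq_mul.1 h1)).eq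
  have hfull : ∀ c ∈ U₂, ∃ e ∈ d.E, ∃ i ∈ d.Z, c = cm' e * i := by
    let Ψ : (↥d.E ⧸ U.subgroupOf d.E) × d.Z → U₂ := fun w =>
      ⟨cm' (w.1.out : H) * w.2, mul_mem (hcm _ w.1.out.2)
        ((Subgroup.zpowers_le.2 hzU₂ : d.Z ≤ U₂) w.2.2)⟩
    have hinj : Function.Injective Ψ := by
      rintro ⟨s, i, hi⟩ ⟨t, j, hj⟩ e
      have e0 : cm' (s.out : H) * i = cm' (t.out : H) * j := congrArg Subtype.val e
      set k := (t.out : H)⁻¹ * (s.out : H)
      have hkE : k ∈ d.E := mul_mem (inv_mem t.out.2) s.out.2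
      have hcz : ∀ {l : H}, l ∈ d.Z → ∀ m : H, Commute l m := fun {l} hl m => by
        rcases d.mem_Z.1 hl with rfl | rfl
        exacts [Commute.one_left _, d.zc _]
      have e1 : k * y * k⁻¹ = y * (j * i⁻¹) := by
        have e2 : (s.out : H) * y * (s.out : H)⁻¹ =
            (t.out : H) * y * (t.out : H)⁻¹ * (j * i⁻¹) := by
          have := congrArg (fun w => y * w * i⁻¹) e0
          simpa [cm', mul_assoc] using this
        calc k * y * k⁻¹ =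
              (t.out : H)⁻¹ * ((s.out : H) * y * (s.out : H)⁻¹) * (t.out : H) := by
              simp only [k]; group
          _ = (t.out : H)⁻¹ * ((t.out : H) * y * (t.out : H)⁻¹ * (j * i⁻¹)) * (t.out : H) := by
              rw [e2]
          _ = y * ((t.out : H)⁻¹ * (j * i⁻¹) * (t.out : H)) := by group
          _ = y * (j * i⁻¹) := by
              rw [mul_assoc _ (j * i⁻¹), (hcz (mul_mem hj (inv_mem hi)) _).eq,
                inv_mul_cancel_left]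
      rcases d.mem_Z.1 (mul_mem hj (inv_mem hi)) with h | h
      · rw [h, mul_one] at e1
        have hst : s = t := by
          rw [← QuotientGroup.out_eq' s, ← QuotientGroup.out_eq' t, QuotientGroup.eq]
          have : k ∈ U := hmemU.2 ⟨hkE, mul_inv_eq_iff_eq_mul.1 e1⟩
          have := inv_mem this
          simpa [k, Subgroup.mem_subgroupOf] using this
        rw [hst, Prod.mk.injEq, Subtype.mk.injEq]
        exact ⟨rfl, (mul_inv_eq_one.1 h).symm⟩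
      · rw [h] at e1
        exact absurd e1 (no_flip hyC hkE)
    have hcard : Nat.card ((↥d.E ⧸ U.subgroupOf d.E) × d.Z) = Nat.card U₂ := by
      have h := Subgroup.card_eq_card_quotient_mul_card_subgroup (U.subgroupOf d.E)
      rw [Nat.card_congr (Subgroup.subgroupOfEquivOfLe (show U ≤ d.E from inf_le_left)).toEquiv,
        hU, d.cardE] at h
      rw [Nat.card_prod, d.card_Z, hU₂]
      omega
    intro c hc
    obtain ⟨⟨s, i, hi⟩, hs⟩ :=
      ((Nat.bijective_iff_injective_and_card Ψ).2 ⟨hinj, hcard⟩).2 ⟨c, hc⟩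
    exact ⟨_, s.out.2, i, hi, (congrArg Subtype.val hs).symm⟩
  have hNotU₂ : ∀ c ∈ U₂, ¬ Q.P (y * c) := by
    intro c hc hP
    obtain ⟨e, he, i, hi, rfl⟩ := hfull c hc
    have hiC : i ∈ d.C ∧ i ∈ B.V := by
      rcases d.mem_Z.1 hi with rfl | rfl
      exacts [⟨one_mem _, one_mem _⟩, ⟨d.mem_C.2 (d.zc _), B.z_mem_D.1⟩]
    have hne : y * i ≠ d.z := fun h => hyE (by
      have := mul_mem d.zmem (inv_mem (d.Z_le_E hi))
      rwa [← h, mul_inv_cancel_right] at this)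
    refine Q.avoid _ (mul_mem hyC hiC.1) (mul_mem hyV hiC.2) hne ((Q.P_iff_conj e _).1 ?_)
    convert hP using 1
    rw [show e * (y * i) * e⁻¹ = e * y * e⁻¹ * (e * i * e⁻¹) by group, d.z_conj _ hi]
    simp [cm', mul_assoc]
  have hsat : ∀ x ∈ B.D, x ∉ U₂ → Q.P (y * x) → Q.P (y * x * d.z) := by
    intro x hx hxn hP
    obtain ⟨u, hu, hne⟩ : ∃ u ∈ U, ¬ Commute u x := by
      by_contra h
      push Not at h
      exact hxn ⟨hx.2, Subgroup.mem_centralizer_iff.2 fun u hu => (h u hu).eq⟩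
    obtain ⟨huE, huy⟩ := hmemU.1 hu
    have hux : u * x * u⁻¹ = x * d.z := by
      rcases d.commE u huE x hx.2 with h | h
      · exact absurd (mul_inv_eq_iff_eq_mul.1 (mul_inv_eq_one.1 h)) hne
      · rw [mul_inv_eq_iff_eq_mul.1 h, (d.zc x).eq]
    have := Q.conj u _ hP
    rwa [show u * (y * x) * u⁻¹ = u * y * u⁻¹ * (u * x * u⁻¹) by group, hux,
      mul_inv_eq_iff_eq_mul.2 huy.eq, ← mul_assoc] at this
  have hsatZ : ∀ x ∈ B.D, x ∉ U₂ → ∀ i ∈ d.Z, Q.P (y * x) → Q.P (y * x * i) := by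
    intro x hx hxn i hi hP
    rcases d.mem_Z.1 hi with rfl | rfl
    exacts [by rwa [mul_one], hsat x hx hxn hP]
  have hcoset : ∀ x ∈ B.D, x ∉ U₂ → Q.P (y * x) → ∀ c ∈ U₂, Q.P (y * (x * c)) := by
    intro x hx hxn hP c hc
    obtain ⟨e, he, i, hi, rfl⟩ := hfull c hc
    have hP' := Q.conj e _ hP
    rw [show e * (y * x) * e⁻¹ = y * cm' e * (e * x * e⁻¹) by simp [cm', mul_assoc]] at hP'
    have hj := d.commE' he hx.2
    set j := e * x * e⁻¹ * x⁻¹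
    have hex2 : e * x * e⁻¹ = x * j := by
      have hjx : Commute j x := by
        rcases d.mem_Z.1 hj with h | h <;> rw [h]
        exacts [Commute.one_left _, d.zc _]
      rw [← hjx.eq]; simp only [j]; group
    have hcx : Commute (cm' e) x := B.comm (hU₂D (hcm e he)).1 hx.1
    rw [hex2, mul_assoc y, ← mul_assoc (cm' e) x j, hcx.eq] at hP'
    have hxc : x * cm' e ∈ B.D := mul_mem hx (hU₂D (hcm e he))
    have hxcn : x * cm' e ∉ U₂ := fun h => hxn ((U₂.mul_mem_cancel_right (hcm e he)).1 h)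
    have hjD : x * cm' e * j ∈ B.D :=
      mul_mem hxc ((Subgroup.zpowers_le.2 B.z_mem_D : d.Z ≤ B.D) hj)
    have hjn : x * cm' e * j ∉ U₂ := fun h =>
      hxcn ((U₂.mul_mem_cancel_right ((Subgroup.zpowers_le.2 hzU₂ : d.Z ≤ U₂) hj)).1 h)
    have := hsatZ _ hjD hjn (j⁻¹ * i) (mul_mem (inv_mem hj) hi) hP'
    simpa [mul_assoc] using this
  have hpy : d.p * y * d.p⁻¹ = y := mul_inv_eq_iff_eq_mul.2 (d.mem_C.1 hyC).eq.symm
  have hpPy : ∀ {x : H}, Q.P (y * x) → Q.P (y * (d.p * x * d.p⁻¹)) := fun {x} h => by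
    have := Q.conj d.p _ h
    rwa [show d.p * (y * x) * d.p⁻¹ = d.p * y * d.p⁻¹ * (d.p * x * d.p⁻¹) by group, hpy] at this
  have hpU : ∀ {u : H}, u ∈ U → d.p⁻¹ * u * d.p ∈ U := fun {u} hu => by
    obtain ⟨huE, huy⟩ := hmemU.1 hu
    refine hmemU.2 ⟨by simpa using d.normalE d.p⁻¹ u huE, ?_⟩
    have e := mul_inv_eq_iff_eq_mul.2 (d.mem_C.1 hyC).inv_right.eq.symm
    rw [inv_inv] at e
    have h' : d.p⁻¹ * u * d.p * (d.p⁻¹ * y * d.p) = d.p⁻¹ * y * d.p * (d.p⁻¹ * u * d.p) := by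
      calc d.p⁻¹ * u * d.p * (d.p⁻¹ * y * d.p) = d.p⁻¹ * (u * y) * d.p := by group
        _ = d.p⁻¹ * (y * u) * d.p := by rw [huy.eq]
        _ = d.p⁻¹ * y * d.p * (d.p⁻¹ * u * d.p) := by group
    rwa [e] at h'
  have hpU₂ : ∀ {c : H}, c ∈ U₂ → d.p * c * d.p⁻¹ ∈ U₂ := fun {c} hc => by
    refine ⟨d.normalE _ _ hc.1, Subgroup.mem_centralizer_iff.2 fun u hu => ?_⟩
    have e := Subgroup.mem_centralizer_iff.1 hc.2 _ (hpU hu)
    calc u * (d.p * c * d.p⁻¹) = d.p * (d.p⁻¹ * u * d.p * c) * d.p⁻¹ := by group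
      _ = d.p * (c * (d.p⁻¹ * u * d.p)) * d.p⁻¹ := by rw [e]
      _ = d.p * c * d.p⁻¹ * u := by group
  obtain ⟨x₀, ⟨hx₀V, hx₀a⟩, hx₀P⟩ := hex'
  set x := y⁻¹ * x₀
  have hx : x ∈ B.D := ⟨B.V.mul_mem (B.V.inv_mem hyV) hx₀V, B.ker_mem _ (B.V.mul_mem (B.V.inv_mem hyV) hx₀V) (by
    rw [MonoidHom.mem_ker, map_mul, map_inv, hya, hx₀a, inv_mul_cancel])⟩
  have hxP : Q.P (y * x) := by simpa [x] using hx₀P
  have hxn : x ∉ U₂ := fun h => hNotU₂ x h hxP
  set x₁ := d.p * x * d.p⁻¹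
  set x₂ := d.p * x₁ * d.p⁻¹
  have hx₁ : x₁ ∈ B.D := ⟨B.conj_p hx.1, d.normalE _ _ hx.2⟩
  have hx₂ : x₂ ∈ B.D := ⟨B.conj_p hx₁.1, d.normalE _ _ hx₁.2⟩
  have hrot : d.p * x₂ * d.p⁻¹ = x := by
    simp only [x₂, x₁]
    rw [show d.p * (d.p * (d.p * x * d.p⁻¹) * d.p⁻¹) * d.p⁻¹ = d.p ^ 3 * x * (d.p ^ 3)⁻¹ by
      simp only [pow_succ, pow_zero, one_mul, mul_inv_rev, mul_assoc], d.p3]
    simp
  have hx₁n : x₁ ∉ U₂ := fun h => hxn (hrot ▸ hpU₂ (hpU₂ h))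
  have hx₂n : x₂ ∉ U₂ := fun h => hxn (hrot ▸ hpU₂ h)
  have hxx₁ : x⁻¹ * x₁ ∉ U₂ := by
    intro h
    set c := x⁻¹ * x₁
    have hc' := hpU₂ h
    have e₁ : x₁ = x * c := (mul_inv_cancel_left x x₁).symm
    have e₂ : x₂ = x * (c * (d.p * c * d.p⁻¹)) := by
      simp only [x₂]
      rw [e₁, show d.p * (x * c) * d.p⁻¹ = d.p * x * d.p⁻¹ * (d.p * c * d.p⁻¹) by group,
        show d.p * x * d.p⁻¹ = x * c from e₁, mul_assoc]
    obtain ⟨hV3, hC3⟩ := B.triple_mem hx.1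
    have hZ : x * x₁ * x₂ ∈ U₂ := (Subgroup.zpowers_le.2 hzU₂ : d.Z ≤ U₂)
      (d.mem_Z_of_C (mul_mem (mul_mem hx.2 hx₁.2) hx₂.2) hC3)
    have hcx : Commute c x := B.comm (hU₂D h).1 hx.1
    rw [e₂, e₁, ← mul_assoc, ← mul_assoc x x c, B.sq x hx.1, one_mul, hcx.eq, mul_assoc] at hZ
    exact hxn ((U₂.mul_mem_cancel_right (mul_mem h (mul_mem h hc'))).1 hZ)
  have hx₁x₂ : x₁⁻¹ * x₂ ∉ U₂ := fun h => hxx₁ (by
    have := hpU₂ (hpU₂ h)
    rw [show d.p * (d.p * (x₁⁻¹ * x₂) * d.p⁻¹) * d.p⁻¹ =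
      (d.p * x₂ * d.p⁻¹)⁻¹ * (d.p * (d.p * x₂ * d.p⁻¹) * d.p⁻¹) by simp [x₂, mul_assoc],
      hrot] at this
    exact this)
  have hxx₂ : x⁻¹ * x₂ ∉ U₂ := fun h => hxx₁ (by
    have := inv_mem (hpU₂ h)
    rw [show (d.p * (x⁻¹ * x₂) * d.p⁻¹)⁻¹ = (d.p * x₂ * d.p⁻¹)⁻¹ * (d.p * x * d.p⁻¹) by group,
      hrot] at this
    exact this)
  have hall : ∀ w ∈ B.D, w ∉ U₂ → Q.P (y * w) := by
    intro w hw hwn
    let N := U₂.subgroupOf B.D
    have h4 : Nat.card (↥B.D ⧸ N) = 4 := by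
      have h := Subgroup.card_eq_card_quotient_mul_card_subgroup N
      rw [Nat.card_congr (Subgroup.subgroupOfEquivOfLe hU₂D).toEquiv, hU₂, B.card_D] at h
      omega
    let f : Fin 4 → ↥B.D ⧸ N := ![QuotientGroup.mk (1 : ↥B.D), QuotientGroup.mk ⟨x, hx⟩,
      QuotientGroup.mk ⟨x₁, hx₁⟩, QuotientGroup.mk ⟨x₂, hx₂⟩]
    have hmk : ∀ a b : ↥B.D, (a : ↥B.D ⧸ N) = b → (a : H)⁻¹ * b ∈ U₂ := fun a b h =>
      (show a⁻¹ * b ∈ N from QuotientGroup.eq.1 h)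
    have hf : Function.Injective f := by
      intro i j hij
      fin_cases i <;> fin_cases j <;> first
        | rfl
        | exact absurd (by simpa using hmk _ _ hij) hxn
        | exact absurd (by simpa using hmk _ _ hij) hx₁n
        | exact absurd (by simpa using hmk _ _ hij) hx₂n
        | exact absurd (by simpa using hmk _ _ hij.symm) hxn
        | exact absurd (by simpa using hmk _ _ hij.symm) hx₁n
        | exact absurd (by simpa using hmk _ _ hij.symm) hx₂n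
        | exact absurd (hmk _ _ hij) hxx₁
        | exact absurd (hmk _ _ hij) hxx₂
        | exact absurd (hmk _ _ hij) hx₁x₂
        | exact absurd (hmk _ _ hij.symm) hxx₁
        | exact absurd (hmk _ _ hij.symm) hxx₂
        | exact absurd (hmk _ _ hij.symm) hx₁x₂
    obtain ⟨i, hi⟩ := ((Nat.bijective_iff_injective_and_card f).2
      ⟨hf, by rw [Nat.card_fin, h4]⟩).2 (QuotientGroup.mk ⟨w, hw⟩)
    have key : ∀ v : H, ∀ hv : v ∈ B.D, v ∉ U₂ → Q.P (y * v) →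
        (QuotientGroup.mk ⟨v, hv⟩ : ↥B.D ⧸ N) = QuotientGroup.mk ⟨w, hw⟩ → Q.P (y * w) := by
      intro v hv hvn hvP he
      have := hcoset v hv hvn hvP _ (hmk _ _ he)
      simpa using this
    fin_cases i
    · exact absurd (by simpa using hmk _ _ hi) hwn
    · exact key x hx hxn hxP hi
    · exact key x₁ hx₁ hx₁n (hpPy hxP) hi
    · exact key x₂ hx₂ hx₂n (hpPy (hpPy hxP)) hi
  let e : {x : H // (x ∈ B.V ∧ d.π x = MulAut.conj a) ∧ Q.P x} ≃
      {w : ↥B.D // (w : H) ∉ U₂} :=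
    { toFun := fun v => ⟨⟨y⁻¹ * v.1, B.V.mul_mem (B.V.inv_mem hyV) v.2.1.1,
        B.ker_mem _ (B.V.mul_mem (B.V.inv_mem hyV) v.2.1.1) (by
          rw [MonoidHom.mem_ker, map_mul, map_inv, hya, v.2.1.2, inv_mul_cancel])⟩,
        fun h => hNotU₂ _ h (by simpa using v.2.2)⟩
      invFun := fun w => ⟨y * w.1.1, ⟨B.V.mul_mem hyV w.1.2.1, by
        rw [map_mul, (MonoidHom.mem_ker).1 (d.E_le w.1.2.2), mul_one, hya]⟩, hall _ w.1.2 w.2⟩
      left_inv := fun v => Subtype.ext (mul_inv_cancel_left _ _)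
      right_inv := fun w => Subtype.ext (Subtype.ext (inv_mul_cancel_left _ _)) }
  rw [Nat.card_congr e, show Nat.card {w : ↥B.D // (w : H) ∉ U₂} =
    ((U₂.subgroupOf B.D : Set ↥B.D)ᶜ).ncard from Nat.card_coe_set_eq _, Set.ncard_compl,
    B.card_D, ← Nat.card_coe_set_eq, SetLike.coe_sort_coe, Nat.card_congr (Subgroup.subgroupOfEquivOfLe hU₂D).toEquiv,
    hU₂]

/-- The number of fused elements outside the extraspecial group. -/
theorem Fused.card_out :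
    (∀ x ∈ B.V, x ∉ d.E → ¬ Q.P x) ∧ Nat.card {x : H // x ∈ B.V ∧ x ∉ d.E ∧ Q.P x} = 0 ∨
      Nat.card {x : H // x ∈ B.V ∧ x ∉ d.E ∧ Q.P x} = 1440 := by
  classical
  by_cases hno : ∀ x ∈ B.V, x ∉ d.E → ¬ Q.P x
  · left
    refine ⟨hno, ?_⟩
    have : IsEmpty {x : H // x ∈ B.V ∧ x ∉ d.E ∧ Q.P x} := ⟨fun x => hno _ x.2.1 x.2.2.1 x.2.2.2⟩
    exact Nat.card_of_isEmpty
  right
  push Not at hno
  obtain ⟨x₀, hx₀, hx₀E, hx₀P⟩ := hno
  obtain ⟨a₀, ha₀, hx₀a⟩ := B.pi_mem x₀ hx₀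
  have ha₀1 : a₀ ≠ 1 := fun h => hx₀E (B.ker_mem _ hx₀ (by
    rw [MonoidHom.mem_ker, ← hx₀a, h, map_one]))
  have hevery : ∀ a ∈ B.A, a ≠ 1 → ∃ x, (x ∈ B.V ∧ d.π x = MulAut.conj a) ∧ Q.P x := by
    intro a ha ha1
    have hh : ∀ {b : M}, b ∈ B.A → b ≠ 1 → B.g⁻¹ * b * B.g ∈ hex ∧ B.g⁻¹ * b * B.g ≠ 1 :=
      fun {b} hb hb1 => ⟨mem_conjS.1 hb, fun h => hb1 (by
        rw [show b = B.g * (B.g⁻¹ * b * B.g) * B.g⁻¹ by group, h, mul_one, mul_inv_cancel])⟩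
    obtain ⟨n, hn, hnab⟩ := hex_trans (hh ha₀ ha₀1).1 (hh ha₀ ha₀1).2 (hh ha ha1).1 (hh ha ha1).2
    set m := B.g * n * B.g⁻¹
    have hm : MulAut.conj m ∈ d.C.map d.π := by rw [d.map_C]; exact ⟨_, rfl⟩
    obtain ⟨c, hc, hcm⟩ := hm
    have hσ : d.sigma ⟨c, hc⟩ = m := conj_injective_M (by rw [d.conj_sigma]; exact hcm)
    have hnorm : conjS (d.sigma ⟨c, hc⟩) B.A = B.A := by
      rw [hσ]
      ext x
      rw [mem_conjS, mem_conjS, mem_conjS]
      have := SetLike.ext_iff.1 hn (B.g⁻¹ * x * B.g)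
      rw [mem_conjS] at this
      simpa [m, mul_assoc] using this
    refine ⟨c * x₀ * c⁻¹, ⟨B.conj_C hc hnorm hx₀, ?_⟩, Q.conj c _ hx₀P⟩
    rw [map_mul, map_mul, map_inv, hcm, ← hx₀a, ← map_inv, ← map_mul, ← map_mul]
    congr 1
    simp only [m]
    rw [show B.g * n * B.g⁻¹ * a₀ * (B.g * n * B.g⁻¹)⁻¹ =
      B.g * (n * (B.g⁻¹ * a₀ * B.g) * n⁻¹) * B.g⁻¹ by group, hnab]
    group
  let f : {x : H // x ∈ B.V ∧ x ∉ d.E ∧ Q.P x} → {a : ↥B.A // a ≠ 1} := fun x =>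
    ⟨⟨(B.pi_mem x x.2.1).choose, (B.pi_mem x x.2.1).choose_spec.1⟩, fun h => x.2.2.1
      (B.ker_mem _ x.2.1 (by
        rw [MonoidHom.mem_ker, ← (B.pi_mem x x.2.1).choose_spec.2,
          show (B.pi_mem x x.2.1).choose = 1 from congrArg Subtype.val h, map_one]))⟩
  have hf : ∀ x, d.π x.1 = MulAut.conj (f x).1.1 := fun x =>
    (B.pi_mem x x.2.1).choose_spec.2.symm
  have hfib : ∀ a : {a : ↥B.A // a ≠ 1}, Nat.card {x // f x = a} = 96 := by
    intro a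
    have ha1 : a.1.1 ≠ 1 := fun h => a.2 (Subtype.ext h)
    rw [← Q.fibre a.1.2 ha1 (hevery _ a.1.2 ha1)]
    exact Nat.card_congr
      { toFun := fun x => ⟨x.1.1, ⟨x.1.2.1, by rw [hf x.1, x.2]⟩, x.1.2.2.2⟩
        invFun := fun x => ⟨⟨x.1, x.2.1.1, fun h => ha1 (conj_injective_M (by
            rw [← x.2.1.2, (MonoidHom.mem_ker).1 (d.E_le h), map_one])), x.2.2⟩,
          Subtype.ext (Subtype.ext (conj_injective_M ((hf _).symm.trans x.2.1.2)))⟩
        left_inv := fun _ => rfl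
        right_inv := fun _ => rfl }
  have : Fintype {a : ↥B.A // a ≠ 1} := Fintype.ofFinite _
  rw [← Nat.card_congr (Equiv.sigmaFiberEquiv f), Nat.card_sigma,
    Finset.sum_congr rfl (fun a _ => hfib a), Finset.sum_const, Finset.card_univ,
    ← Nat.card_eq_fintype_card, smul_eq_mul]
  have h15 : Nat.card {a : ↥B.A // a ≠ 1} = 15 := by
    rw [show Nat.card {a : ↥B.A // a ≠ 1} = (({1} : Set ↥B.A)ᶜ).ncard from Nat.card_coe_set_eq _,
      Set.ncard_compl, Set.ncard_singleton, B.card_A]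
  rw [h15]

/-- The fused elements in the extraspecial group. -/
theorem Fused.card_in :
    Nat.card {x : H // x ∈ B.V ∧ x ∈ d.E ∧ Q.P x} ∈ ([1, 37, 91, 127] : List ℕ) ∧
      (Nat.card {x : H // x ∈ B.V ∧ x ∈ d.E ∧ Q.P x} = 127 →
        ∀ x ∈ B.V, x ∈ d.E → x ≠ 1 → Q.P x) := by
  classical
  have := d.rep.finite_W
  set r := d.rep.twist B.g
  set T : Set d.W := {w | ∃ x, ∃ hx : x ∈ d.E, (x ∈ B.V ∧ x ∉ d.Z ∧ Q.P x) ∧ d.q x hx = w}
  have hF : r.F hex = d.rep.F B.A := d.rep.twist_F B.g hex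
  have hTF : T ⊆ (r.F hex : Set d.W) := by
    rintro w ⟨x, hx, ⟨hxV, -, -⟩, rfl⟩
    obtain ⟨_, h⟩ := d.mem_pre.1 (B.inf_E.le ⟨hxV, hx⟩)
    rw [hF]; exact h
  have h1 : (1 : d.W) ∉ T := by
    rintro ⟨x, hx, ⟨-, hxZ, -⟩, h⟩
    exact hxZ (d.q_one_iff.1 h)
  have hT : ∀ s, conjS (r.proj s) hex = hex → ∀ w ∈ T, r.act s w ∈ T := by
    intro s
    induction s using QuotientGroup.induction_on with
    | H c =>
      intro hs w hw
      obtain ⟨x, hx, ⟨hxV, hxZ, hxP⟩, rfl⟩ := hw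
      have hn : conjS (d.sigma c) B.A = B.A := by
        have e : r.proj (QuotientGroup.mk c) = B.g⁻¹ * d.sigma c * B.g := by
          simp [r, Rep.twist]; rfl
        rw [e] at hs
        ext a
        rw [mem_conjS, mem_conjS, mem_conjS]
        have := SetLike.ext_iff.1 hs (B.g⁻¹ * a * B.g)
        rw [mem_conjS] at this
        simpa [mul_assoc] using this
      refine ⟨_, d.normalE c x hx, ⟨B.conj_C c.2 hn hxV, fun h => hxZ ?_, Q.conj _ _ hxP⟩,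
        (d.actH_q (c : H) hx).symm⟩
      have e := d.z_conj (c : H)⁻¹ h
      rw [show (c : H)⁻¹ * ((c : H) * x * (c : H)⁻¹) * ((c : H)⁻¹)⁻¹ = x by group] at e
      rw [e]; exact h
  obtain ⟨hcases, hfull⟩ := card_invariant r hTF h1 hT
  have hsat : ∀ x ∈ B.V, x ∈ d.E → x ∉ d.Z → Q.P x → Q.P (x * d.z) := by
    intro x hxV hx hxZ hxP
    obtain ⟨e, he, hne⟩ : ∃ e ∈ d.E, ¬ Commute x e := by
      by_contra h
      push Not at h
      exact hxZ (d.mem_Z.2 (d.centE x hx h))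
    have hex2 : e * x * e⁻¹ = x * d.z := by
      rcases d.commE e he x hx with h | h
      · exact absurd (mul_inv_eq_iff_eq_mul.1 (mul_inv_eq_one.1 h)).symm hne
      · rw [mul_inv_eq_iff_eq_mul.1 h, (d.zc x).eq]
    exact hex2 ▸ Q.conj e x hxP
  have hmemT : ∀ {x : H} (hx : x ∈ d.E), d.q x hx ∈ T →
      x ∈ B.V ∧ x ∉ d.Z ∧ Q.P x := by
    intro x hx hw
    obtain ⟨x', hx', ⟨hV', hZ', hP'⟩, he⟩ := hw
    rcases d.mem_Z.1 ((d.q_eq_iff).1 he) with h | h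
    · rw [← inv_mul_eq_one.1 h]; exact ⟨hV', hZ', hP'⟩
    · rw [inv_mul_eq_iff_eq_mul] at h
      subst h
      exact ⟨mul_mem hV' B.z_mem_D.1,
        fun h => hZ' ((d.Z.mul_mem_cancel_right (Subgroup.mem_zpowers _)).1 h),
        hsat x' hV' hx' hZ' hP'⟩
  let e₁ : {x : H // x ∈ B.V ∧ x ∈ d.E ∧ Q.P x} ≃
      Option {e : ↥d.E // (QuotientGroup.mk e : d.W) ∈ T} :=
    { toFun := fun x => if hz : x.1 = d.z then none else
        some ⟨⟨x.1, x.2.2.1⟩, x.1, x.2.2.1, ⟨x.2.1, fun h => by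
          rcases d.mem_Z.1 h with h | h
          · exact Q.avoid 1 (one_mem _) (one_mem _) d.zne.symm (h ▸ x.2.2.2)
          · exact hz h, x.2.2.2⟩, rfl⟩
      invFun := fun o => o.elim ⟨d.z, B.z_mem_D.1, d.zmem, Q.z⟩ fun e =>
        ⟨e.1.1, (hmemT e.1.2 e.2).1, e.1.2, (hmemT e.1.2 e.2).2.2⟩
      left_inv := fun x => by
        by_cases hz : x.1 = d.z
        · simp only [dif_pos hz, Option.elim_none]; exact Subtype.ext hz.symm
        · simp only [dif_neg hz, Option.elim_some]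
      right_inv := fun o => by
        rcases o with _ | e
        · simp
        · have hne : (e.1 : H) ≠ d.z := fun h =>
            (hmemT e.1.2 e.2).2.1 (h ▸ Subgroup.mem_zpowers _)
          simp [hne] }
  have hcount : Nat.card {x : H // x ∈ B.V ∧ x ∈ d.E ∧ Q.P x} = 2 * Nat.card T + 1 := by
    rw [Nat.card_congr e₁, Finite.card_option]
    have h := Nat.card_congr (QuotientGroup.preimageMkEquivSubgroupProdSet
      (d.Z.subgroupOf d.E) T)
    rw [Nat.card_prod, Nat.card_congr (Subgroup.subgroupOfEquivOfLe d.Z_le_E).toEquiv,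
      d.card_Z] at h
    exact congrArg (· + 1) h
  rw [hcount]
  refine ⟨?_, fun h63 x hxV hx hx1 => ?_⟩
  · rcases hcases with h | h | h | h <;> simp [h]
  · by_cases hZ : x ∈ d.Z
    · rcases d.mem_Z.1 hZ with rfl | rfl
      exacts [absurd rfl hx1, Q.z]
    · obtain ⟨_, hm⟩ := d.mem_pre.1 (B.inf_E.le ⟨hxV, hx⟩)
      exact (hmemT hx (hfull (by omega) _ (by rw [hF]; exact hm)
        (fun h => hZ (d.q_one_iff.1 h)))).2.2

theorem Fused.card_all (hex' : ∃ v ∈ B.V, v ≠ d.z ∧ Q.P v) :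
    Nat.card {x : H // x ∈ B.V ∧ Q.P x} ∈ ([37, 91, 127, 1441, 1477, 1531, 1567] : List ℕ) ∧
      (Nat.card {x : H // x ∈ B.V ∧ Q.P x} = 127 →
        ∀ x ∈ B.V, (Q.P x ↔ x ∈ d.E ∧ x ≠ 1)) := by
  classical
  have hsum : Nat.card {x : H // x ∈ B.V ∧ Q.P x} =
      Nat.card {x : H // x ∈ B.V ∧ x ∈ d.E ∧ Q.P x} +
      Nat.card {x : H // x ∈ B.V ∧ x ∉ d.E ∧ Q.P x} := by
    rw [← Nat.card_sum]
    exact Nat.card_congr
      { toFun := fun x => if h : x.1 ∈ d.E then Sum.inl ⟨x.1, x.2.1, h, x.2.2⟩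
          else Sum.inr ⟨x.1, x.2.1, h, x.2.2⟩
        invFun := Sum.elim (fun x => ⟨x.1, x.2.1, x.2.2.2⟩) (fun x => ⟨x.1, x.2.1, x.2.2.2⟩)
        left_inv := fun x => by by_cases h : x.1 ∈ d.E <;> simp [h]
        right_inv := fun o => by
          rcases o with x | x
          · simp [x.2.2.1]
          · simp [x.2.2.1] }
  obtain ⟨v, hvV, hvz, hvP⟩ := hex'
  have h2 : 2 ≤ Nat.card {x : H // x ∈ B.V ∧ Q.P x} := by
    have : Nontrivial {x : H // x ∈ B.V ∧ Q.P x} :=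
      ⟨⟨v, hvV, hvP⟩, ⟨d.z, B.z_mem_D.1, Q.z⟩, fun h => hvz (congrArg Subtype.val h)⟩
    exact Finite.one_lt_card
  obtain ⟨hin, hin127⟩ := Q.card_in
  simp only [List.mem_cons, List.not_mem_nil, or_false] at hin ⊢
  rcases Q.card_out with ⟨hnone, h0⟩ | h1
  · refine ⟨by omega, fun h x hx => ⟨fun hP => ⟨?_, ?_⟩, fun hx' => ?_⟩⟩
    · by_contra hE; exact hnone x hx hE hP
    · rintro rfl; exact Q.avoid 1 (one_mem _) (one_mem _) d.zne.symm hP
    · exact hin127 (by omega) x hx hx'.1 hx'.2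
  · exact ⟨by omega, fun h => by omega⟩

end BigElem

namespace Ctx

variable {G : Type u} [Group G] [Finite G] (c : Ctx G)

/-- The count of fused involutions, given the order of the centraliser in `E` of an involution
centralising the element of order three. -/
theorem card_fused_of {V : Subgroup G} (hV : ∀ x ∈ V, x * x = 1) (hc : Nat.card V = 2 ^ 11)
    (hz : c.z ∈ V) (hA : ¬ c.FactA) {v : G} (hv : v ∈ V) (hne : v ≠ c.z) (hcj : IsConj c.z v)
    (hI : ∀ u ∈ c.C, u * u = 1 → u ∉ c.E →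
      Nat.card ↥(c.E ⊓ Subgroup.centralizer ({u} : Set G)) = 2 ^ 9) :
    Nat.card {x : G // x ∈ V ∧ IsConj c.z x} ∈ ([37, 91, 127, 1441, 1477, 1531, 1567] : List ℕ) ∧
    (Nat.card {x : G // x ∈ V ∧ IsConj c.z x} = 127 →
      ∀ x ∈ V, (IsConj c.z x ↔ x ∈ c.E ∧ x ≠ 1)) := by
  let d := c.setup
  have hdz : (d.z : G) = c.z := rfl
  have hVH : V ≤ c.H := fun x hx => mem_cz.2 (comm_of_sq hV hx hz)
  have hE : ∀ {x : c.H}, x ∈ d.E ↔ (x : G) ∈ c.E := Iff.rfl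
  have hC : ∀ {x : c.H}, x ∈ d.C ↔ (x : G) ∈ c.C := fun {x} =>
    ⟨fun h => c.mem_C.2 ⟨mem_cz.1 x.2, congrArg Subtype.val (d.mem_C.1 h).eq⟩,
      fun h => c.mem_setup_C h⟩
  obtain ⟨B, hB⟩ := exists_bigElem d (V := V.subgroupOf c.H)
    (fun x hx => Subtype.ext (hV _ hx))
    (by rw [Nat.card_congr (Subgroup.subgroupOfEquivOfLe hVH).toEquiv, hc])
  have hBV : ∀ {x : c.H}, x ∈ B.V ↔ (x : G) ∈ V := fun {x} => by rw [hB]; rfl
  let Q : BigElem.Fused B :=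
    { P := fun x => IsConj c.z (x : G)
      conj := fun h x hx => hx.trans (isConj_iff.2 ⟨h, rfl⟩)
      z := IsConj.refl _
      avoid := fun u hu _ hne hP => hA ⟨u, hC.1 hu,
        fun h => hne (Subtype.ext (h.trans hdz.symm)), hP⟩
      cent := fun u hu h2 hn => by
        rw [← hI u (hC.1 hu) (congrArg Subtype.val h2) (fun h => hn (hE.2 h))]
        exact Nat.card_congr
          { toFun := fun e => ⟨e.1.1, hE.1 e.2.1, Subgroup.mem_centralizer_singleton_iff.2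
              (congrArg Subtype.val (Subgroup.mem_centralizer_singleton_iff.1 e.2.2))⟩
            invFun := fun e => ⟨⟨e.1, c.E_le e.2.1⟩, hE.2 e.2.1,
              Subgroup.mem_centralizer_singleton_iff.2
                (Subtype.ext (Subgroup.mem_centralizer_singleton_iff.1 e.2.2))⟩
            left_inv := fun _ => rfl
            right_inv := fun _ => rfl } }
  have hcard : Nat.card {x : G // x ∈ V ∧ IsConj c.z x} =
      Nat.card {x : c.H // x ∈ B.V ∧ Q.P x} := Nat.card_congr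
    { toFun := fun x => ⟨⟨x.1, hVH x.2.1⟩, hBV.2 x.2.1, x.2.2⟩
      invFun := fun x => ⟨x.1.1, hBV.1 x.2.1, x.2.2⟩
      left_inv := fun _ => rfl
      right_inv := fun _ => rfl }
  obtain ⟨h1, h2⟩ := Q.card_all ⟨⟨v, hVH hv⟩, hBV.2 hv,
    fun h => hne ((congrArg Subtype.val h).trans hdz), hcj⟩
  rw [hcard]
  exact ⟨h1, fun h x hx => (h2 h ⟨x, hVH hx⟩ (hBV.2 hx)).trans
    (and_congr hE (not_congr ⟨congrArg Subtype.val, fun e => Subtype.ext e⟩))⟩

/-- The count of fused involutions. -/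
theorem card_fused {V : Subgroup G} (hV : ∀ x ∈ V, x * x = 1) (hc : Nat.card V = 2 ^ 11)
    (hz : c.z ∈ V) (hA : ¬ c.FactA) {v : G} (hv : v ∈ V) (hne : v ≠ c.z) (hcj : IsConj c.z v) :
    Nat.card {x : G // x ∈ V ∧ IsConj c.z x} ∈ ([37, 91, 127, 1441, 1477, 1531, 1567] : List ℕ) ∧
    (Nat.card {x : G // x ∈ V ∧ IsConj c.z x} = 127 →
      ∀ x ∈ V, (IsConj c.z x ↔ x ∈ c.E ∧ x ≠ 1)) :=
  c.card_fused_of hV hc hz hA hv hne hcj fun _ hu h2 hE => (c.card_cent_invol hu h2 hE).1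

end Ctx

end CfsgLib.Jf18
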