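import Cfsg.Agent.Jf18.Basic
import Cfsg.Agent.Jf18.CountAbs
import Cfsg.Agent.Jf18.VShape
import Cfsg.Agent.Jf18.M22
import Cfsg.Agent.Jf18.Orbits

/-!
Janko-four type: the count of the fused elements in an elementary abelian subgroup of order
`2 ^ 11`.
-/

set_option autoImplicit false
set_option linter.style.haveILetI false
set_option linter.deprecated false
set_option linter.unusedSectionVars false
set_option linter.unusedVariables false

namespace CfsgLib.J4Type67.Setup

universe u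

variable {H : Type u} [Group H] [Finite H] (d : Setup H)

include d in
/-- No element of order seven normalises such a subgroup. -/
theorem seven_free {V : Subgroup H} (hVs : ∀ a ∈ V, a * a = 1) (hV : Nat.card V = 2 ^ 11) {y : H}
    (hy : y ∈ Subgroup.normalizer (V : Set H)) (h7 : orderOf y = 7) : False := by
  obtain ⟨g, hg, -⟩ := d.exists_shape hVs hV
  have hy7 : d.π y ^ 7 = 1 := by rw [← map_pow, ← h7, pow_orderOf_eq_one, map_one]
  obtain ⟨m, hm⟩ : d.π y ∈ (MulAut.conj : M →* MulAut M).range := by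
    have h := Subgroup.sq_mem_of_index_two inn_index (d.π y)
    have := pow_mem h 4
    rwa [← pow_mul, show 2 * 4 = 7 + 1 from rfl, pow_succ, hy7, one_mul] at this
  have hm7 : m ^ 7 = 1 := conj_injective_M (by rw [map_pow, hm, hy7, map_one])
  have hn : g⁻¹ * m * g ∈ Subgroup.normalizer (hex : Set M) := by
    rw [Subgroup.mem_normalizer_iff]
    intro x
    have key : g * x * g⁻¹ ∈ conjS g hex ↔ m * (g * x * g⁻¹) * m⁻¹ ∈ conjS g hex := by
      have e : ∀ w : M, w ∈ conjS g hex ↔ MulAut.conj w ∈ V.map d.π := fun w => by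
        rw [hg, Subgroup.mem_map_iff_mem conj_injective_M]
      rw [e, e]
      constructor
      · rintro ⟨v, hv, hvw⟩
        refine ⟨y * v * y⁻¹, (Subgroup.mem_normalizer_iff.1 hy v).1 hv, ?_⟩
        simp only [map_mul, map_inv, hvw, hm]
      · rintro ⟨v, hv, hvw⟩
        refine ⟨y⁻¹ * v * y, (Subgroup.mem_normalizer_iff.1 hy _).2 (by simpa [mul_assoc] using hv), ?_⟩
        simp only [map_mul, map_inv] at hvw ⊢
        rw [hvw, hm]
        group
    rw [mem_conjS, mem_conjS] at key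
    simpa [mul_assoc] using key
  have hord : orderOf (⟨_, hn⟩ : Subgroup.normalizer (hex : Set M)) ∣ 7 :=
    orderOf_dvd_of_pow_eq_one (Subtype.ext (by
      show (g⁻¹ * m * g) ^ 7 = 1
      have := @conj_pow _ _ 7 g⁻¹ m
      rw [inv_inv] at this
      rw [this, hm7, mul_one, inv_mul_cancel]))
  rcases (Nat.dvd_prime (by norm_num)).1 hord with h | h
  · have h1 : g⁻¹ * m * g = 1 := congrArg Subtype.val (orderOf_eq_one_iff.1 h)
    have hk : y ∈ d.π.ker := by
      rw [MonoidHom.mem_ker, ← hm, show m = g * (g⁻¹ * m * g) * g⁻¹ by group, h1, mul_one,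
        mul_inv_cancel, map_one]
    have := Subgroup.orderOf_dvd_natCard d.π.ker hk
    rw [h7, d.cardKer] at this
    norm_num at this
  · exact CfsgLib.Jf18.M22.not_seven_dvd hex rfl (h ▸ orderOf_dvd_natCard _)

end CfsgLib.J4Type67.Setup

namespace CfsgLib.Jf18.Ctx

open CfsgLib.J4Type67

universe u

variable {G : Type u} [Group G] [Finite G] (c : Ctx G)

theorem sq_subgroupOf {V : Subgroup G} (hV : ∀ x ∈ V, x * x = 1) :
    ∀ a ∈ V.subgroupOf c.H, a * a = 1 := fun a ha => Subtype.ext (hV _ ha)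

theorem le_H_of_elementary {V : Subgroup G} (hV : ∀ x ∈ V, x * x = 1) (hz : c.z ∈ V) : V ≤ c.H :=
  fun x hx => mem_cz.2 (comm_of_sq hV hx hz)

theorem card_subgroupOf {V : Subgroup G} (hV : V ≤ c.H) :
    Nat.card (V.subgroupOf c.H) = Nat.card V :=
  Nat.card_congr (Subgroup.subgroupOfEquivOfLe hV).toEquiv

/-- The fused elements of an elementary abelian subgroup of order `2 ^ 11` form one orbit of its
normaliser. -/
theorem exists_normalizer_move {V : Subgroup G} (hV : ∀ x ∈ V, x * x = 1) (hc : Nat.card V = 2 ^ 11)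
    (hz : c.z ∈ V) {x : G} (hx : x ∈ V) (hcj : IsConj c.z x) :
    ∃ n ∈ Subgroup.normalizer (V : Set G), n * c.z * n⁻¹ = x := by
  obtain ⟨g, rfl⟩ := isConj_iff.1 hcj
  set W := conjS g⁻¹ V
  have hW : ∀ a ∈ W, a * a = 1 := by
    rintro _ ⟨b, hb, rfl⟩
    rw [← map_mul, hV b hb, map_one]
  have hzW : c.z ∈ W := mem_conjS.2 (by rwa [inv_inv])
  have hWc : Nat.card W = 2 ^ 11 := (card_conjS _ _).trans hc
  have hVH := c.le_H_of_elementary hV hz
  have hWH := c.le_H_of_elementary hW hzW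
  obtain ⟨h, hh⟩ := c.setup.exists_conj_elementary (c.sq_subgroupOf hV)
    ((c.card_subgroupOf hVH).trans hc) (c.sq_subgroupOf hW) ((c.card_subgroupOf hWH).trans hWc)
  refine ⟨g * (h : G)⁻¹, ?_, ?_⟩
  · rw [Subgroup.mem_normalizer_iff]
    intro y
    -- `y ∈ V` iff `h⁻¹ y h ∈ W`
    have key : y ∈ V ↔ (h : G)⁻¹ * y * h ∈ W := by
      constructor
      · intro hy
        have : (⟨y, hVH hy⟩ : c.H) ∈ conjS h (W.subgroupOf c.H) := hh.symm ▸ (show (⟨y, hVH hy⟩ : c.H) ∈ V.subgroupOf c.H from hy)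
        have h2 := mem_conjS.1 this
        exact h2
      · intro hy
        have hyH : y ∈ c.H := by
          have := mul_mem (mul_mem h.2 (hWH hy)) (inv_mem h.2)
          simpa [mul_assoc] using this
        have : (⟨y, hyH⟩ : c.H) ∈ conjS h (W.subgroupOf c.H) := mem_conjS.2 hy
        rw [hh] at this
        exact this
    rw [key, mem_conjS, inv_inv]
    constructor <;> intro h' <;> simpa [mul_assoc] using h'
  · rw [show g * (h : G)⁻¹ * c.z * (g * (h : G)⁻¹)⁻¹ = g * ((h : G)⁻¹ * c.z * h) * g⁻¹ by group,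
      mul_assoc (h : G)⁻¹, ← (mem_cz.1 h.2).eq, inv_mul_cancel_left]

/-- A common elementary abelian subgroup forces fusion into the centraliser of `p`. -/
theorem factA_of_commonV (h : c.CommonV) : c.FactA := by
  classical
  obtain ⟨v, V, hne, hcj, hz, hv, hV, hc⟩ := h
  by_contra hA
  obtain ⟨hlist, h127⟩ := c.card_fused hV hc hz hA hv hne hcj
  letI : CommGroup ↥V := { (inferInstance : Group ↥V) with
    mul_comm := fun a b => Subtype.ext (comm_of_sq hV a.2 b.2) }
  set N := Subgroup.normalizer (V : Set G)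
  let φ : N →* MulAut ↥V := V.normalizerMonoidHom
  haveI : Finite (MulAut ↥V) := Finite.of_injective (fun σ x => σ x) fun _ _ h => MulEquiv.ext (congrFun h)
  set zV : ↥V := ⟨c.z, hz⟩
  have hφ : ∀ (n : N) (x : ↥V), ((φ n) x : G) = n * x * (n : G)⁻¹ := fun n x => rfl
  -- the orbit
  have horb : MulAction.orbit φ.range zV = {x : ↥V | IsConj c.z (x : G)} := by
    ext x
    constructor
    · rintro ⟨⟨_, n, rfl⟩, rfl⟩
      exact isConj_iff.2 ⟨n, (hφ n zV).symm⟩
    · intro hx
      obtain ⟨n, hn, hnx⟩ := c.exists_normalizer_move hV hc hz x.2 hx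
      exact ⟨⟨_, ⟨n, hn⟩, rfl⟩, Subtype.ext hnx⟩
  have hcardS : Nat.card {x : G // x ∈ V ∧ IsConj c.z x} =
      (MulAction.stabilizer φ.range zV).index := by
    rw [MulAction.index_stabilizer, horb, ← Nat.card_coe_set_eq]
    exact Nat.card_congr (Equiv.subtypeSubtypeEquivSubtypeInter (· ∈ V) (IsConj c.z ·)).symm
  have hdvd : Nat.card {x : G // x ∈ V ∧ IsConj c.z x} ∣ Nat.card φ.range := by
    rw [hcardS]; exact Subgroup.index_dvd_card _
  have hprime : ∀ r : ℕ, r.Prime → r ∣ Nat.card {x : G // x ∈ V ∧ IsConj c.z x} →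
      ∃ k < 11, 2 ^ 11 ≡ 2 ^ k [MOD r] := by
    intro r hr hrd
    haveI := Fact.mk hr
    obtain ⟨σ, hσ⟩ := exists_prime_orderOf_dvd_card' r (hrd.trans hdvd)
    rw [← Subgroup.orderOf_coe] at hσ
    obtain ⟨k, hk, -, hmod⟩ := Count.fix_modEq hr hc hσ
    exact ⟨k, hk, hmod⟩
  have hbad : ∀ r : ℕ, r ∈ [37, 13, 131, 211, 1531, 1567] → ∀ k < 11, ¬ 2 ^ 11 ≡ 2 ^ k [MOD r] := by
    decide
  have hbad' : ∀ r : ℕ, r.Prime → r ∈ [37, 13, 131, 211, 1531, 1567] →
      ¬ r ∣ Nat.card {x : G // x ∈ V ∧ IsConj c.z x} := fun r hr hr' hd => by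
    obtain ⟨k, hk, hm⟩ := hprime r hr hd
    exact hbad r hr' k hk hm
  have hS : Nat.card {x : G // x ∈ V ∧ IsConj c.z x} = 127 := by
    simp only [List.mem_cons, List.not_mem_nil, or_false] at hlist
    rcases hlist with e | e | e | e | e | e | e
    · exact absurd (dvd_of_eq e.symm) (hbad' 37 (by norm_num) (by simp))
    · exact absurd (e ▸ ⟨7, by norm_num⟩) (hbad' 13 (by norm_num) (by simp))
    · exact e
    · exact absurd (e ▸ ⟨11, by norm_num⟩) (hbad' 131 (by norm_num) (by simp))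
    · exact absurd (e ▸ ⟨7, by norm_num⟩) (hbad' 211 (by norm_num) (by simp))
    · exact absurd (dvd_of_eq e.symm) (hbad' 1531 (by norm_num) (by simp))
    · exact absurd (dvd_of_eq e.symm) (hbad' 1567 (by norm_num) (by simp))
  have hfus := h127 hS
  -- the subgroup of order `2 ^ 7`
  set D := V ⊓ c.E
  have hVH := c.le_H_of_elementary hV hz
  have hVs' := c.sq_subgroupOf hV
  have hVc' := (c.card_subgroupOf hVH).trans hc
  obtain ⟨g₀, -, hD'⟩ := c.setup.exists_shape hVs' hVc'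
  have hD : Nat.card D = 2 ^ 7 := by
    rw [← hD']
    show Nat.card ↥(V ⊓ c.E) = Nat.card ↥(V.subgroupOf c.H ⊓ c.E.subgroupOf c.H)
    rw [show V.subgroupOf c.H ⊓ c.E.subgroupOf c.H = (V ⊓ c.E).subgroupOf c.H from rfl]
    exact (Nat.card_congr (Subgroup.subgroupOfEquivOfLe
      (inf_le_left.trans hVH : V ⊓ c.E ≤ c.H)).toEquiv).symm
  letI : CommGroup ↥D := { (inferInstance : Group ↥D) with
    mul_comm := fun a b => Subtype.ext (comm_of_sq hV a.2.1 b.2.1) }
  have hDsq : ∀ x : ↥D, x * x = 1 := fun x => Subtype.ext (hV _ x.2.1)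
  have hNsub : N ≤ Subgroup.normalizer (D : Set G) := by
    have key : ∀ n ∈ N, ∀ x ∈ D, n * x * n⁻¹ ∈ D := by
      intro n hn x hx
      by_cases hx1 : x = 1
      · rw [hx1, mul_one, mul_inv_cancel]; exact one_mem _
      have hx' := (Subgroup.mem_normalizer_iff.1 hn x).1 hx.1
      have hcj' : IsConj c.z (n * x * n⁻¹) :=
        ((hfus x hx.1).2 ⟨hx.2, hx1⟩).trans (isConj_iff.2 ⟨n, rfl⟩)
      exact ⟨hx', ((hfus _ hx').1 hcj').1⟩
    intro n hn
    rw [Subgroup.mem_normalizer_iff]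
    refine fun x => ⟨key n hn x, fun hx => ?_⟩
    have := key n⁻¹ (inv_mem hn) _ hx
    simpa [mul_assoc] using this
  let ψ : N →* MulAut ↥D := D.normalizerMonoidHom.comp (Subgroup.inclusion hNsub)
  have hψ : ∀ (n : N) (x : ↥D), ((ψ n) x : G) = n * x * (n : G)⁻¹ := fun n x => rfl
  haveI : Finite (MulAut ↥D) := Finite.of_injective (fun σ x => σ x) fun _ _ h => MulEquiv.ext (congrFun h)
  set zD : ↥D := ⟨c.z, hz, c.z_mem_E⟩
  -- an element of `E` moving `D`
  obtain ⟨d₀, hd₀, hd1, hdz⟩ : ∃ d₀ ∈ D, d₀ ≠ 1 ∧ d₀ ≠ c.z := by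
    by_contra hno
    push Not at hno
    have : (D : Set G) ⊆ {1, c.z} := fun x hx => by
      by_cases h1 : x = 1
      · exact Or.inl h1
      · exact Or.inr (hno x hx h1)
    have h2 := (Set.ncard_le_ncard this).trans (Set.ncard_insert_le 1 {c.z})
    rw [Set.ncard_singleton, ← Nat.card_coe_set_eq] at h2
    change Nat.card ↥D ≤ 1 + 1 at h2
    rw [hD] at h2
    norm_num at h2
  obtain ⟨e, he, hed⟩ : ∃ e ∈ c.E, ¬ Commute d₀ e := by
    by_contra hno
    push Not at hno
    rcases c.center_E hd₀.2 hno with h | h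
    exacts [hd1 h, hdz h]
  have heN : e ∈ N := by
    rw [Subgroup.mem_normalizer_iff]
    intro x
    have h := c.setup.E_le_normalizer hVs' hVc' (show (⟨e, c.E_le he⟩ : c.H) ∈ c.setup.E from he)
    constructor
    · intro hx
      exact (Subgroup.mem_normalizer_iff.1 h ⟨x, hVH hx⟩).1 hx
    · intro hx
      have hxH : x ∈ c.H := by
        have := mul_mem (mul_mem (inv_mem (c.E_le he)) (hVH hx)) (c.E_le he)
        simpa [mul_assoc] using this
      exact (Subgroup.mem_normalizer_iff.1 h ⟨x, hxH⟩).2 hx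
  refine Count.no_transitive hDsq hD ψ.range (z := zD) (fun h => c.z_ne_one (congrArg Subtype.val h))
    (fun x hx => ?_) (ε := ψ ⟨e, heN⟩) ⟨_, rfl⟩ (Subtype.ext ?_) (fun h => hed ?_) ?_
  · obtain ⟨n, hn, hnx⟩ := c.exists_normalizer_move hV hc hz x.2.1
      ((hfus _ x.2.1).2 ⟨x.2.2, fun h => hx (Subtype.ext h)⟩)
    exact ⟨_, ⟨⟨n, hn⟩, rfl⟩, Subtype.ext hnx⟩
  · rw [hψ]
    exact mul_inv_eq_iff_eq_mul.2 (mem_cz.1 (c.E_le he)).eq
  · have := congrArg (fun σ : MulAut ↥D => ((σ ⟨d₀, hd₀⟩ : ↥D) : G)) h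
    simp only [MulAut.one_apply, hψ] at this
    exact (mul_inv_eq_iff_eq_mul.1 this : Commute e d₀).symm
  · rintro _ ⟨n, rfl⟩ hnz h7
    have hnH : (n : G) ∈ c.H := by
      refine mem_cz.2 ?_
      have := congrArg (fun x : ↥D => (x : G)) hnz
      simp only [hψ] at this
      exact mul_inv_eq_iff_eq_mul.1 this
    set y : c.H := ⟨n, hnH⟩
    have hyN : y ∈ Subgroup.normalizer (V.subgroupOf c.H : Set c.H) := by
      rw [Subgroup.mem_normalizer_iff]
      exact fun x => Subgroup.mem_normalizer_iff.1 n.2 (x : G)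
    have hdv : 7 ∣ orderOf y := by
      rw [← Subgroup.orderOf_coe y]
      show 7 ∣ orderOf (n : G)
      rw [Subgroup.orderOf_coe, ← h7]
      exact orderOf_map_dvd ψ n
    exact c.setup.seven_free hVs' hVc' (pow_mem hyN (orderOf y / 7))
      (by rw [orderOf_pow_of_dvd (Nat.div_ne_zero_iff.2 ⟨by norm_num, Nat.le_of_dvd (orderOf_pos y) hdv⟩)
        (Nat.div_dvd_of_dvd hdv), Nat.div_div_self hdv (orderOf_pos y).ne'])

end CfsgLib.Jf18.Ctx
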