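import Cfsg.Agent.Jf18.Basic
import Cfsg.Agent.J4Type67.Elementary
import Cfsg.Agent.Jf18.M22

/-!
Two-subgroups of the involution centraliser modulo its 2-core.
-/

set_option autoImplicit false

namespace CfsgLib.Jf18.Ctx

open CfsgLib.J4Type67

universe u

variable {G : Type u} [Group G] [Finite G] (c : Ctx G)

/-- A 2-subgroup of the centraliser meets the kernel of the projection in the 2-core. -/
theorem mem_E_of_pi_eq_one {A : Subgroup G} (hA : A ≤ c.H) (h2 : IsPGroup 2 A) {x : G} (hx : x ∈ A)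
    (hp : c.pi ⟨x, hA hx⟩ = 1) : x ∈ c.E := by
  obtain ⟨T, hT⟩ := (h2.of_equiv (Subgroup.subgroupOfEquivOfLe hA).symm).exists_le_sylow
  exact c.setup.ker_inf_sylow T (hT (show (⟨x, hA hx⟩ : c.H) ∈ A.subgroupOf c.H from hx))
    (MonoidHom.mem_ker.2 hp)

/-- The image of a 2-subgroup of the centraliser. -/
theorem card_image {A : Subgroup G} (hA : A ≤ c.H) (h2 : IsPGroup 2 A) :
    Nat.card ((A.subgroupOf c.H).map c.pi) * Nat.card ↥(A ⊓ c.E) = Nat.card A := by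
  let f : A →* MulAut M := c.pi.comp (Subgroup.inclusion hA)
  have h := Subgroup.card_mul_index f.ker
  rw [Subgroup.index_ker] at h
  have hr : f.range = (A.subgroupOf c.H).map c.pi := by
    ext φ
    constructor
    · rintro ⟨a, rfl⟩
      exact ⟨Subgroup.inclusion hA a, a.2, rfl⟩
    · rintro ⟨a, ha, rfl⟩
      exact ⟨⟨a, ha⟩, rfl⟩
  have hk : Nat.card f.ker = Nat.card ↥(A ⊓ c.E) := Nat.card_congr
    { toFun := fun x => ⟨(x.1 : G), x.1.2, c.mem_E_of_pi_eq_one hA h2 x.1.2 x.2⟩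
      invFun := fun x => ⟨⟨(x : G), x.2.1⟩, c.pi_of_mem_E x.2.2⟩
      left_inv := fun _ => rfl
      right_inv := fun _ => rfl }
  rw [← h, hr, hk, mul_comm]

theorem isPGroup_innPre {A : Subgroup G} (hA : A ≤ c.H) (h2 : IsPGroup 2 A) :
    IsPGroup 2 ↥(c.setup.innPre (A.subgroupOf c.H)) :=
  ((h2.of_equiv (Subgroup.subgroupOfEquivOfLe hA).symm).map c.setup.π).comap_of_injective _
    conj_injective_M

theorem hex_or_duad_of_quot {A : Subgroup G} (hA : A ≤ c.H) (h2 : IsPGroup 2 A)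
    (hsq : ∀ a ∈ A, a * a ∈ c.E) (_hc : ∀ a ∈ A, ∀ b ∈ A, a * b * a⁻¹ * b⁻¹ ∈ c.E)
    (hcard : 32 * Nat.card ↥(A ⊓ c.E) ≤ Nat.card A) :
    ∃ g : M, ∃ D : Subgroup M, (D = conjS g hex ∨ D = conjS g duad) ∧
      ∀ d ∈ D, ∃ a ∈ A, ∃ ha : a ∈ c.H, c.pi ⟨a, ha⟩ = MulAut.conj d := by
  haveI : Fact (Nat.Prime 2) := ⟨Nat.prime_two⟩
  set A₁ := A.subgroupOf c.H
  set A₀ := c.setup.innPre A₁
  have hmap : A₀.map (MulAut.conj : M →* MulAut M) =
      A₁.map c.pi ⊓ (MulAut.conj : M →* MulAut M).range := by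
    show (Subgroup.comap _ (A₁.map c.pi)).map _ = _
    rw [Subgroup.map_comap_eq, inf_comm]
  have hA₀sq : ∀ d ∈ A₀, d * d = 1 := by
    intro d hd
    obtain ⟨t, ht, htd⟩ := c.setup.mem_innPre.1 hd
    apply conj_injective_M
    rw [map_mul, ← htd, map_one]
    show c.pi t * c.pi t = 1
    rw [← map_mul]
    exact c.pi_of_mem_E (e := ((t * t : c.H) : G)) (hsq (t : G) ht)
  have h32 : 32 ≤ Nat.card (A₁.map c.pi) := by
    have h := c.card_image hA h2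
    have hpos : 0 < Nat.card ↥(A ⊓ c.E) := Nat.card_pos
    rw [← h] at hcard
    exact Nat.le_of_mul_le_mul_right hcard hpos
  have h16 : 16 ≤ Nat.card A₀ := by
    have h := card_le_two_mul _ (le_of_eq inn_index) (by rw [inn_index]; norm_num) (A₁.map c.pi)
    rw [← hmap, Subgroup.card_map_of_injective conj_injective_M] at h
    omega
  obtain ⟨S, hS⟩ := (c.isPGroup_innPre hA h2).exists_le_sylow
  obtain ⟨g, -, hcases⟩ := elem_in_sylow S
  refine ⟨g, A₀, hcases A₀ hA₀sq h16 hS, fun d hd => ?_⟩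
  obtain ⟨t, ht, htd⟩ := c.setup.mem_innPre.1 hd
  exact ⟨t, ht, t.2, htd⟩

theorem comm_mem_E {K R : Subgroup G} (hK : K ≤ c.H) (h2 : IsPGroup 2 K) (hR : R ≤ K)
    (hRe : ∀ r ∈ R, r * r = 1) (hRc : Nat.card R = 32) (hRE : R ⊓ c.E = ⊥)
    (hcen : ∀ r ∈ R, ∀ k ∈ K, Commute r k) :
    ∀ a ∈ K, ∀ b ∈ K, a * b * a⁻¹ * b⁻¹ ∈ c.E := by
  set I := (MulAut.conj : M →* MulAut M).range
  have hRH : R ≤ c.H := hR.trans hK
  have hR2 : IsPGroup 2 R := h2.to_le hR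
  have hRcomm : ∀ r ∈ R, ∀ s ∈ R, r * s * r⁻¹ * s⁻¹ = 1 := fun r hr s hs => by
    rw [(hcen r hr s (hR hs)).eq, mul_inv_cancel_right, mul_inv_cancel]
  obtain ⟨g, D, hD, hDR⟩ := c.hex_or_duad_of_quot hRH hR2
    (fun r hr => by rw [hRe r hr]; exact one_mem _)
    (fun r hr s hs => by rw [hRcomm r hr s hs]; exact one_mem _)
    (by rw [hRE, Subgroup.card_bot, hRc])
  have hD16 : Nat.card D = 16 := by
    rcases hD with rfl | rfl <;> rw [card_conjS]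
    exacts [card_hex, card_duad]
  -- inner images of `K` lie in `D`
  have hinner : ∀ k (hk : k ∈ K), c.pi ⟨k, hK hk⟩ ∈ I →
      ∃ d ∈ D, c.pi ⟨k, hK hk⟩ = MulAut.conj d := by
    rintro k hk ⟨m, hm⟩
    refine ⟨m, ?_, hm.symm⟩
    obtain ⟨n, hn⟩ := h2 ⟨k, hk⟩
    refine M22.mem_of_commute hD (k := n) ?_ fun d hd => ?_
    · apply conj_injective_M
      rw [map_pow, hm, ← map_pow, map_one]
      have : (⟨k, hK hk⟩ : c.H) ^ 2 ^ n = 1 := Subtype.ext (congrArg Subtype.val hn :)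
      rw [this, map_one]
    · obtain ⟨r, hr, hrH, hrd⟩ := hDR d hd
      apply conj_injective_M
      rw [map_mul, map_mul, hm, ← hrd, ← map_mul, ← map_mul]
      exact congrArg c.pi (Subtype.ext (hcen r hr k hk).eq.symm)
  -- some element of `R` has outer image
  obtain ⟨r₀, hr₀, hr₀o⟩ : ∃ r, ∃ hr : r ∈ R, c.pi ⟨r, hRH hr⟩ ∉ I := by
    by_contra hne
    push Not at hne
    have hsub : (R.subgroupOf c.H).map c.pi ≤ D.map (MulAut.conj : M →* MulAut M) := by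
      rintro φ ⟨r, hr, rfl⟩
      obtain ⟨d, hd, hdr⟩ := hinner (r : G) (hR hr) (hne r hr)
      exact ⟨d, hd, hdr.symm⟩
    have h := c.card_image hRH hR2
    rw [hRE, Subgroup.card_bot, mul_one, hRc] at h
    have := Subgroup.card_le_of_le hsub
    rw [h, Subgroup.card_map_of_injective conj_injective_M, hD16] at this
    omega
  have himg : ∀ k (hk : k ∈ K), ∃ r, ∃ hr : r ∈ R, c.pi ⟨k, hK hk⟩ = c.pi ⟨r, hRH hr⟩ := by
    intro k hk
    have hgen : ∀ (y : G) (hy : y ∈ K), c.pi ⟨y, hK hy⟩ ∈ I →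
        ∃ r, ∃ hr : r ∈ R, c.pi ⟨y, hK hy⟩ = c.pi ⟨r, hRH hr⟩ := by
      intro y hy hyI
      obtain ⟨d, hd, hdy⟩ := hinner y hy hyI
      obtain ⟨r, hr, _, hrd⟩ := hDR d hd
      exact ⟨r, hr, hdy.trans hrd.symm⟩
    by_cases hkI : c.pi ⟨k, hK hk⟩ ∈ I
    · exact hgen k hk hkI
    · have hmul : (⟨k * r₀, hK (mul_mem hk (hR hr₀))⟩ : c.H) = ⟨k, hK hk⟩ * ⟨r₀, hRH hr₀⟩ := rfl
      obtain ⟨r, hr, hkr⟩ := hgen (k * r₀) (mul_mem hk (hR hr₀)) (by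
        rw [hmul, map_mul, Subgroup.mul_mem_iff_of_index_two inn_index]
        exact iff_of_false hkI hr₀o)
      refine ⟨r * r₀⁻¹, mul_mem hr (inv_mem hr₀), ?_⟩
      rw [hmul, map_mul] at hkr
      rw [show (⟨r * r₀⁻¹, hRH (mul_mem hr (inv_mem hr₀))⟩ : c.H) =
        ⟨r, hRH hr⟩ * (⟨r₀, hRH hr₀⟩ : c.H)⁻¹ from rfl, map_mul, map_inv, eq_mul_inv_iff_mul_eq,
        hkr]
  intro a ha b hb
  have hab : a * b * a⁻¹ * b⁻¹ ∈ K := mul_mem (mul_mem (mul_mem ha hb) (inv_mem ha)) (inv_mem hb)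
  refine c.mem_E_of_pi_eq_one hK h2 hab ?_
  obtain ⟨r, hr, har⟩ := himg a ha
  obtain ⟨s, hs, hbs⟩ := himg b hb
  rw [show (⟨a * b * a⁻¹ * b⁻¹, hK hab⟩ : c.H) =
      ⟨a, hK ha⟩ * ⟨b, hK hb⟩ * (⟨a, hK ha⟩ : c.H)⁻¹ * (⟨b, hK hb⟩ : c.H)⁻¹ from rfl,
    map_mul, map_mul, map_mul, map_inv, map_inv, har, hbs, ← map_inv, ← map_inv, ← map_mul,
    ← map_mul, ← map_mul]
  rw [show (⟨r, hRH hr⟩ : c.H) * ⟨s, hRH hs⟩ * (⟨r, hRH hr⟩ : c.H)⁻¹ * (⟨s, hRH hs⟩ : c.H)⁻¹ = 1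
    from Subtype.ext (hRcomm r hr s hs), map_one]

end CfsgLib.Jf18.Ctx
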