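import Cfsg.Agent.Jf18.Invol
import Cfsg.Agent.Jf18.Quot

/-!
Janko-four type: an inner conjugate of the involution gives one in the 2-core or one centralising
the element of order three.
-/

set_option autoImplicit false
set_option linter.unusedSectionVars false

namespace CfsgLib.Jf18.Ctx

open CfsgLib.J4Type67

universe u

variable {G : Type u} [Group G] [Finite G] (c : Ctx G)

theorem mul_self_of_isConj {v : G} (h : IsConj c.z v) : v * v = 1 ∧ v ≠ 1 := by
  obtain ⟨g, rfl⟩ := isConj_iff.1 h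
  refine ⟨?_, fun e => c.z_ne_one (conj_eq_one_iff.1 e)⟩
  rw [show g * c.z * g⁻¹ * (g * c.z * g⁻¹) = g * (c.z * c.z) * g⁻¹ by group, c.z_mul_self,
    mul_one, mul_inv_cancel]

theorem commute_of_comm_eq_one {a b : G} (h : a * b * a⁻¹ * b⁻¹ = 1) : Commute a b :=
  mul_inv_eq_iff_eq_mul.1 (mul_inv_eq_one.1 h)

/-- The double centraliser of the centraliser of an involution of `C`. -/
theorem exists_moving {u : G} (hu : u ∈ c.C) (h2 : u * u = 1) (hE : u ∉ c.E) {R : Subgroup G}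
    (hRK : R ≤ c.E ⊓ Subgroup.centralizer ({u} : Set G)) (hR : Nat.card R = 32)
    (hcen : ∀ r ∈ R, ∀ f ∈ c.E, Commute f u → Commute f r)
    {e : G} (he : e ∈ c.E) (heR : e ∉ R) :
    ∃ f ∈ c.E, Commute f u ∧ f * e * f⁻¹ * e⁻¹ = c.z := by
  by_contra hno
  set K := c.E ⊓ Subgroup.centralizer ({u} : Set G)
  have hKH : K ≤ c.H := inf_le_left.trans c.E_le
  have hz : c.z ∈ K := ⟨c.z_mem_E, mem_cz.2 (c.commute_z hu.1).symm⟩
  have h14 := c.setup.card_centralizer_eq (U := K.subgroupOf c.H) (fun x hx => hx.1) hz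
  rw [Nat.card_congr (Subgroup.subgroupOfEquivOfLe hKH).toEquiv,
    (c.card_cent_invol hu h2 hE).1] at h14
  set D := c.setup.E ⊓ Subgroup.centralizer (K.subgroupOf c.H : Set c.H)
  have hRH : R ≤ c.H := hRK.trans hKH
  have hmem : ∀ {x : G} (hx : x ∈ c.E), (∀ f ∈ c.E, Commute f u → Commute f x) →
      (⟨x, c.E_le hx⟩ : c.H) ∈ D := fun {x} hx h =>
    ⟨hx, Subgroup.mem_centralizer_iff.2 fun f hf =>
      Subtype.ext (h f hf.1 (mem_cz.1 hf.2)).eq⟩
  have hle : R.subgroupOf c.H ≤ D := fun r hr => hmem (hRK hr).1 (hcen r hr)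
  have hD : R.subgroupOf c.H = D := by
    refine Subgroup.eq_of_le_of_card_ge hle ?_
    rw [Nat.card_congr (Subgroup.subgroupOfEquivOfLe hRH).toEquiv, hR]
    norm_num at h14 ⊢
    omega
  have heD : (⟨e, c.E_le he⟩ : c.H) ∈ D := hmem he fun f hf hfu =>
    commute_of_comm_eq_one ((c.commE hf he).resolve_right fun h => hno ⟨f, hf, hfu, h⟩)
  rw [← hD] at heD
  exact heR heD

theorem factA_or_caseE (h : c.CaseInn) : c.FactA ∨ c.CaseE := by
  obtain ⟨v, hv, hvz, hcj⟩ := h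
  by_cases hvE : v ∈ c.E
  · exact Or.inr ⟨v, hvE, hvz, hcj⟩
  obtain ⟨hv2, -⟩ := c.mul_self_of_isConj hcj
  obtain ⟨e, he, u, hu, hu2, huE, rfl⟩ := c.invol_split hv hv2 hvE
  obtain ⟨R, hRK, hzR, hRc, hRsq, hcomm, hrep, hcu⟩ := c.exists_comm_group hu hu2 huE
  obtain ⟨-, hcz⟩ := c.card_cent_invol hu hu2 huE
  have hui : u⁻¹ = u := inv_eq_of_mul_eq_one_right hu2
  have heu : Commute e u := by
    refine hcz e he ?_
    have h1 : u * e * u = e⁻¹ := by
      refine (inv_eq_of_mul_eq_one_right ?_).symm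
      rw [← hv2]; group
    have h2 : e * u * e⁻¹ * u⁻¹ = e * e := by
      rw [← h1, hui, show e * u * (u * e * u) * u = e * (u * u) * e * (u * u) by group, hu2,
        mul_one, mul_one]
    rw [h2, c.mem_zpowers_z]
    exact c.sqE he
  have he2 : e * e = 1 := by
    rw [heu.symm.mul_mul_mul_comm, hu2, mul_one] at hv2
    exact hv2
  by_cases heR : e ∈ R
  · -- `v` is conjugate into `C`
    obtain ⟨f, hf, i, hfe⟩ := hrep e heR
    refine Or.inl ⟨u * c.z ^ i, mul_mem hu (zpow_mem c.z_mem_cent_p i), fun h => huE ?_, ?_⟩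
    · rw [show u = c.z * (c.z ^ i)⁻¹ from eq_mul_inv_of_mul_eq h]
      exact mul_mem c.z_mem_E (inv_mem (zpow_mem c.z_mem_E i))
    · refine hcj.trans (isConj_iff.2 ⟨f⁻¹, ?_⟩)
      have hzu : Commute (c.z ^ i) u := ((c.commute_z hu.1).zpow_right i).symm
      have hzf : Commute (c.z ^ i) f := ((c.commute_z (c.E_le hf)).zpow_right i).symm
      rw [hfe, mul_assoc _ (c.z ^ i) u, hzu.eq, inv_inv,
        show f⁻¹ * (f * u * f⁻¹ * u⁻¹ * (u * c.z ^ i)) * f = u * f⁻¹ * (c.z ^ i * f) by group,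
        hzf.eq, mul_assoc, inv_mul_cancel_left]
  have hcen : ∀ r ∈ R, ∀ f ∈ c.E, Commute f u → Commute f r :=
    fun r hr f hf hfu => (hcu f hf).2 hfu r hr
  obtain ⟨f₀, hf₀, hf₀u, hf₀e⟩ := c.exists_moving hu hu2 huE hRK hRc hcen he heR
  have her : ∀ r ∈ R, Commute e r := fun r hr => hcen r hr e he heu
  have hru : ∀ r ∈ R, Commute r u := fun r hr => mem_cz.1 (hRK hr).2
  -- the coset of `v` over `R` consists of conjugates
  have hconj : ∀ r ∈ R, IsConj c.z (e * u * r) := by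
    have hz1 : IsConj c.z (e * u * c.z) := by
      refine hcj.trans (isConj_iff.2 ⟨f₀, ?_⟩)
      have h3 : f₀ * e * f₀⁻¹ = c.z * e := mul_inv_eq_iff_eq_mul.1 hf₀e
      rw [show f₀ * (e * u) * f₀⁻¹ = f₀ * e * f₀⁻¹ * (f₀ * u * f₀⁻¹) by group, h3, hf₀u.eq,
        mul_inv_cancel_right, mul_assoc, ← (c.commute_z (mul_mem (c.E_le he) hu.1)).eq]
    intro r hr
    obtain ⟨f, hf, i, hfr⟩ := hrep r hr
    set r₀ := f * u * f⁻¹ * u⁻¹
    have h4 : ∀ x ∈ Subgroup.zpowers c.z, IsConj c.z (e * u * r₀ * x) := by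
      have hr₀ : r₀ ∈ R := hcomm f hf
      have hfu : f * u * f⁻¹ = u * r₀ := by
        rw [← (hru r₀ hr₀).eq]; simp only [r₀]; group
      have h6 : ∀ w, (w = e * u ∨ w = e * u * c.z) →
          IsConj c.z (f * w * f⁻¹) := fun w hw => by
        rcases hw with rfl | rfl
        · exact hcj.trans (isConj_iff.2 ⟨f, rfl⟩)
        · exact hz1.trans (isConj_iff.2 ⟨f, rfl⟩)
      have hzf : f * c.z * f⁻¹ = c.z := by
        rw [(c.commute_z (c.E_le hf)).eq, mul_inv_cancel_right]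
      obtain ⟨ε, hεz, hfe⟩ : ∃ ε, (ε = 1 ∨ ε = c.z) ∧ f * e * f⁻¹ = ε * e :=
        ⟨f * e * f⁻¹ * e⁻¹, c.commE hf he, by group⟩
      have hεc : ∀ y ∈ c.H, ε * y = y * ε := by
        intro y hy
        rcases hεz with rfl | rfl
        · rw [one_mul, mul_one]
        · exact (c.commute_z hy).eq.symm
      have hvrH : e * (u * r₀) ∈ c.H :=
        mul_mem (c.E_le he) (mul_mem hu.1 (c.E_le (hRK hr₀).1))
      have k0 : f * (e * u) * f⁻¹ = e * u * r₀ * ε := by
        rw [show f * (e * u) * f⁻¹ = f * e * f⁻¹ * (f * u * f⁻¹) by group, hfe, hfu, mul_assoc,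
          hεc _ hvrH]
        group
      have k1 : f * (e * u * c.z) * f⁻¹ = e * u * r₀ * (ε * c.z) := by
        rw [show f * (e * u * c.z) * f⁻¹ = f * (e * u) * f⁻¹ * (f * c.z * f⁻¹) by group, k0, hzf,
          mul_assoc]
      have a0 := k0 ▸ h6 _ (Or.inl rfl)
      have a1 := k1 ▸ h6 _ (Or.inr rfl)
      intro x hx
      rcases c.mem_zpowers_z.1 hx with rfl | rfl <;> rcases hεz with rfl | rfl
      · exact a0
      · rwa [c.z_mul_self] at a1
      · rwa [one_mul] at a1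
      · exact a0
    rw [hfr, ← mul_assoc]
    exact h4 _ ⟨i, rfl⟩
  right
  obtain ⟨g, hg⟩ := c.exists_conj_z hcj
  set c' := c.conj g
  by_cases hRE : R ⊓ c'.E = ⊥
  · exfalso
    set K := c.E ⊓ Subgroup.centralizer ({u} : Set G) ⊓ Subgroup.centralizer ({e} : Set G)
    have hKH : K ≤ c'.H := fun a ha => by
      rw [H, mem_cz, hg]
      exact (mem_cz.1 ha.2).mul_right (mem_cz.1 ha.1.2)
    have hRK' : R ≤ K := fun r hr => ⟨hRK hr, mem_cz.2 (her r hr).symm⟩
    have hKc : 128 < Nat.card K := by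
      set C₀ := c.E ⊓ Subgroup.centralizer ({u} : Set G)
      have hb := pairing_bound (z := c.z) (U := C₀) (T := Subgroup.zpowers e)
        fun a ha t ht => c.commE ha.1 (Subgroup.zpowers_le.2 he ht)
      have he1 : e ≠ 1 := fun h => heR (h ▸ one_mem R)
      have hoe : orderOf e = 2 := orderOf_eq_prime (by rw [pow_two, he2]) he1
      rw [(c.card_cent_invol hu hu2 huE).1, Nat.card_zpowers, hoe] at hb
      have hle : Nat.card ↥(C₀ ⊓ Subgroup.centralizer (Subgroup.zpowers e : Set G)) ≤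
          Nat.card K := Subgroup.card_le_of_le fun a ha => ⟨ha.1,
            mem_cz.2 (Subgroup.mem_centralizer_iff.1 ha.2 e (Subgroup.mem_zpowers _) :
              e * a = a * e).symm⟩
      have hpos : 0 < Nat.card ↥(Subgroup.zpowers e ⊓ Subgroup.centralizer (C₀ : Set G)) :=
        Nat.card_pos
      have := le_trans (Nat.le_mul_of_pos_right _ hpos) hb
      norm_num at this
      omega
    obtain ⟨a, ha, b, hb, hab⟩ : ∃ a ∈ K, ∃ b ∈ K, a * b * a⁻¹ * b⁻¹ = c.z := by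
      by_contra hno
      have hKH' : K ≤ c.H := fun a ha => c.E_le ha.1.1
      have h := c.setup.card_le_of_commute (D := K.subgroupOf c.H) (fun x hx => hx.1.1)
        fun a ha b hb => Subtype.ext (commute_of_comm_eq_one
          ((c.commE ha.1.1 hb.1.1).resolve_right fun h => hno ⟨a, ha, b, hb, h⟩)).eq
      rw [Nat.card_congr (Subgroup.subgroupOfEquivOfLe hKH').toEquiv] at h
      omega
    have hmem := c'.comm_mem_E hKH
      (c.isPGroup_E.to_le (fun a ha => ha.1.1)) hRK' hRsq hRc hRE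
      (fun r hr k hk => (hcen r hr k hk.1.1 (mem_cz.1 hk.1.2)).symm) a ha b hb
    rw [hab] at hmem
    exact c.z_ne_one (Subgroup.mem_bot.1 (hRE ▸ ⟨hzR, hmem⟩))
  · obtain ⟨x, ⟨hxR, hxE⟩, hx1⟩ := (Subgroup.bot_or_exists_ne_one _).resolve_left hRE
    refine c.caseE_conj (g := g) ⟨e * u * x, ?_, fun h => hx1 ?_, ?_⟩
    · exact mul_mem (hg ▸ c'.z_mem_E) hxE
    · rw [hg] at h
      exact mul_eq_left.1 h
    · exact c.isConj_iff_conj.1 (hconj x hxR)

end CfsgLib.Jf18.Ctx
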