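import Cfsg.Agent.Jf18.Basic
import Cfsg.Agent.J4Fus72.OuterE

/-!
Janko-four type: a conjugate of the involution in its centraliser gives an inner one, and one in
the 2-core gives a pair inside an elementary abelian subgroup of order `2 ^ 11`.
-/

set_option autoImplicit false

namespace CfsgLib.Jf18.Ctx

open CfsgLib.J4Type67

universe u

variable {G : Type u} [Group G] [Finite G] (c : Ctx G)

theorem conj_one : c.conj 1 = c := by
  simp [conj]

/-- Some inner element other than `z` is fused to `z` as soon as any element of the centraliser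
is. -/
theorem caseInn {v : G} (hv : v ∈ c.H) (hne : v ≠ c.z) (hcj : IsConj c.z v) : c.CaseInn := by
  obtain ⟨g, rfl⟩ := isConj_iff.1 hcj
  obtain ⟨y, hy, hyc, hyne, hyi⟩ := exists_inner_conjugate c.setup rfl g hv hne
  exact ⟨y, (c.mem_inn hy).2 hyi, hyne, hyc⟩

theorem caseInn_conj {v : G} (hv : v ∈ c.H) (hne : v ≠ c.z) (hcj : IsConj c.z v) :
    ∃ g : G, (c.conj g).CaseInn :=
  ⟨1, c.conj_one.symm ▸ c.caseInn hv hne hcj⟩

/-- The case of a conjugate in the 2-core, given that each vector of a duad fixed space lies in a hexad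
fixed space. -/
theorem commonV_of_caseE_of_duad
    (hR5 : ∀ a : M, ∀ w ∈ c.setup.rep.F (conjS a duad),
      ∃ b : M, w ∈ c.setup.rep.F (conjS b hex))
    (h : c.CaseE) : c.CommonV := by
  obtain ⟨v, hv, hne, hcj⟩ := h
  obtain ⟨g, rfl⟩ := isConj_iff.1 hcj
  obtain ⟨V, x, ⟨-, hs⟩, hV, hzV, hxV, hxne, hxc⟩ :=
    exists_conjugate_elementary c.setup rfl hR5 g (c.E_le hv) hne hv
  exact ⟨x, V, hxne, hxc, hzV, hxV, fun a ha => by rw [← pow_two]; exact hs a ha, hV⟩

end CfsgLib.Jf18.Ctx
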