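import Cfsg.Agent.Jf18.Start
import Cfsg.Agent.Jf18.Outer
import Cfsg.Agent.Jf18.Inner
import Cfsg.Agent.Jf18.Common
import Cfsg.Agent.Jf18.Count


/-!
Janko-four type: some involution of the centraliser of `p` other than `z` is fused to `z`.
-/

set_option autoImplicit false

namespace CfsgLib.Jf18.Ctx

open CfsgLib.J4Type67

universe u

variable {G : Type u} [Group G] [Finite G] (c : Ctx G)

theorem factA [IsSimpleGroup G] : c.FactA := by
  obtain ⟨v, hv, hne, hc⟩ := c.exists_conj_ne
  obtain ⟨g, hI⟩ := c.caseInn_conj hv hne hc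
  exact c.factA_conj (((c.conj g).factA_or_caseE hI).elim id
    fun hE => (c.conj g).factA_of_commonV ((c.conj g).commonV_of_caseE hE))

end CfsgLib.Jf18.Ctx
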