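import Cfsg.Agent.Jf18.Basic
import Cfsg.Agent.ZStar.Theorem
import Cfsg.Agent.ZStar.Corollaries

/-!
Janko-four type in a simple group: the involution has another conjugate in its centraliser.
-/

set_option autoImplicit false

namespace CfsgLib.Jf18.Ctx

open CfsgLib.J4Type67

universe u

variable {G : Type u} [Group G] [Finite G] (c : Ctx G)

include c in
theorem not_comm : ¬ IsMulCommutative G := fun h => by
  have := h
  have hsub : (c.E : Set G) ⊆ ({1, c.z} : Set G) := fun e he => c.fixE he (mul_comm' e c.p)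
  have h2 := Set.ncard_le_ncard hsub (Set.toFinite _)
  rw [← Nat.card_coe_set_eq] at h2
  have h3 : ({1, c.z} : Set G).ncard ≤ 2 :=
    (Set.ncard_insert_le _ _).trans (by rw [Set.ncard_singleton])
  have := c.card_E
  change Nat.card c.E ≤ _ at h2
  omega

theorem exists_conj_ne [IsSimpleGroup G] : ∃ v ∈ c.H, v ≠ c.z ∧ IsConj c.z v := by
  by_contra hno
  have hiso : Cfsg.IsIsolated c.z := fun g hc => by
    by_contra hne
    exact hno ⟨_, mem_cz.2 hc.symm, hne, isConj_iff.2 ⟨g, rfl⟩⟩
  have hZ := CfsgLib.ZStar.inZStar_of_isolated c.orderOf_z hiso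
  have hnd : ¬ 2 ∣ Nat.card (Cfsg.pPrimeCore 2 G) := CfsgLib.Constrained.pPrimeCore_not_dvd
  have hbot : Cfsg.pPrimeCore 2 G = ⊥ := by
    refine ((inferInstance : (Cfsg.pPrimeCore 2 G).Normal).eq_bot_or_eq_top).resolve_right ?_
    intro htop
    rw [htop, Subgroup.card_top] at hnd
    exact hnd (c.orderOf_z ▸ orderOf_dvd_natCard c.z)
  have hzc := CfsgLib.ZStar.mem_center_of_inZStar hbot hZ
  rcases (inferInstance : (Subgroup.center G).Normal).eq_bot_or_eq_top with h | h
  · rw [h, Subgroup.mem_bot] at hzc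
    exact c.z_ne_one hzc
  · exact c.not_comm ⟨⟨fun a b => (Subgroup.mem_center_iff.1 (h ▸ Subgroup.mem_top b) a)⟩⟩

end CfsgLib.Jf18.Ctx
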